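import Cfsg.Agent.Lib.Chevalley.Unipotent
import Cfsg.Agent.Lib.Chevalley.Torus
import Cfsg.Agent.Lib.SchurMult.CentralComm
import Cfsg.Prelude.Def_SteinbergCover

/-!
Central extensions of a tabulated Chevalley group: root elements and torus elements in the group, and the
homomorphism from the group of the relators (R1), (R2) attached to a family of lifts.
-/

set_option autoImplicit false
set_option linter.unusedSectionVars false

namespace CfsgLib.ChevMult

open Cfsg.Lie CfsgLib.Chevalley
open scoped commutatorElement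

universe u

variable {D : ChevalleyDatum} {A : Aux} {F : Type*} [Field F]

theorem xG_mem_group (hC : Cert D A) (r : ℕ) (t : F) : xG hC r t ∈ D.group F := by
  by_cases hr : r < D.nroots
  · refine Subgroup.subset_closure ⟨⟨r, hr⟩, t, ?_⟩
    rw [coe_xG]
    simp [ChevalleyDatum.x, hr]
  · have : xG hC r t = 1 := Units.ext (by rw [coe_xG]; simp [ChevalleyDatum.x, hr])
    rw [this]
    exact one_mem _

/-- The root element as a member of the group. -/
noncomputable def xg (hC : Cert D A) (r : ℕ) (t : F) : ↥(D.group F) :=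
  ⟨xG hC r t, xG_mem_group hC r t⟩

@[simp] theorem coe_xg (hC : Cert D A) (r : ℕ) (t : F) : ((xg hC r t : ↥(D.group F)) : GL D.Idx F) = xG hC r t :=
  rfl

theorem xg_mul (hC : Cert D A) (r : ℕ) (t u : F) : xg hC r t * xg hC r u = xg hC r (t + u) :=
  Subtype.ext (xG_mul hC r t u)

theorem xg_zero (hC : Cert D A) (r : ℕ) : xg hC r (0 : F) = 1 := Subtype.ext (xG_zero hC r)

theorem xg_inv (hC : Cert D A) (r : ℕ) (t : F) : (xg hC r t)⁻¹ = xg hC r (-t) := Subtype.ext (xG_inv hC r t)

theorem xg_eq_one (hC : Cert D A) {r : ℕ} (hr : r < D.nroots) {t : F} (h : xg hC r t = 1) : t = 0 := by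
  have h1 : D.x F r t = 1 := by
    have h2 := congrArg (fun g : ↥(D.group F) => ((g : GL D.Idx F) : Matrix D.Idx D.Idx F)) h
    simpa using h2
  exact (x_eq_one_iff hC hr t).1 h1

theorem mem_closure_xg (hC : Cert D A) (g : ↥(D.group F)) :
    g ∈ Subgroup.closure {g | ∃ r t, g = xg (F := F) hC r t} := by
  obtain ⟨g, hg⟩ := g
  revert hg
  suffices ∀ g, g ∈ Subgroup.closure {g : GL D.Idx F | ∃ (r : Fin D.nroots) (t : F),
      (g : Matrix D.Idx D.Idx F) = D.xMat F r t} → ∀ h : g ∈ D.group F,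
      (⟨g, h⟩ : ↥(D.group F)) ∈ Subgroup.closure {g | ∃ r t, g = xg (F := F) hC r t} from
    fun hg => this g hg hg
  intro g hg
  induction hg using Subgroup.closure_induction with
  | mem g hg =>
    intro h
    obtain ⟨r, t, e⟩ := hg
    refine Subgroup.subset_closure ⟨r, t, Subtype.ext (Units.ext ?_)⟩
    rw [e, coe_xg, coe_xG]
    simp [ChevalleyDatum.x]
  | one => intro h; exact one_mem _
  | mul a b ha hb iha ihb => intro h; exact mul_mem (iha ha) (ihb hb)
  | inv a ha iha => intro h; exact inv_mem (iha ha)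

/-- Chevalley's commutator formula in the group. -/
theorem xg_comm (hS : Std D A) {r s : ℕ} (hr : r < D.nroots) (hs : s < D.nroots) (h1 : s ≠ r)
    (h2 : s ≠ D.neg r) (t u : F) :
    (xg hS.cert s u)⁻¹ * (xg hS.cert r t)⁻¹ * xg hS.cert s u * xg hS.cert r t =
      ((D.commWord F r s t u).map fun p => xg hS.cert p.1 p.2).prod := by
  have h := x_mul_x hS.mem hr hs h1 h2 t u
  rw [wordMat_eq_prod hS.cert] at h
  have h' : xG hS.cert s u * xG hS.cert r t = xG hS.cert r t * xG hS.cert s u *
      ((D.commWord F r s t u).map fun p => xG hS.cert p.1 p.2).prod :=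
    Units.ext (by simpa using h)
  refine Subtype.ext ?_
  rw [Subgroup.val_list_prod, List.map_map]
  simp only [Subgroup.coe_mul, Subgroup.coe_inv, coe_xg, Function.comp_def]
  calc _ = (xG hS.cert s u)⁻¹ * (xG hS.cert r t)⁻¹ * (xG hS.cert s u * xG hS.cert r t) := by group
    _ = _ := by rw [h']; group

theorem torusHom_mem_group (hC : Cert D A) (c : Fin D.rank → Fˣ) : torusHom D F c ∈ D.group F := by
  rw [← Finset.univ_prod_mulSingle c, ← Subgroup.mem_comap]
  refine Subgroup.prod_mem _ fun i _ => ?_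
  rw [Subgroup.mem_comap, torusHom_mulSingle hC]
  exact mul_mem (by
    simp only [nG]
    exact mul_mem (mul_mem (xG_mem_group hC _ _) (xG_mem_group hC _ _)) (xG_mem_group hC _ _)) (by
    simp only [nG]
    exact mul_mem (mul_mem (xG_mem_group hC _ _) (xG_mem_group hC _ _)) (xG_mem_group hC _ _))

/-- The torus element as a member of the group. -/
noncomputable def tg (hC : Cert D A) (c : Fin D.rank → Fˣ) : ↥(D.group F) :=
  ⟨torusHom D F c, torusHom_mem_group hC c⟩

theorem tg_conj (hC : Cert D A) (c : Fin D.rank → Fˣ) {r : ℕ} (hr : r < D.nroots) (t : F) :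
    tg hC c * xg hC r t * (tg hC c)⁻¹ = xg hC r (((chi D r c : Fˣ) : F) * t) :=
  Subtype.ext ((acts_torus hC c).conj ⟨r, hr⟩ t)

theorem tg_comm (hC : Cert D A) (c d : Fin D.rank → Fˣ) : tg hC c * tg hC d = tg hC d * tg hC c := by
  refine Subtype.ext ?_
  show torusHom D F c * torusHom D F d = torusHom D F d * torusHom D F c
  rw [← map_mul, ← map_mul, mul_comm]

/-- A central extension of the group. -/
structure CExt (hS : Std D A) {Γ : Type u} [Group Γ] (π : Γ →* ↥(D.group F)) : Prop where
  /-- onto -/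
  surj : Function.Surjective π
  /-- central kernel -/
  central : π.ker ≤ Subgroup.center Γ

/-- A family of lifts satisfying (R1) and (R2). -/
structure Lifts (hS : Std D A) {Γ : Type u} [Group Γ] (π : Γ →* ↥(D.group F)) (X : ℕ → F → Γ) : Prop where
  /-- they are lifts -/
  map : ∀ r < D.nroots, ∀ t, π (X r t) = xg hS.cert r t
  /-- (R1) -/
  add : ∀ r < D.nroots, ∀ t u, X r t * X r u = X r (t + u)
  /-- (R2) -/
  comm : ∀ r < D.nroots, ∀ s < D.nroots, s ≠ r → s ≠ D.neg r → ∀ t u,
    (X s u)⁻¹ * (X r t)⁻¹ * X s u * X r t = ((D.commWord F r s t u).map fun p => X p.1 p.2).prod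

variable {hS : Std D A} {Γ : Type u} [Group Γ] {π : Γ →* ↥(D.group F)}

theorem Lifts.exists_hom {X : ℕ → F → Γ} (hX : Lifts hS π X)
    (hlt : ∀ r < D.nroots, ∀ s < D.nroots, ∀ c ∈ D.commTerms r s, c.1 < D.nroots) :
    ∃ φ : D.SteinbergCover F →* Γ, ∀ r < D.nroots, ∀ t, φ (D.scGen F r t) = X r t ∧
      π (φ (D.scGen F r t)) = xg hS.cert r t := by
  let f : Fin D.nroots × F → Γ := fun p => X p.1 p.2
  have hx : ∀ r < D.nroots, ∀ t : F, FreeGroup.lift f (D.stX r t) = X r t := fun r hr t => by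
    simp [ChevalleyDatum.stX, hr, f]
  have hrel : ∀ x ∈ D.steinbergRelsAB F, FreeGroup.lift f x = 1 := by
    rintro x (⟨r, t, u, hr, rfl⟩ | ⟨r, s, t, u, hr, hs, h1, h2, rfl⟩)
    · simp only [map_mul, map_inv, hx r hr, mul_inv_eq_one]
      exact hX.add r hr t u
    · have hw : FreeGroup.lift f (D.stWord (D.commWord F r s t u)) =
          ((D.commWord F r s t u).map fun p => X p.1 p.2).prod := by
        simp only [ChevalleyDatum.stWord, map_list_prod, List.map_map]
        refine congrArg List.prod (List.map_congr_left fun p hp => ?_)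
        obtain ⟨c, hc, rfl⟩ := List.mem_map.1 hp
        exact hx _ (hlt r hr s hs c hc) _
      simp only [map_mul, map_inv, hx r hr, hx s hs, hw, mul_inv_eq_one]
      exact hX.comm r hr s hs h1 h2 t u
  refine ⟨PresentedGroup.toGroup hrel, fun r hr t => ?_⟩
  have e : PresentedGroup.toGroup hrel (D.scGen F r t) = X r t := hx r hr t
  exact ⟨e, by rw [e]; exact hX.map r hr t⟩

theorem CExt.mul_comm_ker (E : CExt hS π) {z : Γ} (hz : π z = 1) (g : Γ) : g * z = z * g :=
  SchurMult.ker_comm E.central hz g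

theorem CExt.comm_congr (E : CExt hS π) {a a' b b' : Γ} (ha : π a = π a') (hb : π b = π b') :
    ⁅a, b⁆ = ⁅a', b'⁆ := SchurMult.comm_eq_of_map_eq E.central ha hb

theorem CExt.conj_congr (E : CExt hS π) {g g' : Γ} (h : π g = π g') (x : Γ) :
    g * x * g⁻¹ = g' * x * g'⁻¹ := by
  have hz : π (g'⁻¹ * g) = 1 := by rw [map_mul, map_inv, h, inv_mul_cancel]
  calc g * x * g⁻¹ = g' * ((g'⁻¹ * g) * x) * g⁻¹ := by group
    _ = g' * (x * (g'⁻¹ * g)) * g⁻¹ := by rw [E.mul_comm_ker hz x]
    _ = _ := by group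

/-- Some lift. -/
noncomputable def CExt.lift (E : CExt hS π) (r : ℕ) (t : F) : Γ := (E.surj (xg hS.cert r t)).choose

theorem CExt.map_lift (E : CExt hS π) (r : ℕ) (t : F) : π (E.lift r t) = xg hS.cert r t :=
  (E.surj (xg hS.cert r t)).choose_spec

/-- The commutator of lifts of two root elements. -/
noncomputable def CExt.cl (E : CExt hS π) (r s : ℕ) (t u : F) : Γ := ⁅E.lift r t, E.lift s u⁆

theorem CExt.cl_eq (E : CExt hS π) {r s : ℕ} {t u : F} {a b : Γ} (ha : π a = xg hS.cert r t)
    (hb : π b = xg hS.cert s u) : ⁅a, b⁆ = E.cl r s t u :=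
  E.comm_congr (ha.trans (E.map_lift r t).symm) (hb.trans (E.map_lift s u).symm)

/-- All lifts of the root elements of `r` and of `s` commute. -/
def Comm (hS : Std D A) (π : Γ →* ↥(D.group F)) (r s : ℕ) : Prop :=
  ∀ (a b : Γ) (t u : F), π a = xg hS.cert r t → π b = xg hS.cert s u → Commute a b

theorem Comm.symm {r s : ℕ} (h : Comm hS π r s) : Comm hS π s r :=
  fun a b t u ha hb => (h b a u t hb ha).symm

theorem xg_comm_single (hS : Std D A) {r s k : ℕ} (hr : r < D.nroots) (hs : s < D.nroots) (h1 : s ≠ r)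
    (h2 : s ≠ D.neg r) {C : ℤ} (hC : D.commTerms r s = [(k, C, 1, 1)]) (t u : F) :
    ⁅xg hS.cert s u, xg hS.cert r t⁆ = xg hS.cert k (-(C : F) * t * u) := by
  have h := xg_comm hS hr hs h1 h2 (-t) (-u)
  simp only [xg_inv, neg_neg, ChevalleyDatum.commWord, hC, List.map_cons, List.map_nil, List.prod_cons,
    List.prod_nil, mul_one, pow_one] at h
  rw [commutatorElement_def, xg_inv, xg_inv, h]
  congr 1
  ring

theorem xg_commute (hS : Std D A) {r s : ℕ} (hr : r < D.nroots) (hs : s < D.nroots)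
    (h2 : s ≠ D.neg r) (hC : s = r ∨ D.commTerms r s = []) (t u : F) :
    Commute (xg hS.cert r t) (xg hS.cert s u) := by
  by_cases h1 : s = r
  · subst h1
    show _ = _
    rw [xg_mul, xg_mul, add_comm]
  · have h := xg_comm hS hr hs h1 h2 t u
    rw [ChevalleyDatum.commWord, hC.resolve_left h1] at h
    simp only [List.map_nil, List.prod_nil] at h
    show _ = _
    calc xg hS.cert r t * xg hS.cert s u
        = xg hS.cert r t * xg hS.cert s u *
            ((xg hS.cert s u)⁻¹ * (xg hS.cert r t)⁻¹ * xg hS.cert s u * xg hS.cert r t) := by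
          rw [h, mul_one]
      _ = _ := by group

end CfsgLib.ChevMult
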