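import Cfsg.Agent.Lib.ChevMult.Base

/-!
Commutation of lifts of root elements in a central extension of a Chevalley group, and the checked conditions
under which it holds.
-/

set_option autoImplicit false
set_option linter.unusedSectionVars false

namespace CfsgLib.ChevMult

open Cfsg.Lie CfsgLib.Chevalley
open scoped commutatorElement

universe u

/-- the commutator of the root elements of `a`, `b` is a single root element of `k` with coefficient `± d` -/
def singleB (D : ChevalleyDatum) (d : ℤ) (a b k : ℕ) : Bool :=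
  decide (a < D.nroots ∧ b < D.nroots ∧ b ≠ a ∧ b ≠ D.neg a) &&
    decide (D.commTerms a b = [(k, d, 1, 1)] ∨ D.commTerms a b = [(k, -d, 1, 1)])

/-- the root elements of `r`, `a` commute -/
def okComB (D : ChevalleyDatum) (r a : ℕ) : Bool :=
  decide (r < D.nroots ∧ a < D.nroots ∧ a ≠ D.neg r) && (Nat.beq a r || (D.commTerms r a).isEmpty)

/-- the second root elements are commutators of root elements commuting with the first -/
def methodB (D : ChevalleyDatum) (d : ℤ) (r s : ℕ) : Bool :=
  (List.range D.nroots).any fun a => (D.chain.getD a #[]).toList.any fun e =>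
    e.2.toList.any (fun q => Nat.beq q.1 s) &&
      (okComB D r a && okComB D r e.1 && singleB D d a e.1 s)

variable {D : ChevalleyDatum} {A : Aux} {F : Type*} [Field F]
variable {hS : Std D A} {Γ : Type u} [Group Γ] {π : Γ →* ↥(D.group F)}

theorem okComB_spec {r a : ℕ} (h : okComB D r a = true) (t u : F) :
    Commute (xg hS.cert r t) (xg hS.cert a u) := by
  simp only [okComB, Bool.and_eq_true, decide_eq_true_eq, Bool.or_eq_true, List.isEmpty_iff] at h
  exact xg_commute hS h.1.1 h.1.2.1 h.1.2.2 (h.2.imp_left Nat.eq_of_beq_eq_true) t u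

theorem singleB_spec {d : ℤ} {a b k : ℕ} (h : singleB D d a b k = true) :
    ∃ C : ℤ, (C = d ∨ C = -d) ∧
      ∀ t u : F, ⁅xg hS.cert b u, xg hS.cert a t⁆ = xg hS.cert k (-(C : F) * t * u) := by
  simp only [singleB, Bool.and_eq_true, decide_eq_true_eq] at h
  obtain ⟨⟨ha, hb, h1, h2⟩, h3⟩ := h
  rcases h3 with h3 | h3
  · exact ⟨d, Or.inl rfl, xg_comm_single hS ha hb h1 h2 h3⟩
  · exact ⟨-d, Or.inr rfl, xg_comm_single hS ha hb h1 h2 h3⟩

/-- A lift commuting modulo the centre with two elements commutes with their commutator. -/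
theorem CExt.commute_commutator (E : CExt hS π) {z a b : Γ} (ha : Commute (π z) (π a))
    (hb : Commute (π z) (π b)) : Commute z ⁅b, a⁆ := by
  have e : z * ⁅b, a⁆ * z⁻¹ = ⁅b, a⁆ := by
    rw [conjugate_commutatorElement]
    exact E.comm_congr (by rw [map_mul, map_mul, map_inv, hb.eq, mul_inv_cancel_right])
      (by rw [map_mul, map_mul, map_inv, ha.eq, mul_inv_cancel_right])
  exact mul_inv_eq_iff_eq_mul.1 e

theorem CExt.commute_of_image_eq (E : CExt hS π) {z x y : Γ} (h : π x = π y) (hc : Commute z y) :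
    Commute z x := by
  have hz : π (y⁻¹ * x) = 1 := by rw [map_mul, map_inv, h, inv_mul_cancel]
  have h2 : Commute z (y * (y⁻¹ * x)) := hc.mul_right (E.mul_comm_ker hz z)
  rwa [mul_inv_cancel_left] at h2

theorem comm_of_decomp (E : CExt hS π) {d : ℤ} (hd : (d : F) ≠ 0) {r s a b : ℕ}
    (hra : okComB D r a = true) (hrb : okComB D r b = true) (hs : singleB D d a b s = true) :
    Comm hS π r s := by
  obtain ⟨C, hC, hsingle⟩ := singleB_spec (hS := hS) (F := F) hs
  have hC0 : (C : F) ≠ 0 := by rcases hC with rfl | rfl <;> simpa using hd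
  intro x y t u hx hy
  obtain ⟨A', hA⟩ := E.surj (xg hS.cert a (-u / (C : F)))
  obtain ⟨B', hB⟩ := E.surj (xg hS.cert b 1)
  refine E.commute_of_image_eq (y := ⁅B', A'⁆) ?_ (E.commute_commutator ?_ ?_)
  · rw [hy, map_commutatorElement, hA, hB, hsingle, mul_one,
      show -(C : F) * (-u / (C : F)) = u by field_simp]
  · rw [hx, hA]; exact okComB_spec (hS := hS) hra _ _
  · rw [hx, hB]; exact okComB_spec (hS := hS) hrb _ _

theorem comm_of_methodB (E : CExt hS π) {d : ℤ} (hd : (d : F) ≠ 0) {r s : ℕ}
    (h : methodB D d r s = true) : Comm hS π r s := by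
  simp only [methodB, List.any_eq_true, Bool.and_eq_true] at h
  obtain ⟨a, -, e, -, -, ⟨hra, hrb⟩, hs⟩ := h
  exact comm_of_decomp E hd hra hrb hs

end CfsgLib.ChevMult
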