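import Cfsg.Agent.Lib.ChevMult.Universal
import Cfsg.Agent.Lib.SteinbergPres.CoverAll

/-! Over a finite field Steinberg's group is finite and its centre is killed by `q - 1`. -/

set_option autoImplicit false
set_option linter.unusedSectionVars false

namespace CfsgLib.ChevMult

open Cfsg.Lie CfsgLib.Chevalley CfsgLib.SteinbergPres

variable {D : ChevalleyDatum} {A : Aux} {F : Type*} [Field F]

theorem exists_torus_param (h : Full D A) :
    ∃ f : (Fin D.rank → Fˣ) →* D.SteinbergGroup F,
      ∀ z ∈ Subgroup.center (D.SteinbergGroup F), ∃ c, f c = z := by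
  obtain ⟨σ, η, cart, coro, par, dep, w0, C, hE⟩ := hasStCert_of_mem h.mem F
  refine ⟨C.torPhi h hE, fun z hz => ?_⟩
  rw [← ker_thetaGroup h] at hz
  exact C.exists_torPhi h hE (mem_tor_of_theta h (by rw [← coe_thetaGroup h z, MonoidHom.mem_ker.1 hz]; rfl))

theorem finite_st [Finite F] (h : Full D A) : Finite (D.SteinbergGroup F) := by
  obtain ⟨f, hf⟩ := exists_torus_param (F := F) h
  have hsurj : Function.Surjective fun c : {c // f c ∈ Subgroup.center (D.SteinbergGroup F)} =>
      (⟨f c.1, c.2⟩ : Subgroup.center (D.SteinbergGroup F)) := by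
    rintro ⟨z, hz⟩
    obtain ⟨c, rfl⟩ := hf z hz
    exact ⟨⟨c, hz⟩, rfl⟩
  have hfz : Finite (Subgroup.center (D.SteinbergGroup F)) := Finite.of_surjective _ hsurj
  -- the quotient by the centre is the group of matrices
  rw [← ker_thetaGroup (K := F) h] at hfz
  have : Finite (D.SteinbergGroup F ⧸ (thetaGroup (K := F) h).ker) :=
    Finite.of_equiv _ (QuotientGroup.quotientKerEquivOfSurjective _ (thetaGroup_surjective h)).symm.toEquiv
  exact Finite.of_subgroup_quotient (thetaGroup (K := F) h).ker

theorem center_pow_card [Finite F] (h : Full D A) {z : D.SteinbergGroup F}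
    (hz : z ∈ Subgroup.center (D.SteinbergGroup F)) : z ^ Nat.card Fˣ = 1 := by
  obtain ⟨f, hf⟩ := exists_torus_param (F := F) h
  obtain ⟨c, rfl⟩ := hf z hz
  rw [← map_pow, show c ^ Nat.card Fˣ = 1 from funext fun i => by rw [Pi.pow_apply, pow_card_eq_one']; rfl,
    map_one]

theorem finite_cover [Finite F] (h : Full D A) : Finite (D.SteinbergCover F) := by
  have := finite_st (F := F) h
  exact Finite.of_injective _ (scProj_bijective (K := F) h).1

/-- The kernel of the map from the cover has no element of order the characteristic. -/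
theorem cover_ker_pow_eq_one [Finite F] (h : Full D A) {p : ℕ} (hp : p.Prime) (hpF : (p : F) = 0)
    {d : D.SteinbergCover F} (hd : thetaGroup h (scProj D F d) = 1) (hdp : d ^ p = 1) : d = 1 := by
  apply (scProj_bijective (K := F) h).1
  rw [map_one]
  set z := scProj D F d
  have hz : z ∈ Subgroup.center (D.SteinbergGroup F) := by rw [← ker_thetaGroup h]; exact hd
  have h1 := center_pow_card h hz
  have h2 : z ^ p = 1 := by simp only [z]; rw [← map_pow, hdp, map_one]
  have hco : Nat.Coprime p (Nat.card Fˣ) := by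
    refine (hp.coprime_iff_not_dvd).2 fun hdvd => ?_
    have : Fintype F := Fintype.ofFinite F
    classical
    rw [Nat.card_eq_fintype_card, Fintype.card_units] at hdvd
    have hpc : (p : ℕ) ∣ Fintype.card F := by
      obtain ⟨q, hq⟩ := CharP.exists F
      have hqp := CharP.char_is_prime_or_zero F q
      have hdiv : q ∣ p := (CharP.cast_eq_zero_iff F q p).1 hpF
      obtain ⟨n, hqprime, hcard⟩ := FiniteField.card F q
      rw [(Nat.prime_dvd_prime_iff_eq hqprime hp).1 hdiv] at hcard
      rw [hcard]
      exact dvd_pow_self p n.ne_zero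
    have h1 : 1 ≤ Fintype.card F := Fintype.card_pos
    have h3 := Nat.dvd_sub hpc hdvd
    rw [show Fintype.card F - (Fintype.card F - 1) = 1 by omega] at h3
    exact hp.one_lt.ne' (Nat.eq_one_of_dvd_one h3)
  have := Nat.dvd_gcd (orderOf_dvd_of_pow_eq_one h2) (orderOf_dvd_of_pow_eq_one h1)
  rw [hco.gcd_eq_one, Nat.dvd_one] at this
  exact orderOf_eq_one_iff.1 this

end CfsgLib.ChevMult
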