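import Cfsg.Agent.Lib.ChevMult.Commute

/-!
Lifts satisfying (R1), (R2) in every central extension of a Chevalley group whose datum passes the checks of
this file (the types `E`): all sums of two roots come from single commutators, and any two such expressions of a
root are linked by the Hall–Witt identity.
-/

set_option autoImplicit false
set_option linter.unusedSectionVars false

namespace CfsgLib.ChevMult

open Cfsg.Lie CfsgLib.Chevalley
open scoped commutatorElement

universe u

/-- quick access to the tables of a datum: number of roots, chain lists, negation -/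
structure Tab where
  /-- the number of roots -/
  n : ℕ
  /-- the chain lists -/
  ch : ℕ → List (ℕ × Array (ℕ × ℤ))
  /-- negation -/
  ng : ℕ → ℕ

/-- the tables of a datum -/
def tabOf (D : ChevalleyDatum) : Tab := ⟨D.nroots, fun r => (D.chain.getD r #[]).toList, D.neg⟩

/-- the entry of the chain table of `r` at `s` -/
def ent (T : Tab) (r s : ℕ) : List (ℕ × ℤ) :=
  match (T.ch r).find? (fun e => Nat.beq e.1 s) with
  | none => []
  | some e => e.2.toList

/-- the entry `(a, b)` of the chain table is `k` with a sign -/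
def oneB (T : Tab) (a b k : ℕ) : Bool :=
  Nat.blt a T.n && Nat.blt b T.n && !Nat.beq b a && !Nat.beq b (T.ng a) &&
    match ent T a b with
    | [(k', C)] => Nat.beq k' k && (Nat.beq C.natAbs 1)
    | _ => false

/-- the root elements of `r`, `a` commute -/
def freeB (T : Tab) (r a : ℕ) : Bool :=
  Nat.blt r T.n && Nat.blt a T.n && !Nat.beq a (T.ng r) &&
    (Nat.beq a r || (ent T r a).isEmpty)

/-- `s` is the sum of two roots commuting with `r` -/
def methodS (T : Tab) (r s : ℕ) : Bool :=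
  (T.ch s).any fun e =>
    match e.2.toList with
    | [(b, _)] => freeB T r b && freeB T r (T.ng e.1) && oneB T (T.ng e.1) b s
    | _ => false

/-- a chosen expression of `k` as a commutator -/
def canon (T : Tab) (k : ℕ) : ℕ × ℕ :=
  match (T.ch k).head? with
  | some e => (T.ng e.1, ((e.2.toList.head?).getD (0, 0)).1)
  | none => (0, 0)

/-- `x = a + m`, `y' = m + y`, so the pairs `(x, y)` and `(a, y')` of sum `k` are linked -/
def edgeB (T : Tab) (k x y a y' : ℕ) : Bool :=
  match ent T x (T.ng a) with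
  | [(m, _)] =>
    oneB T m a x && oneB T y m y' && oneB T y x k && oneB T y' a k && freeB T a y && freeB T x y'
  | _ => false

/-- the two pairs are linked, in some order -/
def linkB (T : Tab) (k x y x' y' : ℕ) : Bool :=
  edgeB T k x y x' y' || edgeB T k x' y' x y

/-- the pair is linked to some pair -/
def someLinkB (T : Tab) (k x y : ℕ) : Bool :=
  (T.ch k).any fun e => linkB T k x y (T.ng e.1) ((e.2.toList.head?).getD (0, 0)).1

/-- the pair `(r, s)` of sum `k` is linked to the chosen one -/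
def canLinkB (T : Tab) (k r s : ℕ) : Bool :=
  let p := canon T k
  if Nat.beq r p.1 && Nat.beq s p.2 || Nat.beq r p.2 && Nat.beq s p.1 then
    someLinkB T k p.1 p.2 || someLinkB T k p.2 p.1
  else linkB T k r s p.1 p.2 || linkB T k s r p.1 p.2 || linkB T k r s p.2 p.1 || linkB T k s r p.2 p.1

/-- the test for one pair -/
def slPairT (T : Tab) (r s : ℕ) : Bool :=
  Nat.beq s (T.ng r) ||
    if Nat.beq s r || (ent T r s).isEmpty then methodS T r s || methodS T s r
    else
      match ent T r s with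
      | [(k, _)] =>
        Nat.blt k T.n && oneB T r s k && oneB T s r k && freeB T r k && freeB T s k &&
          canLinkB T k r s
      | _ => false

/-- the test for one root -/
def slRootT (T : Tab) (k : ℕ) : Bool :=
  let p := canon T k
  oneB T p.2 p.1 k

/-- all the tests -/
structure SLCert (D : ChevalleyDatum) : Prop where
  /-- the chains have length one -/
  sl : slB D = true
  /-- the pairs -/
  pair : ∀ r < D.nroots, ∀ s < D.nroots, slPairT (tabOf D) r s = true
  /-- the roots -/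
  root : ∀ k < D.nroots, slRootT (tabOf D) k = true

variable {D : ChevalleyDatum} {A : Aux} {F : Type*} [Field F]
variable {hS : Std D A} {Γ : Type u} [Group Γ] {π : Γ →* ↥(D.group F)}

/-- The commutators of lifts for the pair `(x, y)` have images in the root group of `k` and are biadditive. -/
structure Pair (hS : Std D A) (π : Γ →* ↥(D.group F)) (x y k : ℕ) (e : F) : Prop where
  /-- a sign -/
  sq : e * e = 1
  /-- the image -/
  img : ∀ t u : F, ⁅xg hS.cert x t, xg hS.cert y u⁆ = xg hS.cert k (e * t * u)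
  /-- commutation -/
  comm_left : Comm hS π x k
  /-- commutation -/
  comm_right : Comm hS π y k
  /-- commutation -/
  comm_self : Comm hS π k k

theorem CExt.map_cl (E : CExt hS π) {x y k : ℕ} {e : F} (P : Pair hS π x y k e) (t u : F) :
    π (E.cl x y t u) = xg hS.cert k (e * t * u) := by
  rw [CExt.cl, map_commutatorElement, E.map_lift, E.map_lift, P.img]

theorem CExt.cl_add_left (E : CExt hS π) {x y k : ℕ} {e : F} (P : Pair hS π x y k e) (t t' u : F) :
    E.cl x y (t + t') u = E.cl x y t u * E.cl x y t' u := by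
  rw [← E.cl_eq (a := E.lift x t * E.lift x t') (b := E.lift y u)
    (by rw [map_mul, E.map_lift, E.map_lift, xg_mul]) (E.map_lift _ _)]
  have h1 : Commute (E.lift x t) (E.cl x y t' u) := P.comm_left _ _ t _ (E.map_lift _ _) (E.map_cl P _ _)
  have h2 : Commute (E.cl x y t u) (E.cl x y t' u) := P.comm_self _ _ _ _ (E.map_cl P _ _) (E.map_cl P _ _)
  calc ⁅E.lift x t * E.lift x t', E.lift y u⁆
      = E.lift x t * E.cl x y t' u * (E.lift x t)⁻¹ * E.cl x y t u := by
        simp only [CExt.cl, commutatorElement_def]; group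
    _ = E.cl x y t' u * E.cl x y t u := by rw [h1.eq, mul_inv_cancel_right]
    _ = _ := h2.eq.symm

theorem CExt.cl_add_right (E : CExt hS π) {x y k : ℕ} {e : F} (P : Pair hS π x y k e) (t u u' : F) :
    E.cl x y t (u + u') = E.cl x y t u * E.cl x y t u' := by
  rw [← E.cl_eq (a := E.lift x t) (b := E.lift y u * E.lift y u') (E.map_lift _ _)
    (by rw [map_mul, E.map_lift, E.map_lift, xg_mul])]
  have h1 : Commute (E.lift y u) (E.cl x y t u') := P.comm_right _ _ u _ (E.map_lift _ _) (E.map_cl P _ _)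
  calc ⁅E.lift x t, E.lift y u * E.lift y u'⁆
      = E.cl x y t u * (E.lift y u * E.cl x y t u' * (E.lift y u)⁻¹) := by
        simp only [CExt.cl, commutatorElement_def]; group
    _ = _ := by rw [h1.eq, mul_inv_cancel_right]

theorem CExt.cl_neg_left (E : CExt hS π) {x y k : ℕ} {e : F} (P : Pair hS π x y k e) (t u : F) :
    E.cl x y (-t) u = (E.cl x y t u)⁻¹ := by
  have h0 : E.cl x y 0 u = 1 := by
    have := E.cl_add_left P 0 0 u
    rw [add_zero] at this
    exact left_eq_mul.1 this
  exact eq_inv_of_mul_eq_one_left (by rw [← E.cl_add_left P, neg_add_cancel, h0])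

/-- The commutators of a pair depend only on the value of their image, through `G`. -/
def Det (E : CExt hS π) (x y : ℕ) (e : F) (G : F → Γ) : Prop := ∀ t u, E.cl x y t u = G (e * t * u)

theorem Det.unique {E : CExt hS π} {x y : ℕ} {e : F} {G G' : F → Γ} (he : e * e = 1)
    (h : Det E x y e G) (h' : Det E x y e G') : G = G' := by
  funext w
  have := (h (e * w) 1).symm.trans (h' (e * w) 1)
  rwa [mul_one, ← mul_assoc, he, one_mul] at this

theorem Det.swap {E : CExt hS π} {x y k : ℕ} {e e' : F} {G : F → Γ} (hk : k < D.nroots)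
    (P : Pair hS π x y k e) (P' : Pair hS π y x k e') (h : Det E x y e G) : Det E y x e' G := by
  intro t u
  have h1 : E.cl y x t u = E.cl x y (-u) t := by
    rw [E.cl_neg_left P, CExt.cl, CExt.cl, commutatorElement_inv]
  have h2 : e' * t * u = e * -u * t := by
    have := (E.map_cl P' t u).symm.trans (congrArg π h1)
    rw [E.map_cl P] at this
    have h3 : xg hS.cert k (e' * t * u + -(e * -u * t)) = 1 := by
      rw [← xg_mul, this, xg_mul, add_neg_cancel, xg_zero]
    exact eq_of_sub_eq_zero (by rw [sub_eq_add_neg]; exact xg_eq_one hS.cert hk h3)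
  rw [h1, h, h2]

/-- The Hall–Witt step. -/
theorem shift (E : CExt hS π) {x y a y' k : ℕ} {e e' : F} (hk : k < D.nroots)
    (P : Pair hS π x y k e) (P' : Pair hS π a y' k e') (hcyk : Comm hS π y' k)
    {m : ℕ} (hxy' : Comm hS π x y')
    (hca : Comm hS π a y) {e1 e2 : F} (he1 : e1 * e1 = 1) (he2 : e2 * e2 = 1)
    (h1 : ∀ t v : F, ⁅xg hS.cert a t, xg hS.cert m v⁆ = xg hS.cert x (e1 * t * v))
    (h2 : ∀ v u : F, ⁅xg hS.cert m v, xg hS.cert y u⁆ = xg hS.cert y' (e2 * v * u)) :
    ∃ G, Det E x y e G ∧ Det E a y' e' G := by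
  have key : ∀ t v u : F, E.cl x y (e1 * t * v) u = E.cl a y' t (e2 * v * u) := by
    intro t v u
    set A' := E.lift a t
    set M := E.lift m v
    set Y := E.lift y u
    have hP : π ⁅A', M⁆ = xg hS.cert x (e1 * t * v) := by
      rw [map_commutatorElement, E.map_lift, E.map_lift, h1]
    have hQ : π ⁅M, Y⁆ = xg hS.cert y' (e2 * v * u) := by
      rw [map_commutatorElement, E.map_lift, E.map_lift, h2]
    have hac : Commute A' Y := hca _ _ t u (E.map_lift _ _) (E.map_lift _ _)
    have hPQ : Commute ⁅A', M⁆ ⁅M, Y⁆ := hxy' _ _ _ _ hP hQ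
    have hPc : π ⁅⁅A', M⁆, Y⁆ = xg hS.cert k (e * (e1 * t * v) * u) := by
      rw [map_commutatorElement, hP, E.map_lift, P.img]
    have hQc : Commute ⁅M, Y⁆ ⁅⁅A', M⁆, Y⁆ := hcyk _ _ _ _ hQ hPc
    rw [← E.cl_eq (a := ⁅A', M⁆) (b := Y) hP (E.map_lift _ _),
      ← E.cl_eq (a := A') (b := ⁅M, Y⁆) (E.map_lift _ _) hQ]
    have key : A' * ⁅M, Y⁆ * A'⁻¹ = ⁅M, Y⁆ * ⁅⁅A', M⁆, Y⁆ := by
      have e2 : A' * Y * A'⁻¹ = Y := by rw [hac.eq, mul_inv_cancel_right]
      calc A' * ⁅M, Y⁆ * A'⁻¹
          = (A' * M * A'⁻¹) * (A' * Y * A'⁻¹) * (A' * M * A'⁻¹)⁻¹ * (A' * Y * A'⁻¹)⁻¹ := by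
            simp only [commutatorElement_def]; group
        _ = (⁅A', M⁆ * ⁅M, Y⁆) * Y * ⁅A', M⁆⁻¹ * Y⁻¹ := by
            rw [e2]; simp only [commutatorElement_def]; group
        _ = (⁅M, Y⁆ * ⁅A', M⁆) * Y * ⁅A', M⁆⁻¹ * Y⁻¹ := by rw [hPQ.eq]
        _ = _ := by simp only [commutatorElement_def]; group
    calc ⁅⁅A', M⁆, Y⁆ = (⁅M, Y⁆ * ⁅⁅A', M⁆, Y⁆) * ⁅M, Y⁆⁻¹ := by rw [hQc.eq, mul_inv_cancel_right]
      _ = ⁅A', ⁅M, Y⁆⁆ := by rw [← key, commutatorElement_def A' ⁅M, Y⁆]
  have hsign : e * e1 = e' * e2 := by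
    have h3 := congrArg π (key 1 1 1)
    rw [E.map_cl P, E.map_cl P'] at h3
    simp only [mul_one] at h3
    have h4 : xg hS.cert k (e * e1 + -(e' * e2)) = 1 := by
      rw [← xg_mul, h3, xg_mul, add_neg_cancel, xg_zero]
    exact eq_of_sub_eq_zero (by rw [sub_eq_add_neg]; exact xg_eq_one hS.cert hk h4)
  have hleft : ∀ p q : F, E.cl x y p q = E.cl a y' 1 (e2 * e1 * p * q) := by
    intro p q
    have := key 1 (e1 * p) q
    rw [show e1 * 1 * (e1 * p) = p by rw [mul_one, ← mul_assoc, he1, one_mul]] at this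
    rw [this]
    congr 1
    ring
  refine ⟨fun w => E.cl a y' 1 (e' * w), fun t u => ?_, fun t u => ?_⟩
  · rw [hleft]
    congr 1
    linear_combination (-(e' * e1 * t * u)) * hsign + (e' * e * t * u) * he1 -
      (e1 * e2 * t * u) * P'.sq
  · have := key t (e2 * u) 1
    rw [show e2 * (e2 * u) * 1 = u by rw [mul_one, ← mul_assoc, he2, one_mul]] at this
    rw [← this, hleft]
    congr 1
    linear_combination (e2 * e2 * t * u) * he1 + (t * u) * he2 - (t * u) * P'.sq

theorem ent_eq (r s : ℕ) : ent (tabOf D) r s = D.chainEntry r s := by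
  have e : (fun e : ℕ × Array (ℕ × ℤ) => Nat.beq e.1 s) = fun e => decide (e.1 = s) := by
    funext e
    exact Bool.eq_iff_iff.2 (by rw [decide_eq_true_eq]; exact ⟨Nat.eq_of_beq_eq_true, fun h => by
      subst h; exact Nat.beq_refl _⟩)
  rw [ent, ChevalleyDatum.chainEntry, e]
  rfl

theorem commTerms_of_ent (hC : Cert D A) (hsl : slB D = true) {r s : ℕ} (hr : r < D.nroots)
    (hs : s < D.nroots) :
    D.commTerms r s = (ent (tabOf D) r s).zipIdx.map fun q => (q.1.1, q.1.2, q.2 + 1, 1) := by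
  rw [ent_eq, (commTerms_simply_laced hC hsl hr hs).1]
  rfl

theorem commTerms_eq_nil_iff (hC : Cert D A) (hsl : slB D = true) {r s : ℕ} (hr : r < D.nroots)
    (hs : s < D.nroots) : D.commTerms r s = [] ↔ ent (tabOf D) r s = [] := by
  rw [commTerms_of_ent hC hsl hr hs, List.map_eq_nil_iff, List.zipIdx_eq_nil_iff]

theorem not_beq {a b : ℕ} (h : (!Nat.beq a b) = true) : a ≠ b := by
  rintro rfl
  rw [Nat.beq_refl] at h
  exact Bool.false_ne_true h

theorem oneB_spec (hC : Cert D A) (hsl : slB D = true) {a b k : ℕ} (h : oneB (tabOf D) a b k = true) :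
    singleB D 1 a b k = true := by
  simp only [oneB, Bool.and_eq_true] at h
  obtain ⟨⟨⟨⟨ha, hb⟩, hne⟩, hneg⟩, h⟩ := h
  have ha : a < D.nroots := Nat.le_of_ble_eq_true ha
  have hb : b < D.nroots := Nat.le_of_ble_eq_true hb
  have hne := not_beq hne
  have hneg : b ≠ D.neg a := not_beq hneg
  simp only [singleB, Bool.and_eq_true, decide_eq_true_eq]
  refine ⟨⟨ha, hb, hne, hneg⟩, ?_⟩
  rw [commTerms_of_ent hC hsl ha hb]
  revert h
  split
  · rename_i k' C e
    intro h
    simp only [Bool.and_eq_true] at h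
    obtain rfl := Nat.eq_of_beq_eq_true h.1
    rcases Int.natAbs_eq_iff.1 (Nat.eq_of_beq_eq_true h.2) with rfl | rfl <;> simp [e]
  · simp

theorem freeB_spec (hC : Cert D A) (hsl : slB D = true) {r a : ℕ} (h : freeB (tabOf D) r a = true) :
    okComB D r a = true := by
  simp only [freeB, Bool.and_eq_true] at h
  obtain ⟨⟨⟨hr, ha⟩, hneg⟩, h⟩ := h
  have hr : r < D.nroots := Nat.le_of_ble_eq_true hr
  have ha : a < D.nroots := Nat.le_of_ble_eq_true ha
  have hneg : a ≠ D.neg r := not_beq hneg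
  simp only [okComB, Bool.and_eq_true, decide_eq_true_eq, Bool.or_eq_true, List.isEmpty_iff] at h ⊢
  exact ⟨⟨hr, ha, hneg⟩, h.imp_right fun e => (commTerms_eq_nil_iff hC hsl hr ha).2 e⟩

namespace SLCert

variable (S : SLCert D)
include S

theorem comm (E : CExt hS π) {r s : ℕ} (hr : r < D.nroots) (hs : s < D.nroots) (h : s ≠ D.neg r)
    (h' : s = r ∨ D.commTerms r s = []) : Comm hS π r s := by
  have hp := S.pair r hr s hs
  simp only [slPairT, Bool.or_eq_true] at hp
  have hp := hp.resolve_left fun e => h (Nat.eq_of_beq_eq_true e)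
  rw [if_pos (by
    rcases h' with e | e
    · simp [e]
    · simp [(commTerms_eq_nil_iff hS.cert S.sl hr hs).1 e])] at hp
  have h1 : ((1 : ℤ) : F) ≠ 0 := by simp
  have key : ∀ {r s}, methodS (tabOf D) r s = true → Comm hS π r s := by
    intro r s hm
    simp only [methodS, List.any_eq_true] at hm
    obtain ⟨e, -, hm⟩ := hm
    revert hm
    split
    · intro hm
      simp only [Bool.and_eq_true] at hm
      exact comm_of_decomp E h1 (freeB_spec hS.cert S.sl hm.1.2) (freeB_spec hS.cert S.sl hm.1.1)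
        (oneB_spec hS.cert S.sl hm.2)
    · simp
  simp only [Bool.or_eq_true] at hp
  rcases hp with hp | hp
  · exact key hp
  · exact (key hp).symm

theorem self (E : CExt hS π) {k : ℕ} (hk : k < D.nroots) : Comm hS π k k :=
  S.comm E hk hk (hS.cert.wf.neg_ne k hk).symm (Or.inl rfl)

/-- The data of a pair with nonempty terms. -/
theorem pair_spec (E : CExt hS π) {r s : ℕ} (hr : r < D.nroots) (hs : s < D.nroots) (hne : s ≠ r)
    (h : s ≠ D.neg r) {c : ℕ × ℤ × ℕ × ℕ} (hc : c ∈ D.commTerms r s) :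
    ∃ (k : ℕ) (C : ℤ), k < D.nroots ∧ D.commTerms r s = [(k, C, 1, 1)] ∧
      Pair hS π s r k (-(C : F)) ∧ (∃ e', Pair hS π r s k e') ∧
      canLinkB (tabOf D) k r s = true := by
  have hp := S.pair r hr s hs
  simp only [slPairT, Bool.or_eq_true] at hp
  have hp := hp.resolve_left fun e => h (Nat.eq_of_beq_eq_true e)
  rw [if_neg (by
    simp only [not_or, List.isEmpty_iff]
    exact ⟨fun e => hne (Nat.eq_of_beq_eq_true e), fun e => by
      rw [(commTerms_eq_nil_iff hS.cert S.sl hr hs).2 e] at hc; simp at hc⟩)] at hp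
  split at hp
  case h_2 => simp at hp
  case h_1 k C0 heq =>
    simp only [Bool.and_eq_true] at hp
    obtain ⟨⟨⟨⟨⟨hk, h1⟩, h2⟩, hfr⟩, hfs⟩, hlink⟩ := hp
    have hk : k < D.nroots := Nat.le_of_ble_eq_true hk
    have h1 := oneB_spec hS.cert S.sl h1
    have h2 := oneB_spec hS.cert S.sl h2
    have hf1 := freeB_spec hS.cert S.sl hfr
    have hf2 := freeB_spec hS.cert S.sl hfs
    simp only [okComB, Bool.and_eq_true, decide_eq_true_eq, Bool.or_eq_true, List.isEmpty_iff] at hf1 hf2
    have h1' := h1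
    have h2' := h2
    simp only [singleB, Bool.and_eq_true, decide_eq_true_eq] at h1 h2
    have hC : ∃ C : ℤ, D.commTerms r s = [(k, C, 1, 1)] ∧ (C = 1 ∨ C = -1) := by
      rcases h1.2 with e | e <;> exact ⟨_, e, by simp⟩
    obtain ⟨C, hC⟩ := hC
    have cr : Comm hS π r k := S.comm E hr hk hf1.1.2.2 (hf1.2.imp_left Nat.eq_of_beq_eq_true)
    have cs : Comm hS π s k := S.comm E hs hk hf2.1.2.2 (hf2.2.imp_left Nat.eq_of_beq_eq_true)
    refine ⟨k, C, hk, hC.1, ⟨by rcases hC.2 with rfl | rfl <;> simp, ?_, cs, cr, S.self E hk⟩, ?_, hlink⟩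
    · intro t u
      rw [xg_comm_single hS hr hs hne h hC.1]
      congr 1
      ring
    · obtain ⟨C', hC', hs'⟩ := singleB_spec (hS := hS) (F := F) h2'
      refine ⟨-(C' : F), by rcases hC' with rfl | rfl <;> simp, fun t u => ?_, cr, cs, S.self E hk⟩
      rw [hs']
      congr 1
      ring

theorem pair_of_single (E : CExt hS π) {x y k : ℕ} (h : singleB D 1 y x k = true) :
    ∃ e, Pair hS π x y k e := by
  have h' := h
  simp only [singleB, Bool.and_eq_true, decide_eq_true_eq] at h
  obtain ⟨⟨hy, hx, hne, hnn⟩, hterm⟩ := h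
  obtain ⟨c, hc⟩ : ∃ c, c ∈ D.commTerms y x := by rcases hterm with e | e <;> simp [e]
  obtain ⟨k', C, -, hC, P, -, -⟩ := S.pair_spec E hy hx hne hnn hc
  obtain rfl : k' = k := by rcases hterm with e | e <;> (rw [hC] at e; simp_all)
  exact ⟨_, P⟩

theorem edge_det (E : CExt hS π) {k x y a y' : ℕ} (hk : k < D.nroots) {e e' : F}
    (h : edgeB (tabOf D) k x y a y' = true) (P : Pair hS π x y k e) (P' : Pair hS π a y' k e') :
    ∃ G, Det E x y e G ∧ Det E a y' e' G := by
  revert h
  rw [edgeB]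
  split
  case h_2 => simp
  rename_i m c heq
  intro h
  simp only [Bool.and_eq_true] at h
  obtain ⟨⟨⟨⟨⟨hx', hy'⟩, -⟩, -⟩, hay⟩, hxy⟩ := h
  obtain ⟨C1, hC1, s1⟩ := singleB_spec (hS := hS) (F := F) (oneB_spec hS.cert S.sl hx')
  obtain ⟨C2, hC2, s2⟩ := singleB_spec (hS := hS) (F := F) (oneB_spec hS.cert S.sl hy')
  have hay' := freeB_spec hS.cert S.sl hay
  have hxy := freeB_spec hS.cert S.sl hxy
  simp only [okComB, Bool.and_eq_true, decide_eq_true_eq, Bool.or_eq_true, List.isEmpty_iff] at hay' hxy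
  have hxy' : Comm hS π x y' :=
    S.comm E hxy.1.1 hxy.1.2.1 hxy.1.2.2 (hxy.2.imp_left Nat.eq_of_beq_eq_true)
  refine shift E hk P P' (P'.comm_right) (m := m) hxy'
    (S.comm E hay'.1.1 hay'.1.2.1 hay'.1.2.2 (hay'.2.imp_left Nat.eq_of_beq_eq_true))
    (e1 := -(C1 : F)) (e2 := -(C2 : F)) (by rcases hC1 with rfl | rfl <;> simp)
    (by rcases hC2 with rfl | rfl <;> simp) (fun t v => by rw [s1]; congr 1; ring)
    (fun v u => by rw [s2]; congr 1; ring)

theorem link_det (E : CExt hS π) {k x y x' y' : ℕ} (hk : k < D.nroots)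
    (h : linkB (tabOf D) k x y x' y' = true) :
    ∃ (e e' : F) (G : F → Γ), Pair hS π x y k e ∧ Pair hS π x' y' k e' ∧ Det E x y e G ∧ Det E x' y' e' G := by
  simp only [linkB, Bool.or_eq_true] at h
  have hs : ∀ {x y a y'}, edgeB (tabOf D) k x y a y' = true →
      singleB D 1 y x k = true ∧ singleB D 1 y' a k = true := by
    intro x y a y'
    rw [edgeB]
    split
    · intro h
      simp only [Bool.and_eq_true] at h
      exact ⟨oneB_spec hS.cert S.sl h.1.1.1.2, oneB_spec hS.cert S.sl h.1.1.2⟩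
    · simp
  rcases h with h | h
  · obtain ⟨e, P⟩ := S.pair_of_single E (hs h).1
    obtain ⟨e', P'⟩ := S.pair_of_single E (hs h).2
    obtain ⟨G, h1, h2⟩ := S.edge_det E hk h P P'
    exact ⟨e, e', G, P, P', h1, h2⟩
  · obtain ⟨e', P'⟩ := S.pair_of_single E (hs h).1
    obtain ⟨e, P⟩ := S.pair_of_single E (hs h).2
    obtain ⟨G, h1, h2⟩ := S.edge_det E hk h P' P
    exact ⟨e, e', G, P, P', h2, h1⟩

omit S in
theorem _root_.CfsgLib.ChevMult.Pair.sign_unique {x y k : ℕ} {e e' : F} (hk : k < D.nroots)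
    (P : Pair hS π x y k e) (P' : Pair hS π x y k e') : e = e' := by
  have h := (P.img 1 1).symm.trans (P'.img 1 1)
  simp only [mul_one] at h
  have h3 : xg hS.cert k (e + -e') = 1 := by rw [← xg_mul, h, xg_mul, add_neg_cancel, xg_zero]
  exact eq_of_sub_eq_zero (by rw [sub_eq_add_neg]; exact xg_eq_one hS.cert hk h3)

/-- Every central extension has lifts satisfying (R1) and (R2). -/
theorem exists_lifts (E : CExt hS π) : ∃ X : ℕ → F → Γ, Lifts hS π X := by
  classical
  have hcan : ∀ k < D.nroots, ∃ e, Pair hS π (canon (tabOf D) k).1 (canon (tabOf D) k).2 k e := fun k hk => by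
    exact S.pair_of_single E (oneB_spec hS.cert S.sl (S.root k hk))
  choose e₀ hP₀ using hcan
  let X : ℕ → F → Γ := fun k w =>
    if hk : k < D.nroots then E.cl (canon (tabOf D) k).1 (canon (tabOf D) k).2 (e₀ k hk * w) 1 else 1
  have hX : ∀ k (hk : k < D.nroots), ∀ G, Det E (canon (tabOf D) k).1 (canon (tabOf D) k).2 (e₀ k hk) G → X k = G := by
    intro k hk G hG
    funext w
    simp only [X, dif_pos hk]
    rw [hG, mul_one, ← mul_assoc, (hP₀ k hk).sq, one_mul]
  have hmap : ∀ k < D.nroots, ∀ t, π (X k t) = xg hS.cert k t := by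
    intro k hk t
    simp only [X, dif_pos hk]
    rw [E.map_cl (hP₀ k hk), mul_one, ← mul_assoc, (hP₀ k hk).sq, one_mul]
  refine ⟨X, hmap, fun k hk t u => ?_, fun r hr s hs h1 h2 t u => ?_⟩
  · simp only [X, dif_pos hk]
    rw [mul_add, E.cl_add_left (hP₀ k hk)]
  rcases hterms : D.commTerms r s with _ | ⟨c, l⟩
  · have hc := S.comm E hr hs h2 (Or.inr hterms) (X r t) (X s u) t u (hmap r hr t) (hmap s hs u)
    simp only [ChevalleyDatum.commWord, hterms, List.map_nil, List.prod_nil]
    rw [show (X s u)⁻¹ * (X r t)⁻¹ * X s u * X r t = (X s u)⁻¹ * (X r t)⁻¹ * (X s u * X r t) by group,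
      hc.symm.eq]
    group
  obtain ⟨k, C, hk, hC, P, ⟨e', P'⟩, hlink⟩ := S.pair_spec E hr hs h1 h2 (c := c) (by simp [hterms])
  have hdet : Det E s r (-(C : F)) (X k) := by
    have fin : ∀ {ex : F} {G : F → Γ}, ((Pair hS π r s k ex ∧ Det E r s ex G) ∨
        (Pair hS π s r k ex ∧ Det E s r ex G)) → Det E s r (-(C : F)) G := by
      rintro ex G (⟨Q, h⟩ | ⟨Q, h⟩)
      · exact h.swap hk Q P
      · exact (Q.sign_unique hk P) ▸ h
    have sw : ∀ {ex : F} {G : F → Γ}, Pair hS π (canon (tabOf D) k).2 (canon (tabOf D) k).1 k ex →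
        Det E (canon (tabOf D) k).2 (canon (tabOf D) k).1 ex G → X k = G := fun Q h =>
      hX k hk _ (h.swap hk Q (hP₀ k hk))
    have st : ∀ {ex : F} {G : F → Γ}, Pair hS π (canon (tabOf D) k).1 (canon (tabOf D) k).2 k ex →
        Det E (canon (tabOf D) k).1 (canon (tabOf D) k).2 ex G → X k = G := fun Q h =>
      hX k hk _ ((Q.sign_unique hk (hP₀ k hk)) ▸ h)
    unfold canLinkB at hlink
    simp only at hlink
    split at hlink
    next hsame =>
      simp only [Bool.or_eq_true, Bool.and_eq_true] at hsame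
      have hG : Det E (canon (tabOf D) k).1 (canon (tabOf D) k).2 (e₀ k hk) (X k) := by
        simp only [Bool.or_eq_true] at hlink
        rcases hlink with h | h <;> simp only [someLinkB, List.any_eq_true] at h <;>
          obtain ⟨b, -, h⟩ := h <;>
          obtain ⟨ex, ey, G, Q, -, h', -⟩ := S.link_det E hk h
        · rw [st Q h']; exact (Q.sign_unique hk (hP₀ k hk)) ▸ h'
        · rw [sw Q h']; exact h'.swap hk Q (hP₀ k hk)
      rcases hsame with ⟨ha, hb⟩ | ⟨ha, hb⟩
      · obtain rfl := Nat.eq_of_beq_eq_true ha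
        obtain rfl := Nat.eq_of_beq_eq_true hb
        exact hG.swap hk (hP₀ k hk) P
      · obtain rfl := Nat.eq_of_beq_eq_true ha
        obtain rfl := Nat.eq_of_beq_eq_true hb
        exact ((hP₀ k hk).sign_unique hk P) ▸ hG
    next =>
      simp only [Bool.or_eq_true] at hlink
      rcases hlink with ((h | h) | h) | h <;> obtain ⟨ex, ey, G, Q, Q', h', h''⟩ := S.link_det E hk h
      · rw [st Q' h'']; exact fin (Or.inl ⟨Q, h'⟩)
      · rw [st Q' h'']; exact fin (Or.inr ⟨Q, h'⟩)
      · rw [sw Q' h'']; exact fin (Or.inl ⟨Q, h'⟩)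
      · rw [sw Q' h'']; exact fin (Or.inr ⟨Q, h'⟩)
  have hi : ∀ n < D.nroots, ∀ v, π (X n v)⁻¹ = xg hS.cert n (-v) := fun n hn v => by
    rw [map_inv, hmap n hn, xg_inv]
  have h := E.cl_eq (a := (X s u)⁻¹) (b := (X r t)⁻¹) (hi s hs u) (hi r hr t)
  rw [hdet, commutatorElement_def, inv_inv, inv_inv] at h
  rw [h, ChevalleyDatum.commWord, hC]
  simp only [List.map_cons, List.map_nil, List.prod_cons, List.prod_nil, mul_one, pow_one]
  congr 1
  ring

end SLCert

end CfsgLib.ChevMult
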