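import Cfsg.Agent.Lib.ChevMult.Rel3
import Cfsg.Agent.Lib.SchurMult.PerfectCover
import Cfsg.Agent.Lib.ChevMult.SimplyLaced

/-!
Schur multipliers of a Chevalley group all of whose central extensions have lifts satisfying (R1) and (R2).
-/

set_option autoImplicit false
set_option linter.unusedSectionVars false

namespace CfsgLib.ChevMult

open Cfsg.Lie CfsgLib.Chevalley CfsgLib.SteinbergPres

universe u

variable {D : ChevalleyDatum} {A : Aux} {F : Type u} [Field F]

/-- every central extension has lifts satisfying (R1) and (R2) -/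
def HasLifts (h : Full D A) (F : Type u) [Field F] : Prop :=
  ∀ (Γ : Type u) [Group Γ] (π : Γ →* ↥(D.group F)), CExt h.toStd π → ∃ X, Lifts h.toStd π X

theorem finite_steinbergGroup [Finite F] (h : Full D A)
    (hz : Finite (Subgroup.center (D.SteinbergGroup F))) : Finite (D.SteinbergGroup F) := by
  rw [← ker_thetaGroup (K := F) h] at hz
  have : Finite (D.SteinbergGroup F ⧸ (thetaGroup (K := F) h).ker) :=
    Finite.of_equiv _ (QuotientGroup.quotientKerEquivOfSurjective _ (thetaGroup_surjective h)).symm.toEquiv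
  exact Finite.of_subgroup_quotient (thetaGroup (K := F) h).ker

theorem isCyclic_of_card_dvd_prime {G : Type*} [Group G] {p : ℕ} (hp : p.Prime) (h : Nat.card G ∣ p) :
    IsCyclic G := by
  rcases (Nat.dvd_prime hp).1 h with h | h
  · have := (Nat.card_eq_one_iff_unique.1 h).1
    infer_instance
  · have := Fact.mk hp
    exact isCyclic_of_prime_card h

/-- Steinberg's group has trivial multiplier. -/
theorem st_hasCyclicSchurMultiplier_one [Finite F] (h : Full D A) (hperf : commutator (D.SteinbergCover F) = ⊤)
    (hL : HasLifts h F) [Finite (D.SteinbergGroup F)] : Cfsg.HasCyclicSchurMultiplier (D.SteinbergGroup F) 1 := by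
  refine SchurMult.hasCyclicSchurMultiplier_of_cover (MonoidHom.id _) Function.surjective_id
    (by simp) (st_perfect h hperf) (fun Γ _ _ ρ hρ => ker_eq_bot_of_lifts h hperf hρ fun E => hL Γ _ E)
    ?_ ?_
  · rw [MonoidHom.ker_id]; infer_instance
  · rw [MonoidHom.ker_id]; simp

/-- The multiplier of the Chevalley group is the centre of Steinberg's group. -/
theorem hasCyclicSchurMultiplier [Finite F] (h : Full D A) (hperf : commutator (D.SteinbergCover F) = ⊤)
    (hL : HasLifts h F) {n : ℕ} (hn : Nat.card (Subgroup.center (D.SteinbergGroup F)) = n) {p : ℕ}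
    (hp : p.Prime) (hnp : n ∣ p) : Cfsg.HasCyclicSchurMultiplier ↥(D.group F) n := by
  have hn0 : n ≠ 0 := fun e => hp.ne_zero (Nat.eq_zero_of_zero_dvd (e ▸ hnp))
  have hfz : Finite (Subgroup.center (D.SteinbergGroup F)) :=
    Nat.finite_of_card_ne_zero (by rw [hn]; exact hn0)
  have := finite_steinbergGroup h hfz
  refine SchurMult.hasCyclicSchurMultiplier_of_cover (thetaGroup h) (thetaGroup_surjective h)
    (le_of_eq (ker_thetaGroup h)) (st_perfect h hperf)
    (fun Γ _ _ ρ hρ => ker_eq_bot_of_lifts h hperf hρ fun E => hL Γ _ E) ?_ ?_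
  · refine isCyclic_of_card_dvd_prime hp ?_
    rw [ker_thetaGroup h, hn]
    exact hnp
  · rw [ker_thetaGroup h, hn]

/-- The case of trivial centre. -/
theorem hasCyclicSchurMultiplier_one [Finite F] (h : Full D A) (hperf : commutator (D.SteinbergCover F) = ⊤)
    (hL : HasLifts h F) (hz : Subgroup.center (D.SteinbergGroup F) = ⊥) :
    Cfsg.HasCyclicSchurMultiplier ↥(D.group F) 1 :=
  hasCyclicSchurMultiplier h hperf hL (by rw [hz]; simp) Nat.prime_two (one_dvd 2)

theorem SLCert.hasLifts {h : Full D A} (S : SLCert D) : HasLifts h F := fun _ _ _ E => S.exists_lifts E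

end CfsgLib.ChevMult
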