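import Cfsg.Agent.Lib.ChevMult.MovesB2
import Cfsg.Agent.Lib.ChevMult.Universal

/-! Lifts in the central extensions of the groups of type B2 over fields with more than four elements. -/

set_option autoImplicit false

namespace CfsgLib.ChevMult

open Cfsg.Lie CfsgLib.Twisted CfsgLib.SteinbergPres CfsgLib.Chevalley
open scoped commutatorElement

variable {D : ChevalleyDatum} {A : Aux} {F : Type*} [Field F] {Γ : Type*} [Group Γ]
variable {hS : Std D A} {π : Γ →* ↥(D.group F)}

/-- Lifts of two commuting root subgroups commute when a torus element fixes one and moves the other. -/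
theorem comm_of_torus (E : CExt hS π) {r s : ℕ} (hr : r < D.nroots) (hs : s < D.nroots)
    (hcm : ∀ t u, Commute (xg hS.cert r t) (xg (F := F) hS.cert s u))
    {c : Fin D.rank → Fˣ} (hc : chi D r c = 1) (hc' : chi D s c ≠ 1) : Comm hS π r s := by
  have hz : ∀ t u, π (E.cl r s t u) = 1 := fun t u => by
    rw [CExt.cl, map_commutatorElement, E.map_lift, E.map_lift, commutatorElement_eq_one_iff_mul_comm]
    exact hcm t u
  have hadd : ∀ t u u', E.cl r s t (u + u') = E.cl r s t u * E.cl r s t u' := by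
    intro t u u'
    rw [← E.cl_eq (a := E.lift r t) (b := E.lift s u * E.lift s u') (E.map_lift _ _)
      (by rw [map_mul, E.map_lift, E.map_lift, xg_mul])]
    have e1 : ⁅E.lift r t, E.lift s u * E.lift s u'⁆ =
        E.cl r s t u * (E.lift s u * E.cl r s t u' * (E.lift s u)⁻¹) := by
      simp only [CExt.cl, commutatorElement_def]; group
    rw [e1, E.conj_ker (hz t u')]
  have hinv : ∀ t u, E.cl r s t (((chi D s c : Fˣ) : F) * u) = E.cl r s t u := by
    intro t u
    conv_rhs => rw [← E.conj_ker (hz t u) (E.tl c)]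
    conv_rhs => rw [CExt.cl, conjugate_commutatorElement]
    symm
    refine E.cl_eq ?_ ?_
    · rw [map_mul, map_mul, map_inv, E.map_tl, E.map_lift, tg_conj hS.cert c hr, hc, Units.val_one, one_mul]
    · rw [map_mul, map_mul, map_inv, E.map_tl, E.map_lift, tg_conj hS.cert c hs]
  have hd : ((chi D s c : Fˣ) : F) - 1 ≠ 0 := sub_ne_zero.2 fun e => hc' (Units.ext (by simpa using e))
  intro a b t u ha hb
  rw [← commutatorElement_eq_one_iff_commute, E.cl_eq ha hb]
  have h2 := hadd t (u / (((chi D s c : Fˣ) : F) - 1)) u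
  rw [show u / (((chi D s c : Fˣ) : F) - 1) + u =
    ((chi D s c : Fˣ) : F) * (u / (((chi D s c : Fˣ) : F) - 1)) by field_simp; ring, hinv] at h2
  exact left_eq_mul.1 h2

/-- the lifts of `k` commute: `x_k` is a commutator of root elements commuting with it, up to a root element
separated from it by a coroot -/
def longB (D : ChevalleyDatum) (k : ℕ) : Bool :=
  (List.range D.nroots).any fun a => (List.range D.nroots).any fun b =>
    match D.commTerms a b with
    | [(p, _, _, _), (k', C, i, j)] =>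
      Nat.beq k' k && decide (C = 1 ∨ C = -1) && Nat.beq i 1 && decide (b ≠ a ∧ b ≠ D.neg a) &&
        okComB D k a && okComB D k b && okComB D k p && sepB D 1 k p
    | _ => false

theorem comm_self_of_longB (E : CExt hS π) {k : ℕ} (hp1 : PowOk F 1) (hB : longB D k = true) :
    Comm hS π k k := by
  simp only [longB, List.any_eq_true, List.mem_range] at hB
  obtain ⟨a, ha, b, hb, hB⟩ := hB
  revert hB
  split
  case h_2 => simp
  rename_i p C1 i0 j0 k' C i j heq
  intro hB
  simp only [Bool.and_eq_true, decide_eq_true_eq] at hB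
  obtain ⟨⟨⟨⟨⟨⟨⟨hk', hC⟩, hi⟩, hne, hnn⟩, hka⟩, hkb⟩, hkp⟩, hsep⟩ := hB
  obtain rfl := Nat.eq_of_beq_eq_true hk'
  obtain rfl := Nat.eq_of_beq_eq_true hi
  have hkp' := hkp
  simp only [okComB, Bool.and_eq_true, decide_eq_true_eq] at hkp'
  have hcomm : Comm hS π k' p := by
    simp only [sepB, List.any_eq_true, Bool.and_eq_true, decide_eq_true_eq] at hsep
    obtain ⟨x, -, ⟨h0, h1⟩, h2⟩ := hsep
    obtain ⟨c, hc⟩ := zpow_ne_one_of_powOk hp1 h1 (Nat.le_of_ble_eq_true h2)
    exact comm_of_torus E hkp'.1.1 hkp'.1.2.1 (fun t u => okComB_spec (hS := hS) hkp t u)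
      (c := coTorus D x c) (by rw [chi_coTorus, h0, zpow_zero]) (by rwa [chi_coTorus])
  intro z y t v hz hy
  have hC2 : (C : F) * (C : F) = 1 := by rcases hC with rfl | rfl <;> simp
  have himg := xg_comm hS ha hb hne hnn (-((C : F) * v)) 1
  simp only [ChevalleyDatum.commWord, heq, List.map_cons, List.map_nil, List.prod_cons, List.prod_nil,
    mul_one, one_pow, pow_one, neg_neg] at himg
  rw [← mul_assoc (C : F) (C : F) v, hC2, one_mul] at himg
  set w := (C1 : F) * ((C : F) * v) ^ i0
  obtain ⟨A', hA⟩ := E.surj (xg hS.cert a (-((C : F) * v)))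
  obtain ⟨B', hB⟩ := E.surj (xg hS.cert b 1)
  obtain ⟨P', hP⟩ := E.surj (xg hS.cert p w)
  have e1 : π ⁅B'⁻¹, A'⁻¹⁆ = π (P' * y) := by
    rw [map_commutatorElement, map_mul, map_inv, map_inv, hA, hB, hP, hy, commutatorElement_def, inv_inv,
      inv_inv]
    exact himg
  have hq : Commute z (P'⁻¹ * ⁅B'⁻¹, A'⁻¹⁆) := by
    refine ((hcomm z P' t w hz hP).inv_right).mul_right (E.commute_commutator ?_ ?_)
    · rw [hz, map_inv, hA]; exact (okComB_spec (hS := hS) hka _ _).inv_right
    · rw [hz, map_inv, hB]; exact (okComB_spec (hS := hS) hkb _ _).inv_right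
  refine E.commute_of_image_eq ?_ hq
  rw [map_mul, map_inv, e1, map_mul, inv_mul_cancel_left]

theorem selfB2 : ∀ k < 8, (chiB chevB2 1 k || longB chevB2 k) = true := by decide +kernel

theorem chiB2 : ∀ k < 8, chiB chevB2 2 k = true := by decide +kernel

theorem sepB2 : ∀ r < 8, ∀ s < 8,
    (!(Nat.ble 4 r && Nat.blt r s) || (sepB chevB2 2 r s || sepB chevB2 2 s r)) = true := by decide +kernel

theorem exists_lifts_B2 {A : Aux} (h : Full chevB2 A) {F : Type*} [Field F] (hF : ∃ S : Finset F, 4 < S.card)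
    {Γ : Type*} [Group Γ] {π : Γ →* ↥(chevB2.group F)} (E : CExt h.toStd π) :
    ∃ X, Lifts h.toStd π X := by
  classical
  obtain ⟨S, hS⟩ := hF
  have hp1 : PowOk F 1 := powOk_of_card (S := S) (by omega)
  have hp2 : PowOk F 2 := powOk_of_card (S := S) (by omega)
  refine exists_lifts_of_kills (h := h) stCertB2 (stEdgeB2 F)
    (fun i hi r hr s hs _ _ t u => commWord_map (stCertB2.isAut hi) (by decide +kernel) hr hs t u) E
    (fun k hk => ?_) (fun k hk => exists_chi_of_chiB hp2 (chiB2 k hk)) (fun r s hr hs hrs => ?_) (hmoveB2 h)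
  · rcases Bool.or_eq_true _ _ |>.mp (selfB2 k hk) with e | e
    · exact comm_self_of_chiB E hk e (exists_field_pair hS)
    · exact comm_self_of_longB E hp1 e
  · have hB := sepB2 r hr.1 s hs.1
    have h6 : Nat.ble 4 r = true := Nat.ble_eq_true_of_le (h.pos.isPos_iff.1 hr).1
    have hlt : Nat.blt r s = true := Nat.ble_eq_true_of_le hrs
    rw [h6, hlt, Bool.and_true, Bool.not_true, Bool.false_or] at hB
    exact kill_of_sepB hp2 hB

end CfsgLib.ChevMult
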