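import Cfsg.Agent.Lib.ChevMult.LiftsB2
import Cfsg.Agent.Lib.ChevMult.SimplyLaced

/-! Lifts in the central extensions of the groups of type B2 over the fields of four and of three elements. -/

set_option autoImplicit false
set_option linter.unusedSectionVars false

namespace CfsgLib.ChevMult

open Cfsg.Lie CfsgLib.Twisted CfsgLib.SteinbergPres CfsgLib.Chevalley
open scoped commutatorElement

section general

variable {D : ChevalleyDatum} {A : Aux} {F : Type*} [Field F] {Γ : Type*} [Group Γ]
variable {hS : Std D A} {π : Γ →* ↥(D.group F)}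

/-- the root elements commute in characteristic two -/
def evenComB (D : ChevalleyDatum) (r s : ℕ) : Bool :=
  decide (r < D.nroots ∧ s < D.nroots ∧ s ≠ r ∧ s ≠ D.neg r) &&
    (D.commTerms r s).all fun c => decide (c.2.1 % 2 = 0)

theorem evenComB_spec (h2 : (2 : F) = 0) {r s : ℕ} (hB : evenComB D r s = true) (t u : F) :
    Commute (xg hS.cert r t) (xg hS.cert s u) := by
  simp only [evenComB, Bool.and_eq_true, decide_eq_true_eq, List.all_eq_true] at hB
  obtain ⟨⟨hr, hs, n1, n2⟩, hall⟩ := hB
  have e := xg_comm hS hr hs n1 n2 t u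
  have hw : ((D.commWord F r s t u).map fun p => xg hS.cert p.1 p.2).prod = 1 := by
    refine List.prod_eq_one fun g hg => ?_
    obtain ⟨p, hp, rfl⟩ := List.mem_map.1 hg
    obtain ⟨c, hc, rfl⟩ := List.mem_map.1 hp
    obtain ⟨m, hm⟩ := Int.dvd_of_emod_eq_zero (hall c hc)
    rw [show ((c.2.1 : ℤ) : F) = 0 by rw [hm, Int.cast_mul, Int.cast_ofNat, h2, zero_mul], zero_mul,
      zero_mul, xg_zero]
  rw [hw] at e
  have e2 := congrArg (fun x => xg hS.cert r t * xg hS.cert s u * x) e
  simp only [mul_one] at e2
  refine (e2.symm.trans ?_)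
  group

/-- the lifts of `k` commute: `x_k` is a commutator up to one root element, all commuting with it -/
def shortB (D : ChevalleyDatum) (k : ℕ) : Bool :=
  (List.range D.nroots).any fun a => (List.range D.nroots).any fun b =>
    match D.commTerms a b with
    | [(k', C, i, j), (q, _, _, _)] =>
      Nat.beq k' k && decide (C = 1 ∨ C = -1) && Nat.beq i 1 && Nat.beq j 1 &&
        decide (b ≠ a ∧ b ≠ D.neg a) && (okComB D k a || evenComB D k a) && (okComB D k b || evenComB D k b) &&
        okComB D k q && sepB D 2 k q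
    | _ => false

theorem comm_self_of_shortB (E : CExt hS π) {k : ℕ} (hp2 : PowOk F 2) (h2 : (2 : F) = 0)
    (hB : shortB D k = true) : Comm hS π k k := by
  simp only [shortB, List.any_eq_true, List.mem_range] at hB
  obtain ⟨a, ha, b, hb, hB⟩ := hB
  revert hB
  split
  case h_2 => simp
  rename_i k' C i j q C1 i0 j0 heq
  intro hB
  simp only [Bool.and_eq_true, decide_eq_true_eq] at hB
  obtain ⟨⟨⟨⟨⟨⟨⟨⟨hk', hC⟩, hi⟩, hj⟩, hne, hnn⟩, hka⟩, hkb⟩, hkq⟩, hsep⟩ := hB
  obtain rfl := Nat.eq_of_beq_eq_true hk'
  obtain rfl := Nat.eq_of_beq_eq_true hi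
  obtain rfl := Nat.eq_of_beq_eq_true hj
  have hcomm : Comm hS π k' q := by
    have hkq' := hkq
    simp only [okComB, Bool.and_eq_true, decide_eq_true_eq] at hkq'
    simp only [sepB, List.any_eq_true, Bool.and_eq_true, decide_eq_true_eq] at hsep
    obtain ⟨x, -, ⟨h0, h1⟩, h2'⟩ := hsep
    obtain ⟨c, hc⟩ := zpow_ne_one_of_powOk hp2 h1 (Nat.le_of_ble_eq_true h2')
    exact comm_of_torus E hkq'.1.1 hkq'.1.2.1 (fun t u => okComB_spec (hS := hS) hkq t u)
      (c := coTorus D x c) (by rw [chi_coTorus, h0, zpow_zero]) (by rwa [chi_coTorus])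
  have himgc : ∀ x, (okComB D k' x || evenComB D k' x) = true →
      ∀ t u, Commute (xg hS.cert k' t) (xg (F := F) hS.cert x u) := fun x hx t u => by
    rcases Bool.or_eq_true _ _ |>.mp hx with e | e
    exacts [okComB_spec (hS := hS) e t u, evenComB_spec (hS := hS) h2 e t u]
  intro z y t v hz hy
  have hC2 : (C : F) * (C : F) = 1 := by rcases hC with rfl | rfl <;> simp
  have himg := xg_comm hS ha hb hne hnn (-((C : F) * v)) 1
  simp only [ChevalleyDatum.commWord, heq, List.map_cons, List.map_nil, List.prod_cons, List.prod_nil,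
    mul_one, one_pow, pow_one, neg_neg] at himg
  rw [← mul_assoc (C : F) (C : F) v, hC2, one_mul] at himg
  set w := (C1 : F) * ((C : F) * v) ^ i0
  obtain ⟨A', hA⟩ := E.surj (xg hS.cert a (-((C : F) * v)))
  obtain ⟨B', hB⟩ := E.surj (xg hS.cert b 1)
  obtain ⟨Q', hQ⟩ := E.surj (xg hS.cert q w)
  have e1 : π ⁅B'⁻¹, A'⁻¹⁆ = π (y * Q') := by
    rw [map_commutatorElement, map_mul, map_inv, map_inv, hA, hB, hQ, hy, commutatorElement_def, inv_inv,
      inv_inv]
    exact himg
  have hq : Commute z (⁅B'⁻¹, A'⁻¹⁆ * Q'⁻¹) := by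
    refine (E.commute_commutator ?_ ?_).mul_right (hcomm z Q' t w hz hQ).inv_right
    · rw [hz, map_inv, hA]; exact (himgc a hka _ _).inv_right
    · rw [hz, map_inv, hB]; exact (himgc b hkb _ _).inv_right
  refine E.commute_of_image_eq ?_ hq
  rw [map_mul, map_inv, e1, map_mul, mul_inv_cancel_right]

/-- In a prime field of three elements the lifts of one root element commute. -/
theorem comm_self_of_three (E : CExt hS π) (hall : ∀ x : F, x = 0 ∨ x = 1 ∨ x = -1) (k : ℕ) :
    Comm hS π k k := by
  obtain ⟨e, he⟩ := E.surj (xg hS.cert k 1)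
  have key : ∀ a t, π a = xg hS.cert k t → ∃ n : ℤ, ∃ z, π z = 1 ∧ a = e ^ n * z := by
    intro a t ha
    obtain ⟨n, hn⟩ : ∃ n : ℤ, π (e ^ n) = xg hS.cert k t := by
      rcases hall t with rfl | rfl | rfl
      · exact ⟨0, by simp [xg_zero]⟩
      · exact ⟨1, by simp [he]⟩
      · exact ⟨-1, by simp [he, xg_inv]⟩
    exact ⟨n, (e ^ n)⁻¹ * a, by rw [map_mul, map_inv, hn, ha, inv_mul_cancel], by group⟩
  intro a b t u ha hb
  obtain ⟨n, z, hz, rfl⟩ := key a t ha
  obtain ⟨m, z', hz', rfl⟩ := key b u hb
  exact ((Commute.zpow_zpow (Commute.refl e) n m).mul_right (E.mul_comm_ker hz' _)).mul_left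
    (Commute.symm (E.mul_comm_ker hz _))

end general

theorem selfB2Four : ∀ k < 8, (longB chevB2 k || shortB chevB2 k) = true := by decide +kernel

theorem exists_lifts_B2_four {A : Aux} (h : Full chevB2 A) {F : Type*} [Field F] [Fintype F]
    (hF : Fintype.card F = 4) {Γ : Type*} [Group Γ] {π : Γ →* ↥(chevB2.group F)} (E : CExt h.toStd π) :
    ∃ X, Lifts h.toStd π X := by
  classical
  have hp1 : PowOk F 1 := powOk_of_card (S := Finset.univ) (by rw [Finset.card_univ]; omega)
  have hp2 : PowOk F 2 := powOk_of_card (S := Finset.univ) (by rw [Finset.card_univ]; omega)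
  have h2 : (2 : F) = 0 := by
    have e := FiniteField.cast_card_eq_zero F
    rw [hF] at e
    have e4 : (2 : F) * 2 = 0 := by
      rw [show (2 : F) * 2 = ((4 : ℕ) : F) by norm_num]
      exact_mod_cast e
    exact (mul_eq_zero.1 e4).elim id id
  refine exists_lifts_of_kills (h := h) stCertB2 (stEdgeB2 F)
    (fun i hi r hr s hs _ _ t u => commWord_map (stCertB2.isAut hi) (by decide +kernel) hr hs t u) E
    (fun k hk => ?_) (fun k hk => exists_chi_of_chiB hp2 (chiB2 k hk)) (fun r s hr hs hrs => ?_) (hmoveB2 h)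
  · rcases Bool.or_eq_true _ _ |>.mp (selfB2Four k hk) with e | e
    · exact comm_self_of_longB E hp1 e
    · exact comm_self_of_shortB E hp2 h2 e
  · have hB := sepB2 r hr.1 s hs.1
    have h6 : Nat.ble 4 r = true := Nat.ble_eq_true_of_le (h.pos.isPos_iff.1 hr).1
    have hlt : Nat.blt r s = true := Nat.ble_eq_true_of_le hrs
    rw [h6, hlt, Bool.and_true, Bool.not_true, Bool.false_or] at hB
    exact kill_of_sepB hp2 hB

/-- the pair of short roots with sum the long root `k` -/
def shortPair : ℕ → ℕ × ℕ
  | 0 => (1, 2)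
  | 3 => (1, 5)
  | 4 => (2, 6)
  | _ => (5, 6)

/-- the long roots of B2 -/
def isLongB2 (k : ℕ) : Bool := Nat.beq k 0 || Nat.beq k 3 || Nat.beq k 4 || Nat.beq k 7

/-- the tests for one long root -/
def longPairB (k : ℕ) : Bool :=
  let a := (shortPair k).1
  let b := (shortPair k).2
  singleB chevB2 2 a b k && singleB chevB2 2 b a k && okComB chevB2 k a && okComB chevB2 k b &&
    sepB chevB2 1 k a && sepB chevB2 1 k b && methodB chevB2 2 k k

theorem longPairs : ∀ k < 8, (!isLongB2 k || longPairB k) = true := by decide +kernel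

theorem shortChi : ∀ k < 8, (isLongB2 k || chiB chevB2 1 k) = true := by decide +kernel

theorem sigmaLong : ∀ i < 2, ∀ k < 8, (Nat.beq (if isLongB2 k then 1 else 0)
    (if isLongB2 (sigmaB2 i k) then 1 else 0) && (!isLongB2 k ||
      (Nat.beq (sigmaB2 i (shortPair k).1) (shortPair (sigmaB2 i k)).1 &&
        Nat.beq (sigmaB2 i (shortPair k).2) (shortPair (sigmaB2 i k)).2) ||
      (Nat.beq (sigmaB2 i (shortPair k).1) (shortPair (sigmaB2 i k)).2 &&
        Nat.beq (sigmaB2 i (shortPair k).2) (shortPair (sigmaB2 i k)).1))) = true := by decide +kernel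

theorem sepB2Three : ∀ r < 8, ∀ s < 8, (!(Nat.ble 4 r && Nat.blt r s) ||
    ((sepB chevB2 1 r s || sepB chevB2 1 s r) || (Nat.beq r 4 && Nat.beq s 7) ||
      (Nat.beq r 5 && Nat.beq s 6))) = true := by decide +kernel

theorem termsB2_45 : chevB2.commTerms 4 5 = [(6, 1, 1, 1), (7, -1, 1, 2)] := by decide +kernel

theorem termsB2_56 : chevB2.commTerms 5 6 = [(7, 2, 1, 1)] := by decide +kernel

theorem okB2 : (okComB chevB2 4 6 && okComB chevB2 4 7 && okComB chevB2 7 6 && okComB chevB2 7 5 &&
    sepB chevB2 1 7 6 && singleB chevB2 2 5 6 7) = true := by decide +kernel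

theorem exists_lifts_B2_three {A : Aux} (h : Full chevB2 A) {F : Type*} [Field F] [Fintype F]
    (hF : Fintype.card F = 3) {Γ : Type*} [Group Γ] {π : Γ →* ↥(chevB2.group F)} (E : CExt h.toStd π) :
    ∃ X, Lifts h.toStd π X := by
  classical
  have hp1 : PowOk F 1 := powOk_of_card (S := Finset.univ) (by rw [Finset.card_univ]; omega)
  have h3 : (3 : F) = 0 := by
    have e := FiniteField.cast_card_eq_zero F
    rw [hF] at e
    exact_mod_cast e
  have h2 : (2 : F) = -1 := by linear_combination h3
  have hm1 : (-1 : F) ≠ 1 := fun e => one_ne_zero (α := F) (by linear_combination h3 + e)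
  have hall : ∀ x : F, x = 0 ∨ x = 1 ∨ x = -1 := by
    have hcard : ({0, 1, -1} : Finset F).card = 3 := by
      rw [Finset.card_insert_of_notMem, Finset.card_insert_of_notMem, Finset.card_singleton]
      · simp only [Finset.mem_singleton]; exact fun e => hm1 e.symm
      · simp
    have huniv : ({0, 1, -1} : Finset F) = Finset.univ := Finset.eq_univ_of_card _ (by rw [hcard, hF])
    intro x
    have hx := Finset.mem_univ x
    rw [← huniv] at hx
    simpa using hx
  have hself : ∀ k, Comm h.toStd π k k := comm_self_of_three E hall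
  have htor : ∀ r s, okComB chevB2 r s = true → sepB chevB2 1 r s = true → Comm h.toStd π r s := by
    intro r s hc hs
    have hc' := hc
    simp only [okComB, Bool.and_eq_true, decide_eq_true_eq] at hc'
    simp only [sepB, List.any_eq_true, Bool.and_eq_true, decide_eq_true_eq] at hs
    obtain ⟨x, -, ⟨h0, h1⟩, h2'⟩ := hs
    obtain ⟨c, hc2⟩ := zpow_ne_one_of_powOk hp1 h1 (Nat.le_of_ble_eq_true h2')
    exact comm_of_torus E hc'.1.1 hc'.1.2.1 (fun t u => okComB_spec (hS := h.toStd) hc t u)
      (c := coTorus chevB2 x c) (by rw [chi_coTorus, h0, zpow_zero]) (by rwa [chi_coTorus])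
  -- the pairs of short roots
  have hpairs : ∀ k < 8, isLongB2 k = true → ∃ e e' : F,
      Pair h.toStd π (shortPair k).2 (shortPair k).1 k e ∧ Pair h.toStd π (shortPair k).1 (shortPair k).2 k e' := by
    intro k hk hl
    have hB := longPairs k hk
    rw [hl, Bool.not_true, Bool.false_or] at hB
    simp only [longPairB, Bool.and_eq_true] at hB
    obtain ⟨⟨⟨⟨⟨⟨s1, s2⟩, o1⟩, o2⟩, p1⟩, p2⟩, -⟩ := hB
    have mk : ∀ {a b}, singleB chevB2 2 a b k = true → Comm h.toStd π b k → Comm h.toStd π a k →
        ∃ e, Pair h.toStd π b a k e := by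
      intro a b hs cb ca
      obtain ⟨C, hC, himg⟩ := singleB_spec (hS := h.toStd) (F := F) hs
      refine ⟨-(C : F), ?_, fun t u => ?_, cb, ca, hself k⟩
      · rcases hC with rfl | rfl <;> push_cast <;> linear_combination h3
      · rw [himg]; congr 1; ring
    obtain ⟨e, he⟩ := mk s1 (htor _ _ o2 p2).symm (htor _ _ o1 p1).symm
    obtain ⟨e', he'⟩ := mk s2 (htor _ _ o1 p1).symm (htor _ _ o2 p2).symm
    exact ⟨e, e', he, he'⟩
  choose e e' hP hP' using hpairs
  -- the lifts of the short roots
  have hshort : ∀ k < 8, isLongB2 k = false →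
      ∃ c : Fin chevB2.rank → Fˣ, ((chi chevB2 k c : Fˣ) : F) ≠ 1 := fun k hk hl => by
    have hB := shortChi k hk
    rw [hl, Bool.false_or] at hB
    exact exists_chi_of_chiB hp1 hB
  choose cs hcs using hshort
  let X : ℕ → F → Γ := fun k t =>
    if hk : k < 8 then
      if hl : isLongB2 k = true then E.cl (shortPair k).2 (shortPair k).1 (e k hk hl * t) 1
      else ⁅E.tl (cs k hk (Bool.eq_false_iff.2 hl)),
        E.lift k (t / (((chi chevB2 k (cs k hk (Bool.eq_false_iff.2 hl)) : Fˣ) : F) - 1))⁆
    else 1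
  have hdet : ∀ k (hk : k < 8) (hl : isLongB2 k = true),
      Det E (shortPair k).2 (shortPair k).1 (e k hk hl) (X k) := by
    intro k hk hl t u
    simp only [X, dif_pos hk, dif_pos hl]
    have P := hP k hk hl
    rw [show e k hk hl * (e k hk hl * t * u) = t * u by rw [← mul_assoc, ← mul_assoc, P.sq, one_mul]]
    have hz0 : ∀ t, E.cl (shortPair k).2 (shortPair k).1 t 0 = 1 := fun t => by
      have := E.cl_add_right P t 0 0
      rw [add_zero] at this
      exact left_eq_mul.1 this
    rcases hall u with rfl | rfl | rfl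
    · rw [hz0, mul_zero]
      have := E.cl_add_left P 0 0 1
      rw [add_zero] at this
      exact (left_eq_mul.1 this).symm
    · rw [mul_one]
    · rw [mul_neg_one, E.cl_neg_left P]
      exact eq_inv_of_mul_eq_one_left (by rw [← E.cl_add_right P, neg_add_cancel, hz0])
  have hmapX : ∀ k < 8, ∀ t, π (X k t) = xg h.cert k t := by
    intro k hk t
    by_cases hl : isLongB2 k = true
    · simp only [X, dif_pos hk, dif_pos hl]
      rw [E.map_cl (hP k hk hl), mul_one, ← mul_assoc, (hP k hk hl).sq, one_mul]
    · simp only [X, dif_pos hk, dif_neg hl]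
      set c := cs k hk (Bool.eq_false_iff.2 hl)
      have hc : ((chi chevB2 k c : Fˣ) : F) - 1 ≠ 0 := sub_ne_zero.2 (hcs k hk (Bool.eq_false_iff.2 hl))
      rw [map_commutatorElement, E.map_tl, E.map_lift, commutatorElement_def, tg_conj h.cert _ hk, xg_inv,
        xg_mul]
      congr 1
      field_simp
      ring
  have K : Canon E X := by
    refine ⟨hmapX, fun k hk t u => ?_, fun k hk g c hg t => ?_, fun k hk Y hYm hYa hex t => ?_⟩
    · by_cases hl : isLongB2 k = true
      · simp only [X, dif_pos (show k < 8 from hk), dif_pos hl]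
        rw [mul_add, E.cl_add_left (hP k hk hl)]
      · have hu := hmapX k hk u
        simp only [X, dif_pos (show k < 8 from hk), dif_neg hl] at hu ⊢
        set d := ((chi chevB2 k (cs k hk (Bool.eq_false_iff.2 hl)) : Fˣ) : F) - 1
        set g := E.tl (cs k hk (Bool.eq_false_iff.2 hl))
        have hco : Commute (E.lift k (t / d)) ⁅g, E.lift k (u / d)⁆ :=
          hself k _ _ _ u (E.map_lift _ _) hu
        calc ⁅g, E.lift k (t / d)⁆ * ⁅g, E.lift k (u / d)⁆
            = ⁅g, E.lift k (t / d)⁆ * (E.lift k (t / d) * ⁅g, E.lift k (u / d)⁆ * (E.lift k (t / d))⁻¹) := by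
              rw [hco.eq, mul_inv_cancel_right]
          _ = ⁅g, E.lift k (t / d) * E.lift k (u / d)⁆ := by simp only [commutatorElement_def]; group
          _ = _ := E.comm_congr rfl (by rw [map_mul, E.map_lift, E.map_lift, E.map_lift, xg_mul, add_div])
    · by_cases hl : isLongB2 k = true
      · have e0 : X k t = E.cl (shortPair k).2 (shortPair k).1 (e k hk hl * t) 1 := by
          simp only [X, dif_pos (show k < 8 from hk), dif_pos hl]
        have hB := longPairs k hk
        rw [hl, Bool.not_true, Bool.false_or] at hB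
        simp only [longPairB, Bool.and_eq_true, singleB, decide_eq_true_eq] at hB
        have hterm := hB.1.1.1.1.1.1.2
        have hlt := hB.1.1.1.1.1.1.1
        have e1 : g * X k t * g⁻¹ = X k (e k hk hl * (((chi chevB2 (shortPair k).2 c : Fˣ) : F) *
            (e k hk hl * t)) * (((chi chevB2 (shortPair k).1 c : Fˣ) : F) * 1)) := by
          rw [← hdet k hk hl, e0, CExt.cl, conjugate_commutatorElement]
          refine E.cl_eq ?_ ?_
          · rw [map_mul, map_mul, map_inv, hg, E.map_lift, tg_conj h.cert c hlt.2.1]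
          · rw [map_mul, map_mul, map_inv, hg, E.map_lift, tg_conj h.cert c hlt.1]
        rw [e1]
        congr 1
        obtain ⟨d, hd, hd1, hd2⟩ : ∃ d ∈ chevB2.commTerms (shortPair k).1 (shortPair k).2,
            d.1 = k ∧ d.2.2 = (1, 1) := by
          rcases hterm with e | e <;> exact ⟨_, by rw [e]; exact List.mem_singleton.2 rfl, rfl, rfl⟩
        have hchi := chi_term h hlt.1 hlt.2.1 hd c
        rw [hd1, hd2, pow_one, pow_one] at hchi
        rw [hchi, Units.val_mul]
        linear_combination ((chi chevB2 (shortPair k).1 c : Fˣ) : F) *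
          ((chi chevB2 (shortPair k).2 c : Fˣ) : F) * t * (hP k hk hl).sq
      · simp only [X, dif_pos (show k < 8 from hk), dif_neg hl]
        rw [conjugate_commutatorElement]
        refine E.comm_congr ?_ ?_
        · rw [map_mul, map_mul, map_inv, hg, E.map_tl, tg_comm, mul_inv_cancel_right]
        · rw [map_mul, map_mul, map_inv, hg, E.map_lift, E.map_lift, tg_conj h.cert c hk, mul_div_assoc]
    · obtain ⟨g, χ, hχ, ⟨v, hgv⟩, hY⟩ := hex
      have hχ' : χ = ((chi chevB2 k v : Fˣ) : F) := by
        have := congrArg π (hY 1)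
        rw [map_mul, map_mul, map_inv, hYm, hgv, tg_conj h.cert v hk, hYm, mul_one, mul_one] at this
        exact (xg_inj h.cert hk this).symm
      by_cases hl : isLongB2 k = true
      · exfalso
        have hB := longPairs k hk
        rw [hl, Bool.not_true, Bool.false_or] at hB
        simp only [longPairB, Bool.and_eq_true, singleB, decide_eq_true_eq] at hB
        have hterm := hB.1.1.1.1.1.1.2
        have hlt := hB.1.1.1.1.1.1.1
        apply hχ
        rw [hχ']
        -- the character of a long root is a square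
        have key : ∀ i : Fin chevB2.rank, 2 ∣ chevB2.cartan i k := by
          have hcart : ∀ i < 2, ∀ k < 8, isLongB2 k = true → chevB2.cartan i k % 2 = 0 := by decide +kernel
          exact fun i => Int.dvd_of_emod_eq_zero (hcart i i.isLt k hk hl)
        have h1 : chi chevB2 k v = 1 := by
          show ∏ i : Fin chevB2.rank, v i ^ chevB2.cartan i k = 1
          refine Finset.prod_eq_one fun i _ => ?_
          obtain ⟨m, hm⟩ := key i
          have hsq : v i ^ (2 : ℤ) = 1 := by
            refine Units.ext ?_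
            rcases hall (v i : F) with e | e | e
            · exact absurd e (v i).ne_zero
            · simp [e]
            · simp [e]
          rw [hm, _root_.zpow_mul, hsq, one_zpow]
        rw [h1, Units.val_one]
      ·         -- both are additive lifts fixed by the same torus action
        let f : F → Γ := fun t => Y t * (X k t)⁻¹
        have hfk : ∀ t, π (f t) = 1 := fun t => by
          simp only [f]; rw [map_mul, map_inv, hYm, hmapX k hk, mul_inv_cancel]
        have hXa : ∀ t u, X k t * X k u = X k (t + u) := fun t u => by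
          have hu := hmapX k hk u
          simp only [X, dif_pos (show k < 8 from hk), dif_neg hl] at hu ⊢
          set d := ((chi chevB2 k (cs k hk (Bool.eq_false_iff.2 hl)) : Fˣ) : F) - 1
          set g := E.tl (cs k hk (Bool.eq_false_iff.2 hl))
          have hco : Commute (E.lift k (t / d)) ⁅g, E.lift k (u / d)⁆ :=
            hself k _ _ _ u (E.map_lift _ _) hu
          calc ⁅g, E.lift k (t / d)⁆ * ⁅g, E.lift k (u / d)⁆
              = ⁅g, E.lift k (t / d)⁆ * (E.lift k (t / d) * ⁅g, E.lift k (u / d)⁆ * (E.lift k (t / d))⁻¹) := by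
                rw [hco.eq, mul_inv_cancel_right]
            _ = ⁅g, E.lift k (t / d) * E.lift k (u / d)⁆ := by simp only [commutatorElement_def]; group
            _ = _ := E.comm_congr rfl (by rw [map_mul, E.map_lift, E.map_lift, E.map_lift, xg_mul, add_div])
        have hfa : ∀ t u, f (t + u) = f t * f u := by
          intro t u
          simp only [f]
          rw [← hYa, ← hXa, mul_inv_rev]
          calc Y t * Y u * ((X k u)⁻¹ * (X k t)⁻¹) = Y t * f u * (X k t)⁻¹ := by simp only [f]; group
            _ = Y t * (X k t)⁻¹ * f u := by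
              rw [mul_assoc, ← E.mul_comm_ker (hfk u) (X k t)⁻¹, ← mul_assoc]
        have hfg : ∀ t, f (χ * t) = f t := by
          intro t
          rw [← E.conj_ker (hfk t) g]
          simp only [f]
          have hX : g * X k t * g⁻¹ = X k (χ * t) := by
            rw [hχ']
            simp only [X, dif_pos (show k < 8 from hk), dif_neg hl]
            rw [conjugate_commutatorElement]
            refine E.comm_congr ?_ ?_
            · rw [map_mul, map_mul, map_inv, hgv, E.map_tl, tg_comm, mul_inv_cancel_right]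
            · rw [map_mul, map_mul, map_inv, hgv, E.map_lift, E.map_lift, tg_conj h.cert v hk, mul_div_assoc]
          rw [← hY, ← hX]
          group
        have h1 : f t = 1 := by
          have h2' : f (χ * (t / (χ - 1))) = f (t / (χ - 1)) * f t := by
            rw [← hfa]
            congr 1
            have : χ - 1 ≠ 0 := sub_ne_zero.2 hχ
            field_simp
            ring
          rw [hfg] at h2'
          exact left_eq_mul.1 h2'
        exact mul_inv_eq_one.1 h1
  refine ⟨X, exists_lifts_of_canon (h := h) stCertB2 (stEdgeB2 F)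
    (fun i hi r hr s hs _ _ t u => commWord_map (stCertB2.isAut hi) (by decide +kernel) hr hs t u) E K
    (fun i hi g hg k hk t => ?_) (fun r s hr hs hrs => ?_) (hmoveB2 h)⟩
  · have hA := stCertB2.isAut hi
    by_cases hl : isLongB2 k = true
    · have hs := sigmaLong i hi k hk
      rw [hl] at hs
      have hl' : isLongB2 (sigmaB2 i k) = true := by
        by_contra hl'
        rw [Bool.not_eq_true] at hl'
        simp [hl'] at hs
      have hk' : sigmaB2 i k < 8 := hA.lt k hk
      have hB := longPairs k hk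
      rw [hl, Bool.not_true, Bool.false_or] at hB
      simp only [longPairB, Bool.and_eq_true, singleB, decide_eq_true_eq] at hB
      have hlt := hB.1.1.1.1.1.1.1
      simp only [Bool.and_eq_true, Bool.or_eq_true, Bool.not_true, Bool.false_eq_true, false_or] at hs
      obtain ⟨G, hG⟩ : ∃ G : F, Det E (sigmaB2 i (shortPair k).2) (sigmaB2 i (shortPair k).1) G
          (X (sigmaB2 i k)) := by
        rcases hs.2 with ⟨e1, e2⟩ | ⟨e1, e2⟩
        · rw [Nat.eq_of_beq_eq_true e1, Nat.eq_of_beq_eq_true e2]
          exact ⟨_, hdet _ hk' hl'⟩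
        · rw [Nat.eq_of_beq_eq_true e1, Nat.eq_of_beq_eq_true e2]
          exact ⟨_, (hdet _ hk' hl').swap hk' (hP _ hk' hl') (hP' _ hk' hl')⟩
      have hθgen : ∀ r < chevB2.nroots, ∀ t : F, thetaGroup h (chevB2.stGen F r t) = xg h.cert r t :=
        fun r hr t => Subtype.ext (by rw [coe_thetaGroup, theta_gen h hr]; rfl)
      have himg : ∀ r < chevB2.nroots, ∀ v : F,
          π (g * E.lift r v * g⁻¹) = xg h.cert (sigmaB2 i r) ((etaB2 i r : F) * v) := by
        intro r hr v
        rw [map_mul, map_mul, map_inv, hg, E.map_lift, ← hθgen r hr, ← map_inv, ← map_mul, ← map_mul,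
          stEdgeB2 F i hi r hr, hθgen _ (hA.lt r hr)]
      have e1 : g * X k t * g⁻¹ = X (sigmaB2 i k) (G * ((etaB2 i (shortPair k).2 : F) * (e k hk hl * t)) *
          ((etaB2 i (shortPair k).1 : F) * 1)) := by
        rw [← hG]
        simp only [X, dif_pos (show k < 8 from hk), dif_pos hl]
        rw [CExt.cl, conjugate_commutatorElement]
        exact E.cl_eq (himg _ hlt.2.1 _) (himg _ hlt.1 _)
      rw [e1]
      congr 1
      have e2 := congrArg π e1
      rw [hmapX _ hk', map_mul, map_mul, map_inv, hg, hmapX k hk, ← hθgen k hk, ← map_inv, ← map_mul,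
        ← map_mul, stEdgeB2 F i hi k hk, hθgen _ hk'] at e2
      exact (xg_inj h.cert hk' e2).symm
    · exact K.weyl stCertB2 (stEdgeB2 F) hi hg hk
        ⟨_, hcs k hk (Bool.eq_false_iff.2 hl)⟩ t
  · have hB := sepB2Three r hr.1 s hs.1
    have h6 : Nat.ble 4 r = true := Nat.ble_eq_true_of_le (h.pos.isPos_iff.1 hr).1
    have hlt : Nat.blt r s = true := Nat.ble_eq_true_of_le hrs
    rw [h6, hlt, Bool.and_true, Bool.not_true, Bool.false_or, Bool.or_eq_true, Bool.or_eq_true] at hB
    have hok := okB2
    simp only [Bool.and_eq_true] at hok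
    obtain ⟨⟨⟨⟨⟨o46, o47⟩, o76⟩, -⟩, p76⟩, s56⟩ := hok
    rcases hB with (hB | hB) | hB
    · exact Or.inl (kill_of_sepB hp1 hB)
    · -- two orthogonal long roots
      simp only [Bool.and_eq_true] at hB
      obtain rfl := Nat.eq_of_beq_eq_true hB.1
      obtain rfl := Nat.eq_of_beq_eq_true hB.2
      refine Or.inl (Or.inr (Or.inl ?_))
      have c76 : Comm h.toStd π 7 6 := htor _ _ o76 p76
      intro R Z t v hR hZ
      obtain ⟨Ua, hA⟩ := E.surj (xg h.cert 5 v)
      obtain ⟨Ub, hB'⟩ := E.surj (xg h.cert 6 1)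
      obtain ⟨C, hC, himg⟩ := singleB_spec (hS := h.toStd) (F := F) s56
      have hy : π ⁅Ub, Ua⁆ = xg h.cert 7 (-(C : F) * v) := by
        rw [map_commutatorElement, hA, hB', himg, mul_one]
      have hw := xg_comm h.toStd (r := 4) (s := 5) (show (4 : ℕ) < chevB2.nroots by decide)
        (show (5 : ℕ) < chevB2.nroots by decide) (by decide) (by decide) (-t) (-v)
      simp only [ChevalleyDatum.commWord, termsB2_45, List.map_cons, List.map_nil, List.prod_cons,
        List.prod_nil, mul_one, xg_inv, neg_neg] at hw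
      set w6 := ((1 : ℤ) : F) * t ^ 1 * (-v) ^ 1
      set w7 := ((-1 : ℤ) : F) * t ^ 1 * (-v) ^ 2
      obtain ⟨Q6, hQ6⟩ := E.surj (xg h.cert 6 (-w6))
      obtain ⟨Q7, hQ7⟩ := E.surj (xg h.cert 7 (-w7))
      have hRA : π (R * Ua * R⁻¹) = π (Q7 * Q6 * Ua) := by
        rw [map_mul, map_mul, map_inv, map_mul, map_mul, hR, hA, hQ6, hQ7]
        have e1 : xg h.cert 7 (-w7) * xg h.cert 6 (-w6) = (xg h.cert 6 w6 * xg h.cert 7 w7)⁻¹ := by
          rw [mul_inv_rev, xg_inv, xg_inv]
        rw [e1, ← hw]
        simp only [← xg_inv]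
        group
      have hRB : π (R * Ub * R⁻¹) = π Ub := by
        rw [map_mul, map_mul, map_inv, hR, hB', (okComB_spec (hS := h.toStd) o46 _ _).eq, mul_inv_cancel_right]
      have hQB : Commute (Q7 * Q6) Ub :=
        Commute.mul_left (c76 Q7 Ub _ _ hQ7 hB') (hself 6 Q6 Ub _ _ hQ6 hB')
      have hQy : Commute (Q7 * Q6) ⁅Ub, Ua⁆ :=
        Commute.mul_left (hself 7 Q7 _ _ _ hQ7 hy) (c76.symm Q6 _ _ _ hQ6 hy)
      have hRy : Commute R ⁅Ub, Ua⁆ := by
        refine mul_inv_eq_iff_eq_mul.1 ?_
        rw [conjugate_commutatorElement, E.comm_congr hRB hRA,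
          show ⁅Ub, Q7 * Q6 * Ua⁆ = ⁅Ub, Q7 * Q6⁆ * (Q7 * Q6 * ⁅Ub, Ua⁆ * (Q7 * Q6)⁻¹) by
            simp only [commutatorElement_def]; group,
          commutatorElement_eq_one_iff_commute.2 hQB.symm, one_mul, hQy.eq, mul_inv_cancel_right]
      have hCv : -(C : F) = 1 ∨ -(C : F) = -1 := by
        rcases hC with rfl | rfl
        · exact Or.inl (by push_cast; linear_combination -h3)
        · exact Or.inr (by push_cast; linear_combination h3)
      rcases hCv with e | e
      · rw [e, one_mul] at hy
        exact E.commute_of_image_eq (hZ.trans hy.symm) hRy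
      · rw [e, neg_one_mul] at hy
        refine E.commute_of_image_eq (y := ⁅Ub, Ua⁆⁻¹) ?_ hRy.inv_right
        rw [map_inv, hy, xg_inv, neg_neg, hZ]
    · -- the two short roots
      simp only [Bool.and_eq_true] at hB
      obtain rfl := Nat.eq_of_beq_eq_true hB.1
      obtain rfl := Nat.eq_of_beq_eq_true hB.2
      refine Or.inr fun t u => ?_
      have hl7 : isLongB2 7 = true := rfl
      have hd : Det E 6 5 (e 7 (by decide) hl7) (X 7) := hdet 7 (by decide) hl7
      have hc := E.cl_eq (r := 6) (s := 5) (a := (X 6 u)⁻¹) (b := (X 5 t)⁻¹) (t := -u) (u := -t)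
        (by rw [map_inv, hmapX 6 (by decide), xg_inv]) (by rw [map_inv, hmapX 5 (by decide), xg_inv])
      rw [commutatorElement_def, inv_inv, inv_inv, hd] at hc
      rw [hc]
      simp only [ChevalleyDatum.commWord, termsB2_56, List.map_cons, List.map_nil, List.prod_cons,
        List.prod_nil, mul_one, pow_one]
      congr 1
      have e2 := congrArg π hc
      rw [hmapX 7 (by decide), map_mul, map_mul, map_mul, map_inv, map_inv, hmapX 6 (by decide),
        hmapX 5 (by decide)] at e2
      have e3 := xg_comm h.toStd (r := 5) (s := 6) (show (5 : ℕ) < chevB2.nroots by decide)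
        (show (6 : ℕ) < chevB2.nroots by decide) (by decide) (by decide) t u
      simp only [ChevalleyDatum.commWord, termsB2_56, List.map_cons, List.map_nil, List.prod_cons,
        List.prod_nil, mul_one, pow_one] at e3
      exact xg_inj h.cert (show (7 : ℕ) < chevB2.nroots by decide) (e2.symm.trans e3)

end CfsgLib.ChevMult
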