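import Cfsg.Agent.Lib.ChevMult.MovesD4
import Cfsg.Agent.Lib.ChevMult.Universal
import Cfsg.Agent.Lib.ChevMult.Commute

/-! Lifts in the central extensions of the groups of type D4 over fields with more than three elements. -/

set_option autoImplicit false

namespace CfsgLib.ChevMult

open Cfsg.Lie CfsgLib.Twisted CfsgLib.SteinbergPres CfsgLib.Chevalley

theorem selfD4 : ∀ k < 24, methodB chevD4 1 k k = true := by decide +kernel

theorem chiD4 : ∀ k < 24, chiB chevD4 1 k = true := by decide +kernel

theorem sepD4 : ∀ r < 24, ∀ s < 24,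
    (!(Nat.ble 12 r && Nat.blt r s) || (sepB chevD4 2 r s || sepB chevD4 2 s r)) = true := by decide +kernel

theorem exists_lifts_D4 {A : Aux} (h : Full chevD4 A) {F : Type*} [Field F] (hF : ∃ S : Finset F, 3 < S.card)
    {Γ : Type*} [Group Γ] {π : Γ →* ↥(chevD4.group F)} (E : CExt h.toStd π) :
    ∃ X, Lifts h.toStd π X := by
  classical
  obtain ⟨S, hS⟩ := hF
  have hp1 : PowOk F 1 := powOk_of_card (S := S) (by omega)
  have hp2 : PowOk F 2 := powOk_of_card (S := S) (by omega)
  refine exists_lifts_of_kills (h := h) stCertD4 (stEdgeD4 F)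
    (fun i hi r hr s hs _ _ t u => commWord_map (stCertD4.isAut hi) chainsD4 hr hs t u) E
    (fun k hk => comm_of_methodB E (by simp) (selfD4 k hk))
    (fun k hk => exists_chi_of_chiB hp1 (chiD4 k hk)) (fun r s hr hs hrs => ?_) (hmoveD4 h)
  have hB := sepD4 r hr.1 s hs.1
  have h6 : Nat.ble 12 r = true := Nat.ble_eq_true_of_le (h.pos.isPos_iff.1 hr).1
  have hlt : Nat.blt r s = true := Nat.ble_eq_true_of_le hrs
  rw [h6, hlt, Bool.and_true, Bool.not_true, Bool.false_or] at hB
  exact kill_of_sepB hp2 hB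

end CfsgLib.ChevMult
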