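import Cfsg.Agent.Lib.ChevMult.LiftsD4
import Cfsg.Agent.Lib.ChevMult.LiftsB2

/-!
Lifts in the central extensions of the group of type D4 over the field of three elements: the lifts of two
orthogonal roots commute, by a cycle of Hall–Witt steps among such pairs.
-/

set_option autoImplicit false
set_option linter.unusedSectionVars false

namespace CfsgLib.ChevMult

open Cfsg.Lie CfsgLib.Twisted CfsgLib.SteinbergPres CfsgLib.Chevalley
open scoped commutatorElement

variable {D : ChevalleyDatum} {A : Aux} {F : Type*} [Field F] {Γ : Type*} [Group Γ]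
variable {hS : Std D A} {π : Γ →* ↥(D.group F)}

theorem cl_add_left_of_comm (E : CExt hS π) {r s : ℕ}
    (hcm : ∀ t u, Commute (xg hS.cert r t) (xg (F := F) hS.cert s u)) (t t' u : F) :
    E.cl r s (t + t') u = E.cl r s t' u * E.cl r s t u := by
  have hz : π (E.cl r s t' u) = 1 := by
    rw [CExt.cl, map_commutatorElement, E.map_lift, E.map_lift, commutatorElement_eq_one_iff_mul_comm]
    exact hcm t' u
  rw [← E.cl_eq (a := E.lift r t * E.lift r t') (b := E.lift s u)
    (by rw [map_mul, E.map_lift, E.map_lift, xg_mul]) (E.map_lift _ _)]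
  have e1 : ⁅E.lift r t * E.lift r t', E.lift s u⁆ =
      E.lift r t * E.cl r s t' u * (E.lift r t)⁻¹ * E.cl r s t u := by
    simp only [CExt.cl, commutatorElement_def]; group
  rw [e1, E.conj_ker hz]

theorem cl_add_right_of_comm (E : CExt hS π) {r s : ℕ}
    (hcm : ∀ t u, Commute (xg hS.cert r t) (xg (F := F) hS.cert s u)) (t u u' : F) :
    E.cl r s t (u + u') = E.cl r s t u * E.cl r s t u' := by
  have hz : π (E.cl r s t u') = 1 := by
    rw [CExt.cl, map_commutatorElement, E.map_lift, E.map_lift, commutatorElement_eq_one_iff_mul_comm]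
    exact hcm t u'
  rw [← E.cl_eq (a := E.lift r t) (b := E.lift s u * E.lift s u') (E.map_lift _ _)
    (by rw [map_mul, E.map_lift, E.map_lift, xg_mul])]
  have e1 : ⁅E.lift r t, E.lift s u * E.lift s u'⁆ =
      E.cl r s t u * (E.lift s u * E.cl r s t u' * (E.lift s u)⁻¹) := by
    simp only [CExt.cl, commutatorElement_def]; group
  rw [e1, E.conj_ker hz]

theorem cl_sign_left (E : CExt hS π) {r s : ℕ}
    (hcm : ∀ t u, Commute (xg hS.cert r t) (xg (F := F) hS.cert s u)) {C : ℤ} (hC : C = 1 ∨ C = -1) (u : F) :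
    E.cl r s (C : F) u = E.cl r s 1 u ^ C := by
  rcases hC with rfl | rfl
  · simp
  · rw [Int.cast_neg, Int.cast_one, zpow_neg, zpow_one]
    refine eq_inv_of_mul_eq_one_left ?_
    rw [← cl_add_left_of_comm E hcm, add_neg_cancel]
    have h0 := cl_add_left_of_comm E hcm 0 0 u
    rw [add_zero] at h0
    exact left_eq_mul.1 h0

theorem cl_sign_right (E : CExt hS π) {r s : ℕ}
    (hcm : ∀ t u, Commute (xg hS.cert r t) (xg (F := F) hS.cert s u)) {C : ℤ} (hC : C = 1 ∨ C = -1) (t : F) :
    E.cl r s t (C : F) = E.cl r s t 1 ^ C := by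
  rcases hC with rfl | rfl
  · simp
  · rw [Int.cast_neg, Int.cast_one, zpow_neg, zpow_one]
    refine eq_inv_of_mul_eq_one_left ?_
    rw [← cl_add_right_of_comm E hcm, neg_add_cancel]
    have h0 := cl_add_right_of_comm E hcm t 0 0
    rw [add_zero] at h0
    exact left_eq_mul.1 h0

/-- the coefficient of the first term -/
def headC (D : ChevalleyDatum) (a b : ℕ) : ℤ := (((D.commTerms a b).head?).map fun c => c.2.1).getD 0

/-- `s = a + b`, `e = a + r`, and the pairs commute as needed -/
def hwB (D : ChevalleyDatum) (r s a b e : ℕ) : Bool :=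
  singleB D 1 a b s && singleB D 1 a r e && okComB D r s && okComB D r b && okComB D e a && okComB D e b

theorem hw_step (E : CExt hS π) {r s a b e : ℕ} (h : hwB D r s a b e = true) :
    E.cl r s 1 1 = E.cl e b 1 1 ^ (-(headC D a b * headC D a r)) := by
  simp only [hwB, Bool.and_eq_true] at h
  obtain ⟨⟨⟨⟨⟨h1, h2⟩, hrs⟩, hrb⟩, hea⟩, heb⟩ := h
  have key : ∀ {a b k : ℕ}, singleB D 1 a b k = true → ∃ C : ℤ, (C = 1 ∨ C = -1) ∧ headC D a b = C ∧
      ∀ t u : F, ⁅xg hS.cert b u, xg hS.cert a t⁆ = xg hS.cert k (-(C : F) * t * u) := by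
    intro a b k h
    simp only [singleB, Bool.and_eq_true, decide_eq_true_eq] at h
    obtain ⟨⟨ha, hb, n1, n2⟩, h3⟩ := h
    rcases h3 with h3 | h3
    · exact ⟨1, Or.inl rfl, by simp [headC, h3], xg_comm_single hS ha hb n1 n2 h3⟩
    · exact ⟨-1, Or.inr rfl, by simp [headC, h3], xg_comm_single hS ha hb n1 n2 h3⟩
  obtain ⟨C, hC, eC, sab⟩ := key h1
  obtain ⟨C', hC', eC', sar⟩ := key h2
  rw [eC, eC']
  set R := E.lift r 1
  set Ua := E.lift a 1
  set Ub := E.lift b 1
  set Ee := E.lift e (-(C' : F))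
  have hy : π ⁅Ub, Ua⁆ = xg hS.cert s (-(C : F)) := by
    rw [map_commutatorElement, E.map_lift, E.map_lift, sab, mul_one, mul_one]
  have hEy : Commute Ee ⁅Ub, Ua⁆ := E.commute_commutator
    (by rw [E.map_lift, E.map_lift]; exact okComB_spec (hS := hS) hea _ _)
    (by rw [E.map_lift, E.map_lift]; exact okComB_spec (hS := hS) heb _ _)
  have h3 : π (R * Ua * R⁻¹) = π (Ee * Ua) := by
    have := sar 1 1
    rw [mul_one, mul_one, commutatorElement_def] at this
    rw [map_mul, map_mul, map_inv, map_mul, E.map_lift, E.map_lift, E.map_lift, ← this]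
    group
  have h4 : π (R * Ub * R⁻¹) = π Ub := by
    rw [map_mul, map_mul, map_inv, E.map_lift, E.map_lift]
    rw [(okComB_spec (hS := hS) hrb _ _).eq, mul_inv_cancel_right]
  have h5 : ⁅R, ⁅Ub, Ua⁆⁆ = ⁅Ub, Ee⁆ := by
    rw [commutatorElement_def R, conjugate_commutatorElement, E.comm_congr h4 h3,
      show ⁅Ub, Ee * Ua⁆ = ⁅Ub, Ee⁆ * (Ee * ⁅Ub, Ua⁆ * Ee⁻¹) by simp only [commutatorElement_def]; group,
      hEy.eq, mul_inv_cancel_right, mul_inv_cancel_right]
  rw [E.cl_eq (E.map_lift r 1) hy, ← commutatorElement_inv Ee Ub, E.cl_eq (E.map_lift e _) (E.map_lift b 1),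
    ← Int.cast_neg, cl_sign_right E (fun t u => okComB_spec (hS := hS) hrs t u)
      (by rcases hC with rfl | rfl <;> simp), ← Int.cast_neg,
    cl_sign_left E (fun t u => okComB_spec (hS := hS) heb t u) (by rcases hC' with rfl | rfl <;> simp),
    ← zpow_neg] at h5
  have h6 := congrArg (fun g => g ^ (-C)) h5
  simp only [← zpow_mul] at h6
  rw [show -C * -C = 1 by rcases hC with rfl | rfl <;> norm_num, zpow_one] at h6
  rw [h6]
  congr 1
  ring

/-- two steps lead from `(r, s)` to `(s, r)` without a change of sign -/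
def cycB (D : ChevalleyDatum) (r s : ℕ) : Bool :=
  (List.range D.nroots).any fun a =>
    match ent (tabOf D) s (D.neg a), ent (tabOf D) a r with
    | [(b, _)], [(e, _)] =>
      match ent (tabOf D) b (D.neg r) with
      | [(a', _)] =>
        hwB D r s a b e && hwB D e b a' r s &&
          decide (headC D a b * headC D a r * (headC D a' r * headC D a' e) = 1)
      | _ => false
    | _, _ => false

theorem comm_of_cycB (E : CExt hS π) {r s : ℕ} (hB : cycB D r s = true) (h3 : (3 : F) = 0)
    (hF : ∀ x : F, x = 0 ∨ x = 1 ∨ x = -1) : Comm hS π r s := by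
  simp only [cycB, List.any_eq_true] at hB
  obtain ⟨a, -, hB⟩ := hB
  revert hB
  split
  case h_2 => simp
  rename_i b _ e _ _ _
  split
  case h_2 => simp
  rename_i a' _ _
  intro hB
  simp only [Bool.and_eq_true, decide_eq_true_eq] at hB
  obtain ⟨⟨hB1, hB2⟩, hsign⟩ := hB
  have hrs : okComB D r s = true := by
    simp only [hwB, Bool.and_eq_true] at hB1; exact hB1.1.1.1.2
  have hcm : ∀ t u, Commute (xg hS.cert r t) (xg (F := F) hS.cert s u) := fun t u =>
    okComB_spec (hS := hS) hrs t u
  set Z := E.cl r s 1 1 with hZdef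
  have e1 := hw_step E hB1
  rw [hw_step E hB2, ← zpow_mul, ← hZdef, show E.cl s r 1 1 = Z⁻¹ by
      simp only [hZdef, CExt.cl, commutatorElement_inv],
    show (-(headC D a' r * headC D a' e)) * -(headC D a b * headC D a r) = 1 by
      rw [neg_mul_neg, mul_comm]; exact hsign, zpow_one] at e1
  have hsq : Z * Z = 1 := by
    calc Z * Z = Z * Z⁻¹ := by rw [← e1]
      _ = 1 := mul_inv_cancel Z
  have hcube : Z * Z * Z = 1 := by
    have h1 := cl_add_right_of_comm E hcm 1 (1 + 1) 1
    rw [cl_add_right_of_comm E hcm 1 1 1, show (1 + 1 + 1 : F) = 0 by linear_combination h3,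
      ← hZdef] at h1
    have h0 := cl_add_right_of_comm E hcm 1 0 0
    rw [add_zero] at h0
    rw [← h1]
    exact left_eq_mul.1 h0
  have hZ : Z = 1 := by rwa [hsq, one_mul] at hcube
  intro x y t u hx hy
  rw [← commutatorElement_eq_one_iff_commute, E.cl_eq hx hy]
  have hr0 : ∀ w, E.cl r s 0 w = 1 := fun w => by
    have h0 := cl_add_left_of_comm E hcm 0 0 w
    rw [add_zero] at h0
    exact left_eq_mul.1 h0
  have hl0 : ∀ w, E.cl r s w 0 = 1 := fun w => by
    have h0 := cl_add_right_of_comm E hcm w 0 0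
    rw [add_zero] at h0
    exact left_eq_mul.1 h0
  have hsign1 : ∀ w, w = (1 : F) ∨ w = -1 → E.cl r s w 1 = 1 := by
    rintro w (rfl | rfl)
    · exact hZ
    · have := cl_sign_left E hcm (C := -1) (Or.inr rfl) 1
      rw [Int.cast_neg, Int.cast_one, ← hZdef, hZ, one_zpow] at this
      exact this
  rcases hF t with rfl | ht
  · exact hr0 u
  rcases hF u with rfl | rfl | rfl
  · exact hl0 t
  · exact hsign1 t ht
  · have := cl_sign_right E hcm (C := -1) (Or.inr rfl) t
    rw [Int.cast_neg, Int.cast_one, hsign1 t ht, one_zpow] at this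
    exact this

theorem sepD4Three : ∀ r < 24, ∀ s < 24, (!(Nat.ble 12 r && Nat.blt r s) ||
    (sepB chevD4 1 r s || sepB chevD4 1 s r || cycB chevD4 r s)) = true := by decide +kernel

theorem exists_lifts_D4_three {A : Aux} (h : Full chevD4 A) {F : Type*} [Field F] [Fintype F]
    (hF : Fintype.card F = 3) {Γ : Type*} [Group Γ] {π : Γ →* ↥(chevD4.group F)} (E : CExt h.toStd π) :
    ∃ X, Lifts h.toStd π X := by
  classical
  have hp1 : PowOk F 1 := powOk_of_card (S := Finset.univ) (by rw [Finset.card_univ]; omega)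
  have hchar : (3 : F) = 0 := by
    have e := FiniteField.cast_card_eq_zero F
    rw [hF] at e
    exact_mod_cast e
  have h2 : (2 : F) ≠ 0 := fun e => one_ne_zero (α := F) (by linear_combination hchar - e)
  have hall : ∀ x : F, x = 0 ∨ x = 1 ∨ x = -1 := by
    have hcard : ({0, 1, -1} : Finset F).card = 3 := by
      rw [Finset.card_insert_of_notMem, Finset.card_insert_of_notMem, Finset.card_singleton]
      · simp only [Finset.mem_singleton]; exact fun e => h2 (by linear_combination e)
      · simp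
    have huniv : ({0, 1, -1} : Finset F) = Finset.univ := Finset.eq_univ_of_card _ (by rw [hcard, hF])
    intro x
    have hx := Finset.mem_univ x
    rw [← huniv] at hx
    simpa using hx
  refine exists_lifts_of_kills (h := h) stCertD4 (stEdgeD4 F)
    (fun i hi r hr s hs _ _ t u => commWord_map (stCertD4.isAut hi) chainsD4 hr hs t u) E
    (fun k hk => comm_of_methodB E (by simp) (selfD4 k hk))
    (fun k hk => exists_chi_of_chiB hp1 (chiD4 k hk)) (fun r s hr hs hrs => ?_) (hmoveD4 h)
  have hB := sepD4Three r hr.1 s hs.1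
  have h6 : Nat.ble 12 r = true := Nat.ble_eq_true_of_le (h.pos.isPos_iff.1 hr).1
  have hlt : Nat.blt r s = true := Nat.ble_eq_true_of_le hrs
  rw [h6, hlt, Bool.and_true, Bool.not_true, Bool.false_or] at hB
  rcases Bool.or_eq_true _ _ |>.mp hB with e | e
  · exact kill_of_sepB hp1 e
  · exact Or.inr (Or.inl (comm_of_cycB E e hchar hall))

end CfsgLib.ChevMult
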