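import Cfsg.Agent.Lib.ChevMult.MovesF4
import Cfsg.Agent.Lib.ChevMult.Universal
import Cfsg.Agent.Lib.ChevMult.Commute

/-! Lifts in the central extensions of the groups of type F4 over fields with more than two elements. -/

set_option autoImplicit false

namespace CfsgLib.ChevMult

open Cfsg.Lie CfsgLib.Twisted CfsgLib.SteinbergPres CfsgLib.Chevalley

theorem selfF4 : ∀ k < 48, methodB chevF4 1 k k = true := by decide +kernel

theorem chiF4 : ∀ k < 48, chiB chevF4 1 k = true := by decide +kernel

theorem sepF4 : ∀ r < 48, ∀ s < 48,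
    (!(Nat.ble 24 r && Nat.blt r s) || ((sepB chevF4 2 r s || sepB chevF4 2 s r) &&
      ((sepB chevF4 1 r s || sepB chevF4 1 s r) || (methodB chevF4 2 r s || methodB chevF4 2 s r)))) = true := by
  decide +kernel

theorem exists_lifts_F4 {A : Aux} (h : Full chevF4 A) {F : Type*} [Field F] (hF : ∃ S : Finset F, 2 < S.card)
    {Γ : Type*} [Group Γ] {π : Γ →* ↥(chevF4.group F)} (E : CExt h.toStd π) :
    ∃ X, Lifts h.toStd π X := by
  classical
  obtain ⟨S, hS⟩ := hF
  have hp1 : PowOk F 1 := powOk_of_card (S := S) (by omega)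
  refine exists_lifts_of_kills (h := h) stCertF4 (stEdgeF4 F)
    (fun i hi r hr s hs _ _ t u => commWord_map (stCertF4.isAut hi) chainsF4 hr hs t u) E
    (fun k hk => comm_of_methodB E (by simp) (selfF4 k hk))
    (fun k hk => exists_chi_of_chiB hp1 (chiF4 k hk)) (fun r s hr hs hrs => ?_) (hmoveF4 h)
  have hB := sepF4 r hr.1 s hs.1
  have h6 : Nat.ble 24 r = true := Nat.ble_eq_true_of_le (h.pos.isPos_iff.1 hr).1
  have hlt : Nat.blt r s = true := Nat.ble_eq_true_of_le hrs
  rw [h6, hlt, Bool.and_true, Bool.not_true, Bool.false_or, Bool.and_eq_true] at hB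
  by_cases h2 : (2 : F) = 0
  · have h3 : PowOk F 2 := by
      intro d hd hd2
      obtain ⟨c, hc⟩ := hp1 1 one_pos le_rfl
      refine ⟨c, ?_⟩
      interval_cases d
      · exact hc
      · intro e
        rw [pow_one] at hc
        refine hc (Units.ext ?_)
        have e1 : (c : F) ^ 2 = 1 := by rw [← Units.val_pow_eq_pow_val, e, Units.val_one]
        have e2 : ((c : F) - 1) ^ 2 = 0 := by linear_combination e1 - ((c : F) - 1) * h2
        rw [Units.val_one]
        exact sub_eq_zero.1 (pow_eq_zero_iff two_ne_zero |>.1 e2)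
    exact kill_of_sepB h3 hB.1
  · rcases Bool.or_eq_true _ _ |>.mp hB.2 with e | e
    · exact kill_of_sepB hp1 e
    · rcases Bool.or_eq_true _ _ |>.mp e with e | e
      · exact Or.inr (Or.inl (comm_of_methodB E (d := 2) (by exact_mod_cast h2) e))
      · exact Or.inr (Or.inl (comm_of_methodB E (d := 2) (by exact_mod_cast h2) e).symm)

end CfsgLib.ChevMult
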