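import Cfsg.Agent.Lib.ChevMult.MovesG2
import Cfsg.Agent.Lib.ChevMult.Universal

/-! Lifts in the central extensions of the groups of type G2 over fields with more than four elements. -/

set_option autoImplicit false

namespace CfsgLib.ChevMult

open Cfsg.Lie CfsgLib.Twisted CfsgLib.SteinbergPres CfsgLib.Chevalley

theorem chiG2 : ∀ k < 12, chiB chevG2 1 k = true := by decide +kernel

theorem sepG2 : ∀ r < 12, ∀ s < 12,
    (!(Nat.ble 6 r && Nat.blt r s) || (sepB chevG2 3 r s || sepB chevG2 3 s r)) = true := by decide +kernel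

theorem exists_lifts_G2 {A : Aux} (h : Full chevG2 A) {F : Type*} [Field F] (hF : ∃ S : Finset F, 4 < S.card)
    {Γ : Type*} [Group Γ] {π : Γ →* ↥(chevG2.group F)} (E : CExt h.toStd π) :
    ∃ X, Lifts h.toStd π X := by
  classical
  obtain ⟨S, hS⟩ := hF
  have hp1 : PowOk F 1 := powOk_of_card (S := S) (by omega)
  have hp3 : PowOk F 3 := powOk_of_card (S := S) (by omega)
  refine exists_lifts_of_kills (h := h) stCertG2 (stEdgeG2 F) (fun i hi r hr s hs h1 h2 t u => ?_) E
    (fun k hk => comm_self_of_chiB E hk (chiG2 k hk) (exists_field_pair hS))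
    (fun k hk => exists_chi_of_chiB hp1 (chiG2 k hk)) (fun r s hr hs hrs => ?_) (hmoveG2 h)
  · exact commWord_of_mapAllB (by decide +kernel) hi (stCertG2.isAut hi) hr hs h1 h2 t u
  · have hB := sepG2 r hr.1 s hs.1
    have h6 : Nat.ble 6 r = true := Nat.ble_eq_true_of_le (h.pos.isPos_iff.1 hr).1
    have hlt : Nat.blt r s = true := Nat.ble_eq_true_of_le hrs
    rw [h6, hlt, Bool.and_true, Bool.not_true, Bool.false_or] at hB
    exact kill_of_sepB hp3 hB

end CfsgLib.ChevMult
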