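import Cfsg.Agent.Lib.ChevMult.TorusEngine
import Cfsg.Agent.Lib.SteinbergPres.StCertB2

/-! Words making two roots of B2 positive. -/

set_option autoImplicit false
set_option maxRecDepth 10000

namespace CfsgLib.ChevMult

open Cfsg.Lie CfsgLib.Twisted CfsgLib.SteinbergPres

/-- a word in base 3 -/
def decodeB2 : ℕ → ℕ → List ℕ
  | 0, _ => []
  | fuel + 1, c => if Nat.beq c 0 then [] else (c % 3 - 1) :: decodeB2 fuel (c / 3)

/-- the words -/
def codesB2 : List (List ℕ) :=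
  [[0, 23, 7, 23, 7, 23, 7, 0],
    [16, 0, 16, 5, 16, 5, 0, 5],
    [7, 16, 0, 50, 1, 0, 1, 1],
    [23, 5, 50, 0, 0, 2, 2, 2],
    [7, 16, 1, 0, 0, 0, 0, 0],
    [23, 5, 0, 2, 0, 0, 0, 0],
    [7, 0, 1, 2, 0, 0, 0, 0],
    [0, 5, 1, 2, 0, 0, 0, 0]]

theorem movesB2 : ∀ r < 8, ∀ s < 8, (Nat.beq s r || Nat.beq s (chevB2.neg r) ||
    moveB chevB2 sigmaB2 (decodeB2 5 ((codesB2.getD r []).getD s 0)) r s) = true := by
  decide +kernel

theorem hmoveB2 {A : CfsgLib.Chevalley.Aux} (h : CfsgLib.Chevalley.Full chevB2 A) :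
    ∀ r < chevB2.nroots, ∀ s < chevB2.nroots, s ≠ r → s ≠ chevB2.neg r → ∃ w : List ℕ,
      (∀ k ∈ w, k < chevB2.rank) ∧ chevB2.IsPosRoot (w.foldl (fun r k => sigmaB2 k r) r) ∧
        chevB2.IsPosRoot (w.foldl (fun r k => sigmaB2 k r) s) := by
  intro r hr s hs h1 h2
  have hB := movesB2 r hr s hs
  simp only [Bool.or_eq_true] at hB
  rcases hB with (e | e) | e
  · exact absurd (Nat.eq_of_beq_eq_true e) h1
  · exact absurd (Nat.eq_of_beq_eq_true e) h2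
  · exact ⟨_, moveB_spec h e⟩

end CfsgLib.ChevMult
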