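import Cfsg.Agent.Lib.ChevMult.TorusEngine
import Cfsg.Agent.Lib.SteinbergPres.StCertG2

/-! Words making two roots of G2 positive. -/

set_option autoImplicit false
set_option maxRecDepth 10000

namespace CfsgLib.ChevMult

open Cfsg.Lie CfsgLib.Twisted CfsgLib.SteinbergPres

/-- a word in base 3 -/
def decodeG2 : ℕ → ℕ → List ℕ
  | 0, _ => []
  | fuel + 1, c => if Nat.beq c 0 then [] else (c % 3 - 1) :: decodeG2 fuel (c / 3)

/-- the words -/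
def codesG2 : List (List ℕ) :=
  [[0, 70, 70, 23, 70, 23, 70, 23, 70, 23, 23, 0],
    [70, 0, 16, 212, 7, 212, 7, 212, 7, 7, 0, 7],
    [50, 16, 0, 50, 16, 50, 16, 50, 16, 0, 50, 16],
    [23, 151, 50, 0, 151, 5, 151, 5, 0, 5, 5, 5],
    [70, 7, 16, 151, 0, 455, 1, 0, 1, 1, 1, 1],
    [23, 212, 50, 5, 455, 0, 0, 2, 2, 2, 2, 2],
    [70, 7, 16, 151, 1, 0, 0, 0, 0, 0, 0, 0],
    [23, 212, 50, 5, 0, 2, 0, 0, 0, 0, 0, 0],
    [70, 7, 16, 0, 1, 2, 0, 0, 0, 0, 0, 0],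
    [23, 7, 0, 5, 1, 2, 0, 0, 0, 0, 0, 0],
    [23, 0, 50, 5, 1, 2, 0, 0, 0, 0, 0, 0],
    [0, 7, 16, 5, 1, 2, 0, 0, 0, 0, 0, 0]]

theorem movesG2 : ∀ r < 12, ∀ s < 12, (Nat.beq s r || Nat.beq s (chevG2.neg r) ||
    moveB chevG2 sigmaG2 (decodeG2 7 ((codesG2.getD r []).getD s 0)) r s) = true := by
  decide +kernel

theorem hmoveG2 {A : CfsgLib.Chevalley.Aux} (h : CfsgLib.Chevalley.Full chevG2 A) :
    ∀ r < chevG2.nroots, ∀ s < chevG2.nroots, s ≠ r → s ≠ chevG2.neg r → ∃ w : List ℕ,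
      (∀ k ∈ w, k < chevG2.rank) ∧ chevG2.IsPosRoot (w.foldl (fun r k => sigmaG2 k r) r) ∧
        chevG2.IsPosRoot (w.foldl (fun r k => sigmaG2 k r) s) := by
  intro r hr s hs h1 h2
  have hB := movesG2 r hr s hs
  simp only [Bool.or_eq_true] at hB
  rcases hB with (e | e) | e
  · exact absurd (Nat.eq_of_beq_eq_true e) h1
  · exact absurd (Nat.eq_of_beq_eq_true e) h2
  · exact ⟨_, moveB_spec h e⟩

end CfsgLib.ChevMult
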