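import Cfsg.Agent.Lib.ChevMult.SimplyLaced
import Cfsg.Agent.Lib.Chevalley.CommE6

/-! The tests of `SimplyLaced` for type E6. -/

set_option autoImplicit false

namespace CfsgLib.ChevMult

open Cfsg.Lie

theorem slCertE6 : SLCert chevE6 := by
  exact ⟨CfsgLib.Chevalley.commE6, by decide +kernel, by decide +kernel⟩

end CfsgLib.ChevMult
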