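import Cfsg.Agent.Lib.ChevMult.SLE7P

/-! The tests of `SimplyLaced` for type E7. -/

set_option autoImplicit false
set_option maxRecDepth 10000

namespace CfsgLib.ChevMult

open Cfsg.Lie

theorem slPairsE7 {r s : ℕ} (hr : r < 126) (hs : s < 126) : slPairT tabE7 r s = true := by
  by_cases h0 : r < 2
  · have := slPairsE7_0 (r - 0) (by omega) s hs
    rwa [show 0 + (r - 0) = r by omega] at this
  by_cases h2 : r < 4
  · have := slPairsE7_2 (r - 2) (by omega) s hs
    rwa [show 2 + (r - 2) = r by omega] at this
  by_cases h4 : r < 6
  · have := slPairsE7_4 (r - 4) (by omega) s hs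
    rwa [show 4 + (r - 4) = r by omega] at this
  by_cases h6 : r < 8
  · have := slPairsE7_6 (r - 6) (by omega) s hs
    rwa [show 6 + (r - 6) = r by omega] at this
  by_cases h8 : r < 10
  · have := slPairsE7_8 (r - 8) (by omega) s hs
    rwa [show 8 + (r - 8) = r by omega] at this
  by_cases h10 : r < 12
  · have := slPairsE7_10 (r - 10) (by omega) s hs
    rwa [show 10 + (r - 10) = r by omega] at this
  by_cases h12 : r < 14
  · have := slPairsE7_12 (r - 12) (by omega) s hs
    rwa [show 12 + (r - 12) = r by omega] at this
  by_cases h14 : r < 16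
  · have := slPairsE7_14 (r - 14) (by omega) s hs
    rwa [show 14 + (r - 14) = r by omega] at this
  by_cases h16 : r < 18
  · have := slPairsE7_16 (r - 16) (by omega) s hs
    rwa [show 16 + (r - 16) = r by omega] at this
  by_cases h18 : r < 20
  · have := slPairsE7_18 (r - 18) (by omega) s hs
    rwa [show 18 + (r - 18) = r by omega] at this
  by_cases h20 : r < 22
  · have := slPairsE7_20 (r - 20) (by omega) s hs
    rwa [show 20 + (r - 20) = r by omega] at this
  by_cases h22 : r < 24
  · have := slPairsE7_22 (r - 22) (by omega) s hs
    rwa [show 22 + (r - 22) = r by omega] at this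
  by_cases h24 : r < 26
  · have := slPairsE7_24 (r - 24) (by omega) s hs
    rwa [show 24 + (r - 24) = r by omega] at this
  by_cases h26 : r < 28
  · have := slPairsE7_26 (r - 26) (by omega) s hs
    rwa [show 26 + (r - 26) = r by omega] at this
  by_cases h28 : r < 30
  · have := slPairsE7_28 (r - 28) (by omega) s hs
    rwa [show 28 + (r - 28) = r by omega] at this
  by_cases h30 : r < 32
  · have := slPairsE7_30 (r - 30) (by omega) s hs
    rwa [show 30 + (r - 30) = r by omega] at this
  by_cases h32 : r < 34
  · have := slPairsE7_32 (r - 32) (by omega) s hs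
    rwa [show 32 + (r - 32) = r by omega] at this
  by_cases h34 : r < 36
  · have := slPairsE7_34 (r - 34) (by omega) s hs
    rwa [show 34 + (r - 34) = r by omega] at this
  by_cases h36 : r < 38
  · have := slPairsE7_36 (r - 36) (by omega) s hs
    rwa [show 36 + (r - 36) = r by omega] at this
  by_cases h38 : r < 40
  · have := slPairsE7_38 (r - 38) (by omega) s hs
    rwa [show 38 + (r - 38) = r by omega] at this
  by_cases h40 : r < 42
  · have := slPairsE7_40 (r - 40) (by omega) s hs
    rwa [show 40 + (r - 40) = r by omega] at this
  by_cases h42 : r < 44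
  · have := slPairsE7_42 (r - 42) (by omega) s hs
    rwa [show 42 + (r - 42) = r by omega] at this
  by_cases h44 : r < 46
  · have := slPairsE7_44 (r - 44) (by omega) s hs
    rwa [show 44 + (r - 44) = r by omega] at this
  by_cases h46 : r < 48
  · have := slPairsE7_46 (r - 46) (by omega) s hs
    rwa [show 46 + (r - 46) = r by omega] at this
  by_cases h48 : r < 50
  · have := slPairsE7_48 (r - 48) (by omega) s hs
    rwa [show 48 + (r - 48) = r by omega] at this
  by_cases h50 : r < 52
  · have := slPairsE7_50 (r - 50) (by omega) s hs
    rwa [show 50 + (r - 50) = r by omega] at this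
  by_cases h52 : r < 54
  · have := slPairsE7_52 (r - 52) (by omega) s hs
    rwa [show 52 + (r - 52) = r by omega] at this
  by_cases h54 : r < 56
  · have := slPairsE7_54 (r - 54) (by omega) s hs
    rwa [show 54 + (r - 54) = r by omega] at this
  by_cases h56 : r < 58
  · have := slPairsE7_56 (r - 56) (by omega) s hs
    rwa [show 56 + (r - 56) = r by omega] at this
  by_cases h58 : r < 60
  · have := slPairsE7_58 (r - 58) (by omega) s hs
    rwa [show 58 + (r - 58) = r by omega] at this
  by_cases h60 : r < 62
  · have := slPairsE7_60 (r - 60) (by omega) s hs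
    rwa [show 60 + (r - 60) = r by omega] at this
  by_cases h62 : r < 64
  · have := slPairsE7_62 (r - 62) (by omega) s hs
    rwa [show 62 + (r - 62) = r by omega] at this
  by_cases h64 : r < 66
  · have := slPairsE7_64 (r - 64) (by omega) s hs
    rwa [show 64 + (r - 64) = r by omega] at this
  by_cases h66 : r < 68
  · have := slPairsE7_66 (r - 66) (by omega) s hs
    rwa [show 66 + (r - 66) = r by omega] at this
  by_cases h68 : r < 70
  · have := slPairsE7_68 (r - 68) (by omega) s hs
    rwa [show 68 + (r - 68) = r by omega] at this
  by_cases h70 : r < 72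
  · have := slPairsE7_70 (r - 70) (by omega) s hs
    rwa [show 70 + (r - 70) = r by omega] at this
  by_cases h72 : r < 74
  · have := slPairsE7_72 (r - 72) (by omega) s hs
    rwa [show 72 + (r - 72) = r by omega] at this
  by_cases h74 : r < 76
  · have := slPairsE7_74 (r - 74) (by omega) s hs
    rwa [show 74 + (r - 74) = r by omega] at this
  by_cases h76 : r < 78
  · have := slPairsE7_76 (r - 76) (by omega) s hs
    rwa [show 76 + (r - 76) = r by omega] at this
  by_cases h78 : r < 80
  · have := slPairsE7_78 (r - 78) (by omega) s hs
    rwa [show 78 + (r - 78) = r by omega] at this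
  by_cases h80 : r < 82
  · have := slPairsE7_80 (r - 80) (by omega) s hs
    rwa [show 80 + (r - 80) = r by omega] at this
  by_cases h82 : r < 84
  · have := slPairsE7_82 (r - 82) (by omega) s hs
    rwa [show 82 + (r - 82) = r by omega] at this
  by_cases h84 : r < 86
  · have := slPairsE7_84 (r - 84) (by omega) s hs
    rwa [show 84 + (r - 84) = r by omega] at this
  by_cases h86 : r < 88
  · have := slPairsE7_86 (r - 86) (by omega) s hs
    rwa [show 86 + (r - 86) = r by omega] at this
  by_cases h88 : r < 90
  · have := slPairsE7_88 (r - 88) (by omega) s hs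
    rwa [show 88 + (r - 88) = r by omega] at this
  by_cases h90 : r < 92
  · have := slPairsE7_90 (r - 90) (by omega) s hs
    rwa [show 90 + (r - 90) = r by omega] at this
  by_cases h92 : r < 94
  · have := slPairsE7_92 (r - 92) (by omega) s hs
    rwa [show 92 + (r - 92) = r by omega] at this
  by_cases h94 : r < 96
  · have := slPairsE7_94 (r - 94) (by omega) s hs
    rwa [show 94 + (r - 94) = r by omega] at this
  by_cases h96 : r < 98
  · have := slPairsE7_96 (r - 96) (by omega) s hs
    rwa [show 96 + (r - 96) = r by omega] at this
  by_cases h98 : r < 100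
  · have := slPairsE7_98 (r - 98) (by omega) s hs
    rwa [show 98 + (r - 98) = r by omega] at this
  by_cases h100 : r < 102
  · have := slPairsE7_100 (r - 100) (by omega) s hs
    rwa [show 100 + (r - 100) = r by omega] at this
  by_cases h102 : r < 104
  · have := slPairsE7_102 (r - 102) (by omega) s hs
    rwa [show 102 + (r - 102) = r by omega] at this
  by_cases h104 : r < 106
  · have := slPairsE7_104 (r - 104) (by omega) s hs
    rwa [show 104 + (r - 104) = r by omega] at this
  by_cases h106 : r < 108
  · have := slPairsE7_106 (r - 106) (by omega) s hs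
    rwa [show 106 + (r - 106) = r by omega] at this
  by_cases h108 : r < 110
  · have := slPairsE7_108 (r - 108) (by omega) s hs
    rwa [show 108 + (r - 108) = r by omega] at this
  by_cases h110 : r < 112
  · have := slPairsE7_110 (r - 110) (by omega) s hs
    rwa [show 110 + (r - 110) = r by omega] at this
  by_cases h112 : r < 114
  · have := slPairsE7_112 (r - 112) (by omega) s hs
    rwa [show 112 + (r - 112) = r by omega] at this
  by_cases h114 : r < 116
  · have := slPairsE7_114 (r - 114) (by omega) s hs
    rwa [show 114 + (r - 114) = r by omega] at this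
  by_cases h116 : r < 118
  · have := slPairsE7_116 (r - 116) (by omega) s hs
    rwa [show 116 + (r - 116) = r by omega] at this
  by_cases h118 : r < 120
  · have := slPairsE7_118 (r - 118) (by omega) s hs
    rwa [show 118 + (r - 118) = r by omega] at this
  by_cases h120 : r < 122
  · have := slPairsE7_120 (r - 120) (by omega) s hs
    rwa [show 120 + (r - 120) = r by omega] at this
  by_cases h122 : r < 124
  · have := slPairsE7_122 (r - 122) (by omega) s hs
    rwa [show 122 + (r - 122) = r by omega] at this
  by_cases h124 : r < 126
  · have := slPairsE7_124 (r - 124) (by omega) s hs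
    rwa [show 124 + (r - 124) = r by omega] at this
  omega

theorem slCertE7 : SLCert chevE7 where
  sl := CfsgLib.Chevalley.commE7
  pair r hr s hs := by rw [tabOf_E7]; exact slPairsE7 hr hs
  root := by
    rw [tabOf_E7]
    decide +kernel

end CfsgLib.ChevMult
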