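import Cfsg.Agent.Lib.ChevMult.SLTabE8

/-! The pair tests of type E8, roots 60 to 119. -/

set_option autoImplicit false
set_option Elab.async false

namespace CfsgLib.ChevMult

theorem slPairsE8_60 : ∀ r < 2, ∀ s < 240, slPairT tabE8 (60 + r) s = true := by
  decide +kernel

theorem slPairsE8_62 : ∀ r < 2, ∀ s < 240, slPairT tabE8 (62 + r) s = true := by
  decide +kernel

theorem slPairsE8_64 : ∀ r < 2, ∀ s < 240, slPairT tabE8 (64 + r) s = true := by
  decide +kernel

theorem slPairsE8_66 : ∀ r < 2, ∀ s < 240, slPairT tabE8 (66 + r) s = true := by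
  decide +kernel

theorem slPairsE8_68 : ∀ r < 2, ∀ s < 240, slPairT tabE8 (68 + r) s = true := by
  decide +kernel

theorem slPairsE8_70 : ∀ r < 2, ∀ s < 240, slPairT tabE8 (70 + r) s = true := by
  decide +kernel

theorem slPairsE8_72 : ∀ r < 2, ∀ s < 240, slPairT tabE8 (72 + r) s = true := by
  decide +kernel

theorem slPairsE8_74 : ∀ r < 2, ∀ s < 240, slPairT tabE8 (74 + r) s = true := by
  decide +kernel

theorem slPairsE8_76 : ∀ r < 2, ∀ s < 240, slPairT tabE8 (76 + r) s = true := by
  decide +kernel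

theorem slPairsE8_78 : ∀ r < 2, ∀ s < 240, slPairT tabE8 (78 + r) s = true := by
  decide +kernel

theorem slPairsE8_80 : ∀ r < 2, ∀ s < 240, slPairT tabE8 (80 + r) s = true := by
  decide +kernel

theorem slPairsE8_82 : ∀ r < 2, ∀ s < 240, slPairT tabE8 (82 + r) s = true := by
  decide +kernel

theorem slPairsE8_84 : ∀ r < 2, ∀ s < 240, slPairT tabE8 (84 + r) s = true := by
  decide +kernel

theorem slPairsE8_86 : ∀ r < 2, ∀ s < 240, slPairT tabE8 (86 + r) s = true := by
  decide +kernel

theorem slPairsE8_88 : ∀ r < 2, ∀ s < 240, slPairT tabE8 (88 + r) s = true := by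
  decide +kernel

theorem slPairsE8_90 : ∀ r < 2, ∀ s < 240, slPairT tabE8 (90 + r) s = true := by
  decide +kernel

theorem slPairsE8_92 : ∀ r < 2, ∀ s < 240, slPairT tabE8 (92 + r) s = true := by
  decide +kernel

theorem slPairsE8_94 : ∀ r < 2, ∀ s < 240, slPairT tabE8 (94 + r) s = true := by
  decide +kernel

theorem slPairsE8_96 : ∀ r < 2, ∀ s < 240, slPairT tabE8 (96 + r) s = true := by
  decide +kernel

theorem slPairsE8_98 : ∀ r < 2, ∀ s < 240, slPairT tabE8 (98 + r) s = true := by
  decide +kernel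

theorem slPairsE8_100 : ∀ r < 2, ∀ s < 240, slPairT tabE8 (100 + r) s = true := by
  decide +kernel

theorem slPairsE8_102 : ∀ r < 2, ∀ s < 240, slPairT tabE8 (102 + r) s = true := by
  decide +kernel

theorem slPairsE8_104 : ∀ r < 2, ∀ s < 240, slPairT tabE8 (104 + r) s = true := by
  decide +kernel

theorem slPairsE8_106 : ∀ r < 2, ∀ s < 240, slPairT tabE8 (106 + r) s = true := by
  decide +kernel

theorem slPairsE8_108 : ∀ r < 2, ∀ s < 240, slPairT tabE8 (108 + r) s = true := by
  decide +kernel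

theorem slPairsE8_110 : ∀ r < 2, ∀ s < 240, slPairT tabE8 (110 + r) s = true := by
  decide +kernel

theorem slPairsE8_112 : ∀ r < 2, ∀ s < 240, slPairT tabE8 (112 + r) s = true := by
  decide +kernel

theorem slPairsE8_114 : ∀ r < 2, ∀ s < 240, slPairT tabE8 (114 + r) s = true := by
  decide +kernel

theorem slPairsE8_116 : ∀ r < 2, ∀ s < 240, slPairT tabE8 (116 + r) s = true := by
  decide +kernel

theorem slPairsE8_118 : ∀ r < 2, ∀ s < 240, slPairT tabE8 (118 + r) s = true := by
  decide +kernel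

end CfsgLib.ChevMult
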