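import Cfsg.Agent.Lib.ChevMult.SLTabE8

/-! The pair tests of type E8, roots 120 to 179. -/

set_option autoImplicit false
set_option Elab.async false

namespace CfsgLib.ChevMult

theorem slPairsE8_120 : ∀ r < 2, ∀ s < 240, slPairT tabE8 (120 + r) s = true := by
  decide +kernel

theorem slPairsE8_122 : ∀ r < 2, ∀ s < 240, slPairT tabE8 (122 + r) s = true := by
  decide +kernel

theorem slPairsE8_124 : ∀ r < 2, ∀ s < 240, slPairT tabE8 (124 + r) s = true := by
  decide +kernel

theorem slPairsE8_126 : ∀ r < 2, ∀ s < 240, slPairT tabE8 (126 + r) s = true := by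
  decide +kernel

theorem slPairsE8_128 : ∀ r < 2, ∀ s < 240, slPairT tabE8 (128 + r) s = true := by
  decide +kernel

theorem slPairsE8_130 : ∀ r < 2, ∀ s < 240, slPairT tabE8 (130 + r) s = true := by
  decide +kernel

theorem slPairsE8_132 : ∀ r < 2, ∀ s < 240, slPairT tabE8 (132 + r) s = true := by
  decide +kernel

theorem slPairsE8_134 : ∀ r < 2, ∀ s < 240, slPairT tabE8 (134 + r) s = true := by
  decide +kernel

theorem slPairsE8_136 : ∀ r < 2, ∀ s < 240, slPairT tabE8 (136 + r) s = true := by
  decide +kernel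

theorem slPairsE8_138 : ∀ r < 2, ∀ s < 240, slPairT tabE8 (138 + r) s = true := by
  decide +kernel

theorem slPairsE8_140 : ∀ r < 2, ∀ s < 240, slPairT tabE8 (140 + r) s = true := by
  decide +kernel

theorem slPairsE8_142 : ∀ r < 2, ∀ s < 240, slPairT tabE8 (142 + r) s = true := by
  decide +kernel

theorem slPairsE8_144 : ∀ r < 2, ∀ s < 240, slPairT tabE8 (144 + r) s = true := by
  decide +kernel

theorem slPairsE8_146 : ∀ r < 2, ∀ s < 240, slPairT tabE8 (146 + r) s = true := by
  decide +kernel

theorem slPairsE8_148 : ∀ r < 2, ∀ s < 240, slPairT tabE8 (148 + r) s = true := by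
  decide +kernel

theorem slPairsE8_150 : ∀ r < 2, ∀ s < 240, slPairT tabE8 (150 + r) s = true := by
  decide +kernel

theorem slPairsE8_152 : ∀ r < 2, ∀ s < 240, slPairT tabE8 (152 + r) s = true := by
  decide +kernel

theorem slPairsE8_154 : ∀ r < 2, ∀ s < 240, slPairT tabE8 (154 + r) s = true := by
  decide +kernel

theorem slPairsE8_156 : ∀ r < 2, ∀ s < 240, slPairT tabE8 (156 + r) s = true := by
  decide +kernel

theorem slPairsE8_158 : ∀ r < 2, ∀ s < 240, slPairT tabE8 (158 + r) s = true := by
  decide +kernel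

theorem slPairsE8_160 : ∀ r < 2, ∀ s < 240, slPairT tabE8 (160 + r) s = true := by
  decide +kernel

theorem slPairsE8_162 : ∀ r < 2, ∀ s < 240, slPairT tabE8 (162 + r) s = true := by
  decide +kernel

theorem slPairsE8_164 : ∀ r < 2, ∀ s < 240, slPairT tabE8 (164 + r) s = true := by
  decide +kernel

theorem slPairsE8_166 : ∀ r < 2, ∀ s < 240, slPairT tabE8 (166 + r) s = true := by
  decide +kernel

theorem slPairsE8_168 : ∀ r < 2, ∀ s < 240, slPairT tabE8 (168 + r) s = true := by
  decide +kernel

theorem slPairsE8_170 : ∀ r < 2, ∀ s < 240, slPairT tabE8 (170 + r) s = true := by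
  decide +kernel

theorem slPairsE8_172 : ∀ r < 2, ∀ s < 240, slPairT tabE8 (172 + r) s = true := by
  decide +kernel

theorem slPairsE8_174 : ∀ r < 2, ∀ s < 240, slPairT tabE8 (174 + r) s = true := by
  decide +kernel

theorem slPairsE8_176 : ∀ r < 2, ∀ s < 240, slPairT tabE8 (176 + r) s = true := by
  decide +kernel

theorem slPairsE8_178 : ∀ r < 2, ∀ s < 240, slPairT tabE8 (178 + r) s = true := by
  decide +kernel

end CfsgLib.ChevMult
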