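import Cfsg.Agent.Lib.ChevMult.SLTabE8

/-! The pair tests of type E8, roots 180 to 239. -/

set_option autoImplicit false
set_option Elab.async false

namespace CfsgLib.ChevMult

theorem slPairsE8_180 : ∀ r < 2, ∀ s < 240, slPairT tabE8 (180 + r) s = true := by
  decide +kernel

theorem slPairsE8_182 : ∀ r < 2, ∀ s < 240, slPairT tabE8 (182 + r) s = true := by
  decide +kernel

theorem slPairsE8_184 : ∀ r < 2, ∀ s < 240, slPairT tabE8 (184 + r) s = true := by
  decide +kernel

theorem slPairsE8_186 : ∀ r < 2, ∀ s < 240, slPairT tabE8 (186 + r) s = true := by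
  decide +kernel

theorem slPairsE8_188 : ∀ r < 2, ∀ s < 240, slPairT tabE8 (188 + r) s = true := by
  decide +kernel

theorem slPairsE8_190 : ∀ r < 2, ∀ s < 240, slPairT tabE8 (190 + r) s = true := by
  decide +kernel

theorem slPairsE8_192 : ∀ r < 2, ∀ s < 240, slPairT tabE8 (192 + r) s = true := by
  decide +kernel

theorem slPairsE8_194 : ∀ r < 2, ∀ s < 240, slPairT tabE8 (194 + r) s = true := by
  decide +kernel

theorem slPairsE8_196 : ∀ r < 2, ∀ s < 240, slPairT tabE8 (196 + r) s = true := by
  decide +kernel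

theorem slPairsE8_198 : ∀ r < 2, ∀ s < 240, slPairT tabE8 (198 + r) s = true := by
  decide +kernel

theorem slPairsE8_200 : ∀ r < 2, ∀ s < 240, slPairT tabE8 (200 + r) s = true := by
  decide +kernel

theorem slPairsE8_202 : ∀ r < 2, ∀ s < 240, slPairT tabE8 (202 + r) s = true := by
  decide +kernel

theorem slPairsE8_204 : ∀ r < 2, ∀ s < 240, slPairT tabE8 (204 + r) s = true := by
  decide +kernel

theorem slPairsE8_206 : ∀ r < 2, ∀ s < 240, slPairT tabE8 (206 + r) s = true := by
  decide +kernel

theorem slPairsE8_208 : ∀ r < 2, ∀ s < 240, slPairT tabE8 (208 + r) s = true := by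
  decide +kernel

theorem slPairsE8_210 : ∀ r < 2, ∀ s < 240, slPairT tabE8 (210 + r) s = true := by
  decide +kernel

theorem slPairsE8_212 : ∀ r < 2, ∀ s < 240, slPairT tabE8 (212 + r) s = true := by
  decide +kernel

theorem slPairsE8_214 : ∀ r < 2, ∀ s < 240, slPairT tabE8 (214 + r) s = true := by
  decide +kernel

theorem slPairsE8_216 : ∀ r < 2, ∀ s < 240, slPairT tabE8 (216 + r) s = true := by
  decide +kernel

theorem slPairsE8_218 : ∀ r < 2, ∀ s < 240, slPairT tabE8 (218 + r) s = true := by
  decide +kernel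

theorem slPairsE8_220 : ∀ r < 2, ∀ s < 240, slPairT tabE8 (220 + r) s = true := by
  decide +kernel

theorem slPairsE8_222 : ∀ r < 2, ∀ s < 240, slPairT tabE8 (222 + r) s = true := by
  decide +kernel

theorem slPairsE8_224 : ∀ r < 2, ∀ s < 240, slPairT tabE8 (224 + r) s = true := by
  decide +kernel

theorem slPairsE8_226 : ∀ r < 2, ∀ s < 240, slPairT tabE8 (226 + r) s = true := by
  decide +kernel

theorem slPairsE8_228 : ∀ r < 2, ∀ s < 240, slPairT tabE8 (228 + r) s = true := by
  decide +kernel

theorem slPairsE8_230 : ∀ r < 2, ∀ s < 240, slPairT tabE8 (230 + r) s = true := by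
  decide +kernel

theorem slPairsE8_232 : ∀ r < 2, ∀ s < 240, slPairT tabE8 (232 + r) s = true := by
  decide +kernel

theorem slPairsE8_234 : ∀ r < 2, ∀ s < 240, slPairT tabE8 (234 + r) s = true := by
  decide +kernel

theorem slPairsE8_236 : ∀ r < 2, ∀ s < 240, slPairT tabE8 (236 + r) s = true := by
  decide +kernel

theorem slPairsE8_238 : ∀ r < 2, ∀ s < 240, slPairT tabE8 (238 + r) s = true := by
  decide +kernel

end CfsgLib.ChevMult
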