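import Cfsg.Agent.Lib.ChevMult.SLE8P0
import Cfsg.Agent.Lib.ChevMult.SLE8P1
import Cfsg.Agent.Lib.ChevMult.SLE8P2
import Cfsg.Agent.Lib.ChevMult.SLE8P3

/-! The tests of `SimplyLaced` for type E8. -/

set_option autoImplicit false
set_option maxRecDepth 10000

namespace CfsgLib.ChevMult

open Cfsg.Lie

theorem slPairsE8 {r s : ℕ} (hr : r < 240) (hs : s < 240) : slPairT tabE8 r s = true := by
  by_cases h0 : r < 2
  · have := slPairsE8_0 (r - 0) (by omega) s hs
    rwa [show 0 + (r - 0) = r by omega] at this
  by_cases h2 : r < 4
  · have := slPairsE8_2 (r - 2) (by omega) s hs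
    rwa [show 2 + (r - 2) = r by omega] at this
  by_cases h4 : r < 6
  · have := slPairsE8_4 (r - 4) (by omega) s hs
    rwa [show 4 + (r - 4) = r by omega] at this
  by_cases h6 : r < 8
  · have := slPairsE8_6 (r - 6) (by omega) s hs
    rwa [show 6 + (r - 6) = r by omega] at this
  by_cases h8 : r < 10
  · have := slPairsE8_8 (r - 8) (by omega) s hs
    rwa [show 8 + (r - 8) = r by omega] at this
  by_cases h10 : r < 12
  · have := slPairsE8_10 (r - 10) (by omega) s hs
    rwa [show 10 + (r - 10) = r by omega] at this
  by_cases h12 : r < 14
  · have := slPairsE8_12 (r - 12) (by omega) s hs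
    rwa [show 12 + (r - 12) = r by omega] at this
  by_cases h14 : r < 16
  · have := slPairsE8_14 (r - 14) (by omega) s hs
    rwa [show 14 + (r - 14) = r by omega] at this
  by_cases h16 : r < 18
  · have := slPairsE8_16 (r - 16) (by omega) s hs
    rwa [show 16 + (r - 16) = r by omega] at this
  by_cases h18 : r < 20
  · have := slPairsE8_18 (r - 18) (by omega) s hs
    rwa [show 18 + (r - 18) = r by omega] at this
  by_cases h20 : r < 22
  · have := slPairsE8_20 (r - 20) (by omega) s hs
    rwa [show 20 + (r - 20) = r by omega] at this
  by_cases h22 : r < 24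
  · have := slPairsE8_22 (r - 22) (by omega) s hs
    rwa [show 22 + (r - 22) = r by omega] at this
  by_cases h24 : r < 26
  · have := slPairsE8_24 (r - 24) (by omega) s hs
    rwa [show 24 + (r - 24) = r by omega] at this
  by_cases h26 : r < 28
  · have := slPairsE8_26 (r - 26) (by omega) s hs
    rwa [show 26 + (r - 26) = r by omega] at this
  by_cases h28 : r < 30
  · have := slPairsE8_28 (r - 28) (by omega) s hs
    rwa [show 28 + (r - 28) = r by omega] at this
  by_cases h30 : r < 32
  · have := slPairsE8_30 (r - 30) (by omega) s hs
    rwa [show 30 + (r - 30) = r by omega] at this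
  by_cases h32 : r < 34
  · have := slPairsE8_32 (r - 32) (by omega) s hs
    rwa [show 32 + (r - 32) = r by omega] at this
  by_cases h34 : r < 36
  · have := slPairsE8_34 (r - 34) (by omega) s hs
    rwa [show 34 + (r - 34) = r by omega] at this
  by_cases h36 : r < 38
  · have := slPairsE8_36 (r - 36) (by omega) s hs
    rwa [show 36 + (r - 36) = r by omega] at this
  by_cases h38 : r < 40
  · have := slPairsE8_38 (r - 38) (by omega) s hs
    rwa [show 38 + (r - 38) = r by omega] at this
  by_cases h40 : r < 42
  · have := slPairsE8_40 (r - 40) (by omega) s hs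
    rwa [show 40 + (r - 40) = r by omega] at this
  by_cases h42 : r < 44
  · have := slPairsE8_42 (r - 42) (by omega) s hs
    rwa [show 42 + (r - 42) = r by omega] at this
  by_cases h44 : r < 46
  · have := slPairsE8_44 (r - 44) (by omega) s hs
    rwa [show 44 + (r - 44) = r by omega] at this
  by_cases h46 : r < 48
  · have := slPairsE8_46 (r - 46) (by omega) s hs
    rwa [show 46 + (r - 46) = r by omega] at this
  by_cases h48 : r < 50
  · have := slPairsE8_48 (r - 48) (by omega) s hs
    rwa [show 48 + (r - 48) = r by omega] at this
  by_cases h50 : r < 52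
  · have := slPairsE8_50 (r - 50) (by omega) s hs
    rwa [show 50 + (r - 50) = r by omega] at this
  by_cases h52 : r < 54
  · have := slPairsE8_52 (r - 52) (by omega) s hs
    rwa [show 52 + (r - 52) = r by omega] at this
  by_cases h54 : r < 56
  · have := slPairsE8_54 (r - 54) (by omega) s hs
    rwa [show 54 + (r - 54) = r by omega] at this
  by_cases h56 : r < 58
  · have := slPairsE8_56 (r - 56) (by omega) s hs
    rwa [show 56 + (r - 56) = r by omega] at this
  by_cases h58 : r < 60
  · have := slPairsE8_58 (r - 58) (by omega) s hs
    rwa [show 58 + (r - 58) = r by omega] at this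
  by_cases h60 : r < 62
  · have := slPairsE8_60 (r - 60) (by omega) s hs
    rwa [show 60 + (r - 60) = r by omega] at this
  by_cases h62 : r < 64
  · have := slPairsE8_62 (r - 62) (by omega) s hs
    rwa [show 62 + (r - 62) = r by omega] at this
  by_cases h64 : r < 66
  · have := slPairsE8_64 (r - 64) (by omega) s hs
    rwa [show 64 + (r - 64) = r by omega] at this
  by_cases h66 : r < 68
  · have := slPairsE8_66 (r - 66) (by omega) s hs
    rwa [show 66 + (r - 66) = r by omega] at this
  by_cases h68 : r < 70
  · have := slPairsE8_68 (r - 68) (by omega) s hs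
    rwa [show 68 + (r - 68) = r by omega] at this
  by_cases h70 : r < 72
  · have := slPairsE8_70 (r - 70) (by omega) s hs
    rwa [show 70 + (r - 70) = r by omega] at this
  by_cases h72 : r < 74
  · have := slPairsE8_72 (r - 72) (by omega) s hs
    rwa [show 72 + (r - 72) = r by omega] at this
  by_cases h74 : r < 76
  · have := slPairsE8_74 (r - 74) (by omega) s hs
    rwa [show 74 + (r - 74) = r by omega] at this
  by_cases h76 : r < 78
  · have := slPairsE8_76 (r - 76) (by omega) s hs
    rwa [show 76 + (r - 76) = r by omega] at this
  by_cases h78 : r < 80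
  · have := slPairsE8_78 (r - 78) (by omega) s hs
    rwa [show 78 + (r - 78) = r by omega] at this
  by_cases h80 : r < 82
  · have := slPairsE8_80 (r - 80) (by omega) s hs
    rwa [show 80 + (r - 80) = r by omega] at this
  by_cases h82 : r < 84
  · have := slPairsE8_82 (r - 82) (by omega) s hs
    rwa [show 82 + (r - 82) = r by omega] at this
  by_cases h84 : r < 86
  · have := slPairsE8_84 (r - 84) (by omega) s hs
    rwa [show 84 + (r - 84) = r by omega] at this
  by_cases h86 : r < 88
  · have := slPairsE8_86 (r - 86) (by omega) s hs
    rwa [show 86 + (r - 86) = r by omega] at this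
  by_cases h88 : r < 90
  · have := slPairsE8_88 (r - 88) (by omega) s hs
    rwa [show 88 + (r - 88) = r by omega] at this
  by_cases h90 : r < 92
  · have := slPairsE8_90 (r - 90) (by omega) s hs
    rwa [show 90 + (r - 90) = r by omega] at this
  by_cases h92 : r < 94
  · have := slPairsE8_92 (r - 92) (by omega) s hs
    rwa [show 92 + (r - 92) = r by omega] at this
  by_cases h94 : r < 96
  · have := slPairsE8_94 (r - 94) (by omega) s hs
    rwa [show 94 + (r - 94) = r by omega] at this
  by_cases h96 : r < 98
  · have := slPairsE8_96 (r - 96) (by omega) s hs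
    rwa [show 96 + (r - 96) = r by omega] at this
  by_cases h98 : r < 100
  · have := slPairsE8_98 (r - 98) (by omega) s hs
    rwa [show 98 + (r - 98) = r by omega] at this
  by_cases h100 : r < 102
  · have := slPairsE8_100 (r - 100) (by omega) s hs
    rwa [show 100 + (r - 100) = r by omega] at this
  by_cases h102 : r < 104
  · have := slPairsE8_102 (r - 102) (by omega) s hs
    rwa [show 102 + (r - 102) = r by omega] at this
  by_cases h104 : r < 106
  · have := slPairsE8_104 (r - 104) (by omega) s hs
    rwa [show 104 + (r - 104) = r by omega] at this
  by_cases h106 : r < 108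
  · have := slPairsE8_106 (r - 106) (by omega) s hs
    rwa [show 106 + (r - 106) = r by omega] at this
  by_cases h108 : r < 110
  · have := slPairsE8_108 (r - 108) (by omega) s hs
    rwa [show 108 + (r - 108) = r by omega] at this
  by_cases h110 : r < 112
  · have := slPairsE8_110 (r - 110) (by omega) s hs
    rwa [show 110 + (r - 110) = r by omega] at this
  by_cases h112 : r < 114
  · have := slPairsE8_112 (r - 112) (by omega) s hs
    rwa [show 112 + (r - 112) = r by omega] at this
  by_cases h114 : r < 116
  · have := slPairsE8_114 (r - 114) (by omega) s hs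
    rwa [show 114 + (r - 114) = r by omega] at this
  by_cases h116 : r < 118
  · have := slPairsE8_116 (r - 116) (by omega) s hs
    rwa [show 116 + (r - 116) = r by omega] at this
  by_cases h118 : r < 120
  · have := slPairsE8_118 (r - 118) (by omega) s hs
    rwa [show 118 + (r - 118) = r by omega] at this
  by_cases h120 : r < 122
  · have := slPairsE8_120 (r - 120) (by omega) s hs
    rwa [show 120 + (r - 120) = r by omega] at this
  by_cases h122 : r < 124
  · have := slPairsE8_122 (r - 122) (by omega) s hs
    rwa [show 122 + (r - 122) = r by omega] at this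
  by_cases h124 : r < 126
  · have := slPairsE8_124 (r - 124) (by omega) s hs
    rwa [show 124 + (r - 124) = r by omega] at this
  by_cases h126 : r < 128
  · have := slPairsE8_126 (r - 126) (by omega) s hs
    rwa [show 126 + (r - 126) = r by omega] at this
  by_cases h128 : r < 130
  · have := slPairsE8_128 (r - 128) (by omega) s hs
    rwa [show 128 + (r - 128) = r by omega] at this
  by_cases h130 : r < 132
  · have := slPairsE8_130 (r - 130) (by omega) s hs
    rwa [show 130 + (r - 130) = r by omega] at this
  by_cases h132 : r < 134
  · have := slPairsE8_132 (r - 132) (by omega) s hs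
    rwa [show 132 + (r - 132) = r by omega] at this
  by_cases h134 : r < 136
  · have := slPairsE8_134 (r - 134) (by omega) s hs
    rwa [show 134 + (r - 134) = r by omega] at this
  by_cases h136 : r < 138
  · have := slPairsE8_136 (r - 136) (by omega) s hs
    rwa [show 136 + (r - 136) = r by omega] at this
  by_cases h138 : r < 140
  · have := slPairsE8_138 (r - 138) (by omega) s hs
    rwa [show 138 + (r - 138) = r by omega] at this
  by_cases h140 : r < 142
  · have := slPairsE8_140 (r - 140) (by omega) s hs
    rwa [show 140 + (r - 140) = r by omega] at this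
  by_cases h142 : r < 144
  · have := slPairsE8_142 (r - 142) (by omega) s hs
    rwa [show 142 + (r - 142) = r by omega] at this
  by_cases h144 : r < 146
  · have := slPairsE8_144 (r - 144) (by omega) s hs
    rwa [show 144 + (r - 144) = r by omega] at this
  by_cases h146 : r < 148
  · have := slPairsE8_146 (r - 146) (by omega) s hs
    rwa [show 146 + (r - 146) = r by omega] at this
  by_cases h148 : r < 150
  · have := slPairsE8_148 (r - 148) (by omega) s hs
    rwa [show 148 + (r - 148) = r by omega] at this
  by_cases h150 : r < 152
  · have := slPairsE8_150 (r - 150) (by omega) s hs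
    rwa [show 150 + (r - 150) = r by omega] at this
  by_cases h152 : r < 154
  · have := slPairsE8_152 (r - 152) (by omega) s hs
    rwa [show 152 + (r - 152) = r by omega] at this
  by_cases h154 : r < 156
  · have := slPairsE8_154 (r - 154) (by omega) s hs
    rwa [show 154 + (r - 154) = r by omega] at this
  by_cases h156 : r < 158
  · have := slPairsE8_156 (r - 156) (by omega) s hs
    rwa [show 156 + (r - 156) = r by omega] at this
  by_cases h158 : r < 160
  · have := slPairsE8_158 (r - 158) (by omega) s hs
    rwa [show 158 + (r - 158) = r by omega] at this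
  by_cases h160 : r < 162
  · have := slPairsE8_160 (r - 160) (by omega) s hs
    rwa [show 160 + (r - 160) = r by omega] at this
  by_cases h162 : r < 164
  · have := slPairsE8_162 (r - 162) (by omega) s hs
    rwa [show 162 + (r - 162) = r by omega] at this
  by_cases h164 : r < 166
  · have := slPairsE8_164 (r - 164) (by omega) s hs
    rwa [show 164 + (r - 164) = r by omega] at this
  by_cases h166 : r < 168
  · have := slPairsE8_166 (r - 166) (by omega) s hs
    rwa [show 166 + (r - 166) = r by omega] at this
  by_cases h168 : r < 170
  · have := slPairsE8_168 (r - 168) (by omega) s hs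
    rwa [show 168 + (r - 168) = r by omega] at this
  by_cases h170 : r < 172
  · have := slPairsE8_170 (r - 170) (by omega) s hs
    rwa [show 170 + (r - 170) = r by omega] at this
  by_cases h172 : r < 174
  · have := slPairsE8_172 (r - 172) (by omega) s hs
    rwa [show 172 + (r - 172) = r by omega] at this
  by_cases h174 : r < 176
  · have := slPairsE8_174 (r - 174) (by omega) s hs
    rwa [show 174 + (r - 174) = r by omega] at this
  by_cases h176 : r < 178
  · have := slPairsE8_176 (r - 176) (by omega) s hs
    rwa [show 176 + (r - 176) = r by omega] at this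
  by_cases h178 : r < 180
  · have := slPairsE8_178 (r - 178) (by omega) s hs
    rwa [show 178 + (r - 178) = r by omega] at this
  by_cases h180 : r < 182
  · have := slPairsE8_180 (r - 180) (by omega) s hs
    rwa [show 180 + (r - 180) = r by omega] at this
  by_cases h182 : r < 184
  · have := slPairsE8_182 (r - 182) (by omega) s hs
    rwa [show 182 + (r - 182) = r by omega] at this
  by_cases h184 : r < 186
  · have := slPairsE8_184 (r - 184) (by omega) s hs
    rwa [show 184 + (r - 184) = r by omega] at this
  by_cases h186 : r < 188
  · have := slPairsE8_186 (r - 186) (by omega) s hs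
    rwa [show 186 + (r - 186) = r by omega] at this
  by_cases h188 : r < 190
  · have := slPairsE8_188 (r - 188) (by omega) s hs
    rwa [show 188 + (r - 188) = r by omega] at this
  by_cases h190 : r < 192
  · have := slPairsE8_190 (r - 190) (by omega) s hs
    rwa [show 190 + (r - 190) = r by omega] at this
  by_cases h192 : r < 194
  · have := slPairsE8_192 (r - 192) (by omega) s hs
    rwa [show 192 + (r - 192) = r by omega] at this
  by_cases h194 : r < 196
  · have := slPairsE8_194 (r - 194) (by omega) s hs
    rwa [show 194 + (r - 194) = r by omega] at this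
  by_cases h196 : r < 198
  · have := slPairsE8_196 (r - 196) (by omega) s hs
    rwa [show 196 + (r - 196) = r by omega] at this
  by_cases h198 : r < 200
  · have := slPairsE8_198 (r - 198) (by omega) s hs
    rwa [show 198 + (r - 198) = r by omega] at this
  by_cases h200 : r < 202
  · have := slPairsE8_200 (r - 200) (by omega) s hs
    rwa [show 200 + (r - 200) = r by omega] at this
  by_cases h202 : r < 204
  · have := slPairsE8_202 (r - 202) (by omega) s hs
    rwa [show 202 + (r - 202) = r by omega] at this
  by_cases h204 : r < 206
  · have := slPairsE8_204 (r - 204) (by omega) s hs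
    rwa [show 204 + (r - 204) = r by omega] at this
  by_cases h206 : r < 208
  · have := slPairsE8_206 (r - 206) (by omega) s hs
    rwa [show 206 + (r - 206) = r by omega] at this
  by_cases h208 : r < 210
  · have := slPairsE8_208 (r - 208) (by omega) s hs
    rwa [show 208 + (r - 208) = r by omega] at this
  by_cases h210 : r < 212
  · have := slPairsE8_210 (r - 210) (by omega) s hs
    rwa [show 210 + (r - 210) = r by omega] at this
  by_cases h212 : r < 214
  · have := slPairsE8_212 (r - 212) (by omega) s hs
    rwa [show 212 + (r - 212) = r by omega] at this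
  by_cases h214 : r < 216
  · have := slPairsE8_214 (r - 214) (by omega) s hs
    rwa [show 214 + (r - 214) = r by omega] at this
  by_cases h216 : r < 218
  · have := slPairsE8_216 (r - 216) (by omega) s hs
    rwa [show 216 + (r - 216) = r by omega] at this
  by_cases h218 : r < 220
  · have := slPairsE8_218 (r - 218) (by omega) s hs
    rwa [show 218 + (r - 218) = r by omega] at this
  by_cases h220 : r < 222
  · have := slPairsE8_220 (r - 220) (by omega) s hs
    rwa [show 220 + (r - 220) = r by omega] at this
  by_cases h222 : r < 224
  · have := slPairsE8_222 (r - 222) (by omega) s hs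
    rwa [show 222 + (r - 222) = r by omega] at this
  by_cases h224 : r < 226
  · have := slPairsE8_224 (r - 224) (by omega) s hs
    rwa [show 224 + (r - 224) = r by omega] at this
  by_cases h226 : r < 228
  · have := slPairsE8_226 (r - 226) (by omega) s hs
    rwa [show 226 + (r - 226) = r by omega] at this
  by_cases h228 : r < 230
  · have := slPairsE8_228 (r - 228) (by omega) s hs
    rwa [show 228 + (r - 228) = r by omega] at this
  by_cases h230 : r < 232
  · have := slPairsE8_230 (r - 230) (by omega) s hs
    rwa [show 230 + (r - 230) = r by omega] at this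
  by_cases h232 : r < 234
  · have := slPairsE8_232 (r - 232) (by omega) s hs
    rwa [show 232 + (r - 232) = r by omega] at this
  by_cases h234 : r < 236
  · have := slPairsE8_234 (r - 234) (by omega) s hs
    rwa [show 234 + (r - 234) = r by omega] at this
  by_cases h236 : r < 238
  · have := slPairsE8_236 (r - 236) (by omega) s hs
    rwa [show 236 + (r - 236) = r by omega] at this
  by_cases h238 : r < 240
  · have := slPairsE8_238 (r - 238) (by omega) s hs
    rwa [show 238 + (r - 238) = r by omega] at this
  omega

theorem slCertE8 : SLCert chevE8 where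
  sl := CfsgLib.Chevalley.commE8
  pair r hr s hs := by rw [tabOf_E8]; exact slPairsE8 hr hs
  root := by
    rw [tabOf_E8]
    decide +kernel

end CfsgLib.ChevMult
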