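import Cfsg.Agent.Lib.ChevMult.PLifts
import Cfsg.Agent.Lib.ChevMult.MovesG2
import Cfsg.Agent.Lib.ChevMult.MovesB2
import Cfsg.Agent.Lib.ChevMult.MovesD4
import Cfsg.Agent.Lib.ChevMult.MovesF4
import Cfsg.Agent.Lib.ChevMult.SLDataE6
import Cfsg.Agent.Lib.ChevMult.SLDataE7
import Cfsg.Agent.Lib.ChevMult.SLDataE8

/-! Lifts when the kernel is finite without elements of order the characteristic, for the seven types. -/

set_option autoImplicit false

namespace CfsgLib.ChevMult

open Cfsg.Lie CfsgLib.Twisted CfsgLib.SteinbergPres CfsgLib.Chevalley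

theorem exists_lifts_of_pKernel_mem {D : ChevalleyDatum} {A : Aux} (h : Full D A) {F : Type*} [Field F]
    {Γ : Type*} [Group Γ] {π : Γ →* ↥(D.group F)} (E : CExt h.toStd π) {p : ℕ} (hp : (p : F) = 0)
    (hker : ∀ z : Γ, π z = 1 → z ^ p = 1 → z = 1) (hfin : Finite π.ker) :
    ∃ X, Lifts h.toStd π X := by
  have hD := h.mem
  simp only [List.mem_cons, List.not_mem_nil, or_false] at hD
  rcases hD with rfl | rfl | rfl | rfl | rfl | rfl | rfl
  · exact exists_lifts_of_pKernel (h := h) stCertG2 (stEdgeG2 F)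
      (fun i hi r hr s hs h1 h2 t u =>
        commWord_of_mapAllB (by decide +kernel) hi (stCertG2.isAut hi) hr hs h1 h2 t u)
      (hmoveG2 h) E hp hker hfin
  · exact exists_lifts_of_pKernel (h := h) stCertB2 (stEdgeB2 F)
      (fun i hi r hr s hs _ _ t u => commWord_map (stCertB2.isAut hi) (by decide +kernel) hr hs t u)
      (hmoveB2 h) E hp hker hfin
  · exact exists_lifts_of_pKernel (h := h) stCertD4 (stEdgeD4 F)
      (fun i hi r hr s hs _ _ t u => commWord_map (stCertD4.isAut hi) chainsD4 hr hs t u) (hmoveD4 h) E hp hker hfin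
  · exact exists_lifts_of_pKernel (h := h) stCertF4 (stEdgeF4 F)
      (fun i hi r hr s hs _ _ t u => commWord_map (stCertF4.isAut hi) chainsF4 hr hs t u) (hmoveF4 h) E hp hker hfin
  · exact slCertE6.exists_lifts E
  · exact slCertE7.exists_lifts E
  · exact slCertE8.exists_lifts E

end CfsgLib.ChevMult
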