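import Cfsg.Agent.Lib.ChevMult.TorusEngine

/-!
Lifts in a central extension whose kernel is finite and has no elements of order the characteristic: the
`p`-elements.
-/

set_option autoImplicit false
set_option linter.unusedSectionVars false

namespace CfsgLib.ChevMult

open Cfsg.Lie CfsgLib.Chevalley CfsgLib.SteinbergPres
open scoped commutatorElement

universe u

variable {D : ChevalleyDatum} {A : Aux} {F : Type*} [Field F] {Γ : Type u} [Group Γ]
variable {h : Full D A} {π : Γ →* ↥(D.group F)}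

theorem xg_pow (hC : Cert D A) (r : ℕ) (t : F) : ∀ n : ℕ, xg hC r t ^ n = xg hC r ((n : F) * t)
  | 0 => by rw [pow_zero, Nat.cast_zero, zero_mul, xg_zero]
  | n + 1 => by rw [pow_succ, xg_pow hC r t n, xg_mul, Nat.cast_succ, add_mul, one_mul]

theorem exists_lifts_of_pKernel {σ : ℕ → ℕ → ℕ} {η : ℕ → ℕ → ℤ} {cart coro : ℕ → ℕ → ℤ} {par : ℕ → ℕ × ℕ}
    {dep : ℕ → ℕ} {w0 : List ℕ} (C : StCert D σ η cart coro par dep w0) (hE : StEdge D σ η F)
    (hmap : ∀ i < D.rank, ∀ r < D.nroots, ∀ s < D.nroots, s ≠ r → s ≠ D.neg r → ∀ t u : F,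
      D.commWord F (σ i r) (σ i s) ((η i r : F) * t) ((η i s : F) * u) =
        (D.commWord F r s t u).map fun p => (σ i p.1, (η i p.1 : F) * p.2))
    (hmove : ∀ r < D.nroots, ∀ s < D.nroots, s ≠ r → s ≠ D.neg r → ∃ w : List ℕ, (∀ k ∈ w, k < D.rank) ∧
      D.IsPosRoot (w.foldl (fun r k => σ k r) r) ∧ D.IsPosRoot (w.foldl (fun r k => σ k r) s))
    (E : CExt h.toStd π) {p : ℕ} (hp : (p : F) = 0) (hker : ∀ z : Γ, π z = 1 → z ^ p = 1 → z = 1)
    (hfin : Finite π.ker) : ∃ X : ℕ → F → Γ, Lifts h.toStd π X := by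
  classical
  have hcomm : ∀ z : Γ, π z = 1 → ∀ g, Commute g z := fun z hz g => E.mul_comm_ker hz g
  have hroot : ∀ z : Γ, π z = 1 → ∃ w, π w = 1 ∧ w ^ p = z := by
    intro z hz
    let f : π.ker → π.ker := fun w => ⟨(w : Γ) ^ p, by rw [MonoidHom.mem_ker, map_pow, w.2, one_pow]⟩
    have hf : Function.Injective f := fun a b e => by
      have e' : (a : Γ) ^ p = (b : Γ) ^ p := congrArg Subtype.val e
      have h1 : ((a : Γ) * (b : Γ)⁻¹) ^ p = 1 := by
        rw [(hcomm _ (by rw [map_inv, b.2, inv_one]) _).mul_pow, inv_pow, e', mul_inv_cancel]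
      exact Subtype.ext (mul_inv_eq_one.1 (hker _ (by rw [map_mul, map_inv, a.2, b.2]; group) h1))
    obtain ⟨w, hw⟩ := Finite.surjective_of_injective hf ⟨z, hz⟩
    exact ⟨w, w.2, congrArg Subtype.val hw⟩
  have hlift : ∀ k t, ∃ x, π x = xg h.cert k t ∧ x ^ p = 1 := by
    intro k t
    obtain ⟨y, hy⟩ := E.surj (xg h.cert k t)
    obtain ⟨w, hw, hwy⟩ := hroot (y ^ p) (by rw [map_pow, hy, xg_pow, hp, zero_mul, xg_zero])
    refine ⟨y * w⁻¹, by rw [map_mul, map_inv, hy, hw, inv_one, mul_one], ?_⟩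
    rw [(hcomm _ (by rw [map_inv, hw, inv_one]) _).mul_pow, inv_pow, hwy, mul_inv_cancel]
  choose X hX hXp using hlift
  have huniq : ∀ k t y, π y = xg h.cert k t → y ^ p = 1 → y = X k t := by
    intro k t y hy hyp
    have hz : π (y * (X k t)⁻¹) = 1 := by rw [map_mul, map_inv, hy, hX, mul_inv_cancel]
    refine mul_inv_eq_one.1 (hker _ hz ?_)
    have hc : Commute y (X k t)⁻¹ := by
      have h2 : Commute (X k t)⁻¹ (y * (X k t)⁻¹) := hcomm _ hz _
      have h3 := h2.mul_right (Commute.refl (X k t)⁻¹).inv_right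
      rw [inv_inv, inv_mul_cancel_right] at h3
      exact h3.symm
    rw [hc.mul_pow, inv_pow, hyp, hXp, inv_one, mul_one]
  have hconj : ∀ k k' t t' g, π g * xg h.cert k t * (π g)⁻¹ = xg h.cert k' t' →
      g * X k t * g⁻¹ = X k' t' := fun k k' t t' g e =>
    huniq _ _ _ (by rw [map_mul, map_mul, map_inv, hX, e]) (by rw [conj_pow, hXp, mul_one, mul_inv_cancel])
  have hadd : ∀ k t u, X k t * X k u = X k (t + u) := by
    intro k t u
    have hz : π ⁅X k t, X k u⁆ = 1 := by
      rw [map_commutatorElement, hX, hX, commutatorElement_eq_one_iff_mul_comm, xg_mul, xg_mul, add_comm]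
    set z := ⁅X k t, X k u⁆ with hzdef
    have e : ∀ n : ℕ, X k t ^ n * X k u * (X k t ^ n)⁻¹ = z ^ n * X k u := by
      intro n
      induction n with
      | zero => simp
      | succ n ih =>
        calc X k t ^ (n + 1) * X k u * (X k t ^ (n + 1))⁻¹
            = X k t * (X k t ^ n * X k u * (X k t ^ n)⁻¹) * (X k t)⁻¹ := by rw [pow_succ']; group
          _ = X k t * z ^ n * X k u * (X k t)⁻¹ := by rw [ih]; group
          _ = z ^ n * (X k t * X k u * (X k t)⁻¹) := by
            rw [((hcomm z hz (X k t)).pow_right n).eq]; group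
          _ = _ := by rw [pow_succ, hzdef, commutatorElement_def]; group
    have h1 : z ^ p = 1 := by
      have := e p
      rw [hXp, one_mul, inv_one, mul_one] at this
      exact right_eq_mul.1 this
    have hc : Commute (X k t) (X k u) := commutatorElement_eq_one_iff_commute.1 (hker z hz h1)
    exact huniq k (t + u) _ (by rw [map_mul, hX, hX, xg_mul]) (by rw [hc.mul_pow, hXp, hXp, one_mul])
  have K : Canon E X := ⟨fun k _ t => hX k t, fun k _ => hadd k, fun k hk g c hg t => hconj _ _ _ _ g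
    (by rw [hg]; exact tg_conj h.cert c hk t), fun k hk Y hYm hYa _ t => huniq k t _ (hYm t) (by
      have hn : ∀ n : ℕ, Y t ^ n = Y ((n : F) * t) := by
        intro n
        induction n with
        | zero =>
          rw [pow_zero, Nat.cast_zero, zero_mul]
          have := hYa 0 0
          rw [add_zero] at this
          exact (mul_eq_left.1 this).symm
        | succ n ih => rw [pow_succ, ih, hYa, Nat.cast_succ, add_mul, one_mul]
      rw [hn, hp, ← Nat.cast_zero, ← hn, pow_zero])⟩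
  refine ⟨X, exists_lifts_of_canon (h := h) C hE hmap E K (fun i hi g hg k hk t => hconj _ _ _ _ g ?_)
    (fun r s _ _ _ => Or.inl (Or.inr (Or.inr ⟨p, hp, hker⟩))) hmove⟩
  have hθgen : ∀ r < D.nroots, ∀ t : F, thetaGroup h (D.stGen F r t) = xg h.cert r t := fun r hr t =>
    Subtype.ext (by rw [coe_thetaGroup, theta_gen h hr]; rfl)
  rw [hg, ← hθgen k hk, ← map_inv, ← map_mul, ← map_mul, hE i hi k hk, hθgen _ ((C.isAut hi).lt k hk)]

end CfsgLib.ChevMult
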