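import Mathlib.FieldTheory.Finite.Basic
import Mathlib.NumberTheory.LegendreSymbol.QuadraticChar.Basic
import Mathlib.Tactic.Group
import Mathlib.Tactic.Ring
import Mathlib.Tactic.FieldSimp
import Mathlib.Tactic.LinearCombination

/-!
Steinberg's relator (R3) in rank one: over a finite field it follows from additivity, the action of the Weyl
elements and the commutation of the torus elements.
-/

set_option autoImplicit false

namespace CfsgLib.ChevMult.RankOne

variable {F : Type*} [Field F] {Γ : Type*} [Group Γ] (P Q : F → Γ)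

/-- the Weyl element -/
def w (v : F) : Γ := P v * Q (-v⁻¹) * P v

/-- the torus element -/
def H (v : F) : Γ := w P Q v * w P Q (-1)

/-- additive root elements on which the Weyl elements act as expected -/
structure Data : Prop where
  addP : ∀ t u, P t * P u = P (t + u)
  addQ : ∀ t u, Q t * Q u = Q (t + u)
  conjP : ∀ v, v ≠ 0 → ∀ t, w P Q v * P t * (w P Q v)⁻¹ = Q (-(t / v ^ 2))
  conjQ : ∀ v, v ≠ 0 → ∀ t, w P Q v * Q t * (w P Q v)⁻¹ = P (-(v ^ 2 * t))

variable {P Q} (d : Data P Q)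
include d

theorem P_zero : P 0 = 1 := by
  have := d.addP 0 0
  rw [add_zero] at this
  exact mul_eq_left.1 this

theorem Q_zero : Q 0 = 1 := by
  have := d.addQ 0 0
  rw [add_zero] at this
  exact mul_eq_left.1 this

theorem P_neg (t : F) : P (-t) = (P t)⁻¹ :=
  eq_inv_of_mul_eq_one_left (by rw [d.addP, neg_add_cancel, P_zero d])

theorem Q_neg (t : F) : Q (-t) = (Q t)⁻¹ :=
  eq_inv_of_mul_eq_one_left (by rw [d.addQ, neg_add_cancel, Q_zero d])

theorem w_neg (v : F) : w P Q (-v) = (w P Q v)⁻¹ := by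
  simp only [w, inv_neg, neg_neg, Q_neg d, P_neg d]
  group

theorem w_conj_P_left {v : F} (hv : v ≠ 0) (t : F) : w P Q v * P t = Q (-(t / v ^ 2)) * w P Q v := by
  rw [← d.conjP v hv t]
  group

theorem w_eq_QPQ {v : F} (hv : v ≠ 0) : w P Q v = Q (-v⁻¹) * P v * Q (-v⁻¹) := by
  calc w P Q v = (w P Q v * P v * (w P Q v)⁻¹) * (w P Q v * Q (-v⁻¹) * (w P Q v)⁻¹) *
        (w P Q v * P v * (w P Q v)⁻¹) := by rw [w]; group
    _ = _ := by
      rw [d.conjP v hv, d.conjQ v hv, show -(v / v ^ 2) = -v⁻¹ by field_simp,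
        show -(v ^ 2 * -v⁻¹) = v by field_simp]

theorem w_conj_w {a b : F} (ha : a ≠ 0) (hb : b ≠ 0) :
    w P Q a * w P Q b * (w P Q a)⁻¹ = w P Q (a ^ 2 / b) := by
  have hab : a ^ 2 / b ≠ 0 := div_ne_zero (pow_ne_zero _ ha) hb
  calc w P Q a * w P Q b * (w P Q a)⁻¹ = (w P Q a * P b * (w P Q a)⁻¹) *
        (w P Q a * Q (-b⁻¹) * (w P Q a)⁻¹) * (w P Q a * P b * (w P Q a)⁻¹) := by
        simp only [w]; group
    _ = _ := by
      rw [d.conjP a ha, d.conjQ a ha, w_eq_QPQ d hab,
        show -(b / a ^ 2) = -(a ^ 2 / b)⁻¹ by rw [inv_div],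
        show -(a ^ 2 * -b⁻¹) = a ^ 2 / b by field_simp]

theorem H_conj_H {a b : F} (ha : a ≠ 0) (hb : b ≠ 0) :
    H P Q a * H P Q b * (H P Q a)⁻¹ = H P Q (a ^ 2 * b) * (H P Q (a ^ 2))⁻¹ := by
  have hw : ∀ b : F, b ≠ 0 → H P Q a * w P Q b * (H P Q a)⁻¹ = w P Q (a ^ 2 * b) := by
    intro b hb
    calc H P Q a * w P Q b * (H P Q a)⁻¹
        = w P Q a * (w P Q (-1) * w P Q b * (w P Q (-1))⁻¹) * (w P Q a)⁻¹ := by rw [H]; group
      _ = _ := by
        rw [w_conj_w d (neg_ne_zero.2 one_ne_zero) hb, neg_one_sq, w_conj_w d ha (one_div_ne_zero hb),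
          div_div_eq_mul_div, div_one]
  calc H P Q a * H P Q b * (H P Q a)⁻¹
      = (H P Q a * w P Q b * (H P Q a)⁻¹) * (H P Q a * w P Q (-1) * (H P Q a)⁻¹) := by
        simp only [H]; group
    _ = _ := by
      rw [hw b hb, hw _ (neg_ne_zero.2 one_ne_zero), mul_neg_one, H, H, w_neg d]
      group

theorem H_one : H P Q 1 = 1 := by rw [H, w_neg d, mul_inv_cancel]

theorem H_mul_of_add {a b : F} (ha : a ≠ 0) (hb : b ≠ 0) (h : a⁻¹ + b⁻¹ = 1) :
    H P Q a * H P Q b⁻¹ = H P Q (a / b) := by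
  have hab : a + b = a * b := by
    have := congrArg (fun x => a * b * x) h
    simp only [mul_add, mul_one] at this
    rw [show a * b * a⁻¹ = b by field_simp, show a * b * b⁻¹ = a by field_simp] at this
    linear_combination this
  have key : w P Q a * w P Q b = w P Q (a / b) * w P Q 1 := by
    have e : Q (-a⁻¹) * Q (-b⁻¹) = Q (-1) := by rw [d.addQ, ← neg_add, h]
    have ex : ∀ v : F, Q (-v⁻¹) = P (-v) * w P Q v * P (-v) := fun v => by
      rw [w, P_neg d]; group
    have e1 := w_conj_P_left d ha (-(a + b))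
    have e2 := w_conj_P_left d one_ne_zero (b - 1)
    rw [show -(-(a + b) / a ^ 2) = b / a by rw [hab]; field_simp] at e1
    rw [show -((b - 1) / 1 ^ 2) = -(b / a) by field_simp; linear_combination hab] at e2
    calc w P Q a * w P Q b
        = Q (-(b / a)) * (Q (b / a) * w P Q a) * w P Q b := by rw [Q_neg d]; group
      _ = Q (-(b / a)) * P a * (Q (-a⁻¹) * Q (-b⁻¹)) * P b := by
        rw [← e1, ex a, ex b, neg_add, ← d.addP, P_neg d, P_neg d]; group
      _ = Q (-(b / a)) * P a * (P (-1) * w P Q 1 * P (-1)) * P b := by rw [e, ← ex 1, inv_one]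
      _ = Q (-(b / a)) * (P a * P (-1)) * (w P Q 1 * (P (-1) * P b)) := by group
      _ = Q (-(b / a)) * P (a / b) * (Q (-(b / a)) * w P Q 1) := by
        rw [d.addP, d.addP, show a + -1 = a / b by field_simp; linear_combination -hab,
          show (-1 : F) + b = b - 1 by ring, e2]
      _ = _ := by
        rw [w_eq_QPQ d (div_ne_zero ha hb), inv_div]
        group
  have e3 := w_conj_w d one_ne_zero hb
  rw [one_pow, one_div] at e3
  calc H P Q a * H P Q b⁻¹
      = w P Q a * w P Q (-1) * (w P Q 1 * w P Q b * (w P Q 1)⁻¹ * w P Q (-1)) := by rw [H, H, ← e3]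
    _ = (w P Q a * w P Q b) * ((w P Q 1)⁻¹ * (w P Q 1)⁻¹) := by rw [w_neg d]; group
    _ = _ := by rw [key, H, w_neg d]; group

/-- (R3) in rank one. -/
theorem H_mul [Finite F] (hcomm : ∀ a b : F, a ≠ 0 → b ≠ 0 → Commute (H P Q a) (H P Q b)) {a b : F}
    (ha : a ≠ 0) (hb : b ≠ 0) : H P Q a * H P Q b = H P Q (a * b) := by
  classical
  have := Fintype.ofFinite F
  have hsq : ∀ s x : F, s ≠ 0 → x ≠ 0 → IsSquare s → H P Q x * H P Q s = H P Q (x * s) := by
    rintro s x hs hx ⟨c, rfl⟩
    have hc : c ≠ 0 := fun e => hs (by rw [e, mul_zero])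
    have := H_conj_H d hc hx
    rw [(hcomm c x hc hx).eq, mul_inv_cancel_right, eq_mul_inv_iff_mul_eq] at this
    rw [← sq, this, mul_comm]
  by_cases hbs : IsSquare b
  · exact hsq b a hb ha hbs
  by_cases has : IsSquare a
  · rw [(hcomm a b ha hb).eq, hsq a b ha hb has, mul_comm]
  have hF : ringChar F ≠ 2 := fun e => hbs (FiniteField.isSquare_of_char_two e b)
  obtain ⟨s, hs, hs'⟩ : ∃ s : F, ¬ IsSquare s ∧ ¬ IsSquare (1 - s) := by
    by_contra hcon
    simp only [not_exists, not_and, not_not] at hcon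
    obtain ⟨ν, hν⟩ := FiniteField.exists_nonsquare hF
    have hν0 : ν ≠ 0 := fun e => hν (by rw [e]; exact IsSquare.zero)
    let S : Finset F := {x | x ≠ 0 ∧ IsSquare x}
    let N : Finset F := {x | ¬ IsSquare x}
    have hle : N.image (fun s => 1 - s) ⊆ S.erase 1 := by
      intro x hx
      obtain ⟨s, hs, rfl⟩ := Finset.mem_image.1 hx
      simp only [N, Finset.mem_filter, Finset.mem_univ, true_and] at hs
      simp only [S, Finset.mem_erase, Finset.mem_filter, Finset.mem_univ, true_and]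
      refine ⟨fun e => hs ?_, fun e => hs ?_, hcon s hs⟩
      · rw [show s = 0 by linear_combination -e]; exact IsSquare.zero
      · rw [show s = 1 by linear_combination -e]; exact IsSquare.one
    have h1 := Finset.card_le_card hle
    rw [Finset.card_image_of_injective _ (fun x y e => by simpa using e)] at h1
    have h1S : (1 : F) ∈ S := by simp [S, IsSquare.one]
    rw [Finset.card_erase_of_mem h1S] at h1
    have h2 : S.card ≤ N.card := by
      refine Finset.card_le_card_of_injOn (fun x => ν * x) ?_ ?_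
      · intro x hx
        simp only [S, Finset.coe_filter, Finset.mem_univ, true_and, Set.mem_ofPred_eq] at hx
        simp only [N, Finset.coe_filter, Finset.mem_univ, true_and, Set.mem_ofPred_eq]
        intro hq
        refine hν ?_
        have := hq.div hx.2
        rwa [mul_div_cancel_right₀ _ hx.1] at this
      · exact fun x _ y _ e => mul_left_cancel₀ hν0 e
    have h3 : 0 < S.card := Finset.card_pos.2 ⟨1, h1S⟩
    omega
  have hs0 : s ≠ 0 := fun e => hs (by rw [e]; exact IsSquare.zero)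
  have hs1 : 1 - s ≠ 0 := fun e => hs' (by rw [e]; exact IsSquare.zero)
  have hmul : ∀ x y : F, ¬ IsSquare x → ¬ IsSquare y → IsSquare (x * y) := by
    intro x y hx hy
    have hx0 : x ≠ 0 := fun e => hx (by rw [e]; exact IsSquare.zero)
    have hy0 : y ≠ 0 := fun e => hy (by rw [e]; exact IsSquare.zero)
    refine (quadraticChar_one_iff_isSquare (mul_ne_zero hx0 hy0)).1 ?_
    rw [map_mul, quadraticChar_neg_one_iff_not_isSquare.2 hx, quadraticChar_neg_one_iff_not_isSquare.2 hy]
    norm_num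
  -- `a = (1 - s)⁻¹ p` and `b = s q` with squares `p`, `q`
  have hp : IsSquare (a * (1 - s)) := hmul _ _ has hs'
  have hq : IsSquare (b / s) := by
    rw [show b / s = b * s * (s⁻¹ * s⁻¹) by field_simp]
    exact (hmul _ _ hbs hs).mul ⟨s⁻¹, rfl⟩
  have hbase : H P Q (1 - s)⁻¹ * H P Q s = H P Q ((1 - s)⁻¹ * s) := by
    have := H_mul_of_add d (inv_ne_zero hs1) (inv_ne_zero hs0) (by rw [inv_inv, inv_inv]; ring)
    rwa [inv_inv, div_inv_eq_mul] at this
  set p := a * (1 - s)
  set q := b / s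
  have hp0 : p ≠ 0 := mul_ne_zero ha hs1
  have hq0 : q ≠ 0 := div_ne_zero hb hs0
  have ea : a = (1 - s)⁻¹ * p := by simp only [p]; field_simp
  have eb : b = s * q := by simp only [q]; field_simp
  have hi := inv_ne_zero hs1
  calc H P Q a * H P Q b
      = H P Q (1 - s)⁻¹ * H P Q p * (H P Q s * H P Q q) := by
        rw [hsq p _ hp0 hi hp, hsq q _ hq0 hs0 hq, ← ea, ← eb]
    _ = H P Q (1 - s)⁻¹ * (H P Q p * H P Q s) * H P Q q := by group
    _ = H P Q (1 - s)⁻¹ * H P Q s * H P Q p * H P Q q := by rw [(hcomm p s hp0 hs0).eq]; group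
    _ = _ := by
      rw [hbase, hsq p _ hp0 (mul_ne_zero hi hs0) hp,
        hsq q _ hq0 (mul_ne_zero (mul_ne_zero hi hs0) hp0) hq, ea, eb]
      congr 1
      ring

end CfsgLib.ChevMult.RankOne
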