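import Cfsg.Agent.Lib.ChevMult.Base
import Cfsg.Agent.Lib.ChevMult.RankOne
import Cfsg.Agent.Lib.SteinbergPres.KernelAll
import Cfsg.Agent.Lib.SteinbergPres.PerfectData
import Cfsg.Prelude.Def_KGroupFacts

/-!
In a central extension of a Chevalley group over a finite field, lifts of the root elements satisfying (R1) and
(R2) satisfy (R3) as well, hence the extension receives Steinberg's group; a perfect group with this property
has no proper stem extension.
-/

set_option autoImplicit false
set_option linter.unusedSectionVars false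

namespace CfsgLib.ChevMult

open Cfsg.Lie CfsgLib.Chevalley CfsgLib.SteinbergPres
open scoped commutatorElement

universe u

variable {D : ChevalleyDatum} {A : Aux} {F : Type*} [Field F]

/-- the commutator terms follow a map of the roots -/
def mapAllB (D : ChevalleyDatum) (σ : ℕ → ℕ → ℕ) (η : ℕ → ℕ → ℤ) : Bool :=
  (List.range D.rank).all fun i => (List.range D.nroots).all fun a => (List.range D.nroots).all fun b =>
    Nat.beq b a || Nat.beq b (D.neg a) || decide (D.commTerms (σ i a) (σ i b) =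
      (D.commTerms a b).map fun c =>
        (σ i c.1, c.2.1 * η i c.1 * η i a ^ c.2.2.1 * η i b ^ c.2.2.2, c.2.2.1, c.2.2.2))

theorem commWord_of_mapAllB {σ : ℕ → ℕ → ℕ} {η : ℕ → ℕ → ℤ} (hB : mapAllB D σ η = true) {i : ℕ}
    (hi : i < D.rank) (hA : CfsgLib.Twisted.IsAutData D (σ i) (σ i) (η i) (CfsgLib.Twisted.reflN D i))
    {r s : ℕ} (hr : r < D.nroots) (hs : s < D.nroots) (h1 : s ≠ r) (h2 : s ≠ D.neg r) (t u : F) :
    D.commWord F (σ i r) (σ i s) ((η i r : F) * t) ((η i s : F) * u) =
      (D.commWord F r s t u).map fun p => (σ i p.1, (η i p.1 : F) * p.2) := by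
  simp only [mapAllB, List.all_eq_true, List.mem_range, Bool.or_eq_true, decide_eq_true_eq] at hB
  have hmap := (hB i hi r hr s hs).resolve_left (by rintro (e | e) <;> simp_all)
  simp only [ChevalleyDatum.commWord, hmap, List.map_map]
  refine List.map_congr_left fun d _ => ?_
  have ea := hA.sq_sign F hr
  have eb := hA.sq_sign F hs
  simp only [Function.comp_apply, Prod.mk.injEq, true_and, Int.cast_mul, Int.cast_pow]
  rw [show -((η i r : F) * t) = (η i r : F) * (-t) by ring, mul_pow, mul_pow]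
  calc (d.2.1 : F) * η i d.1 * (η i r : F) ^ d.2.2.1 * (η i s : F) ^ d.2.2.2 *
        ((η i r : F) ^ d.2.2.1 * (-t) ^ d.2.2.1) * ((η i s : F) ^ d.2.2.2 * u ^ d.2.2.2)
      = (d.2.1 : F) * η i d.1 * ((η i r : F) * η i r) ^ d.2.2.1 * ((η i s : F) * η i s) ^ d.2.2.2 *
          ((-t) ^ d.2.2.1 * u ^ d.2.2.2) := by rw [mul_pow, mul_pow]; ring
    _ = _ := by rw [ea, eb, one_pow, one_pow]; ring

/-- certificates together with the action of the fundamental reflections on the commutator formula -/
def HasAct (D : ChevalleyDatum) (K : Type*) [Field K] : Prop :=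
  ∃ σ η cart coro par dep w0, StCert D σ η cart coro par dep w0 ∧ StEdge D σ η K ∧
    ∀ i < D.rank, ∀ r < D.nroots, ∀ s < D.nroots, s ≠ r → s ≠ D.neg r → ∀ t u : K,
      D.commWord K (σ i r) (σ i s) ((η i r : K) * t) ((η i s : K) * u) =
        (D.commWord K r s t u).map fun p => (σ i p.1, (η i p.1 : K) * p.2)

theorem hasAct_of_chains {σ : ℕ → ℕ → ℕ} {η : ℕ → ℕ → ℤ} {cart coro : ℕ → ℕ → ℤ} {par : ℕ → ℕ × ℕ}
    {dep : ℕ → ℕ} {w0 : List ℕ} (C : StCert D σ η cart coro par dep w0) (hE : StEdge D σ η F)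
    (hc : checkChains D = true) : HasAct D F :=
  ⟨_, _, _, _, _, _, _, C, hE, fun _ hi _ hr _ hs _ _ t u => commWord_map (C.isAut hi) hc hr hs t u⟩

theorem hasAct_of_mem {D : ChevalleyDatum}
    (hD : D ∈ [chevG2, chevB2, chevD4, chevF4, chevE6, chevE7, chevE8]) : HasAct D F := by
  simp only [List.mem_cons, List.not_mem_nil, or_false] at hD
  rcases hD with rfl | rfl | rfl | rfl | rfl | rfl | rfl
  · exact ⟨_, _, _, _, _, _, _, stCertG2, stEdgeG2 F, fun i hi r hr s hs h1 h2 t u =>
      commWord_of_mapAllB (by decide +kernel) hi (stCertG2.isAut hi) hr hs h1 h2 t u⟩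
  · exact hasAct_of_chains stCertB2 (stEdgeB2 F) (by decide +kernel)
  · exact hasAct_of_chains stCertD4 (stEdgeD4 F) chainsD4
  · exact hasAct_of_chains stCertF4 (stEdgeF4 F) chainsF4
  · exact hasAct_of_chains stCertE6 (stEdgeE6 F) chainsE6
  · exact hasAct_of_chains stCertE7 (stEdgeE7 F) chainsE7
  · exact hasAct_of_chains stCertE8 (stEdgeE8 F) chainsE8

/-- The cover is perfect. -/
theorem cover_perfect {D : ChevalleyDatum}
    (hD : D ∈ [chevG2, chevB2, chevD4, chevF4, chevE6, chevE7, chevE8])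
    (hK : D ∈ [chevB2, chevG2] → ∃ x : F, x ≠ 0 ∧ x ≠ 1) : commutator (D.SteinbergCover F) = ⊤ := by
  refine commutator_cover_eq_top D F fun r hr => ?_
  have hr' : r ∈ List.range D.nroots := List.mem_range.2 hr
  simp only [List.mem_cons, List.not_mem_nil, or_false] at hD
  rcases hD with rfl | rfl | rfl | rfl | rfl | rfl | rfl
  all_goals simp only [List.mem_cons, List.not_mem_nil, or_false] at hK
  · rcases Bool.or_eq_true _ _ |>.mp (List.all_eq_true.1 killG2 r hr') with h | h
    exacts [Or.inl h, Or.inr ⟨h, hK (by simp)⟩]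
  · rcases Bool.or_eq_true _ _ |>.mp (List.all_eq_true.1 killB2 r hr') with h | h
    exacts [Or.inl h, Or.inr ⟨h, hK (by simp)⟩]
  · exact Or.inl (List.all_eq_true.1 killD4 r hr')
  · exact Or.inl (List.all_eq_true.1 killF4 r hr')
  · exact Or.inl (List.all_eq_true.1 killE6 r hr')
  · exact Or.inl (List.all_eq_true.1 killE7 r hr')
  · exact Or.inl (List.all_eq_true.1 killE8 r hr')

theorem commTerms_lt (h : Full D A) {r s : ℕ} (hr : r < D.nroots) (hs : s < D.nroots)
    {c : ℕ × ℤ × ℕ × ℕ} (hc : c ∈ D.commTerms r s) : c.1 < D.nroots :=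
  (h.commTerms_crd hr hs hc).1

/-- The exponents of a term are the coordinates of its root. -/
theorem commTerms_exp (h : Full D A) {r s : ℕ} (hr : r < D.nroots) (hs : s < D.nroots)
    {c : ℕ × ℤ × ℕ × ℕ} (hc : c ∈ D.commTerms r s) :
    ∀ k < D.rank, crd A k c.1 = (c.2.2.1 : ℤ) * crd A k r + (c.2.2.2 : ℤ) * crd A k s := by
  simp only [ChevalleyDatum.commTerms, List.mem_filterMap, Option.map_eq_some_iff] at hc
  obtain ⟨d, hd, k, hk, rfl⟩ := hc
  simp only [List.mem_cons, List.not_mem_nil, or_false] at hd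
  intro j hj
  rcases hd with rfl | rfl | rfl | rfl | rfl | rfl | rfl
  · rw [h.chain_crd hr hk hj]; norm_num
  · rw [h.chain_crd hr hk hj]; norm_num
  · rw [h.chain_crd hs hk hj]; push_cast; ring
  · rw [h.chain_crd hr hk hj]; norm_num
  · rw [h.chain_crd hs hk hj]; push_cast; ring
  · obtain ⟨m, hm, hk'⟩ := Option.bind_eq_some_iff.1 hk
    rw [h.chain_crd (h.pos.chain_phi h.cert hr hm).1 hk' hj, h.chain_crd hr hm hj]; push_cast; ring
  · obtain ⟨m, hm, hk'⟩ := Option.bind_eq_some_iff.1 hk
    rw [h.chain_crd (h.pos.chain_phi h.cert hs hm).1 hk' hj, h.chain_crd hs hm hj]; push_cast; ring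

theorem chi_term (h : Full D A) {r s : ℕ} (hr : r < D.nroots) (hs : s < D.nroots)
    {c : ℕ × ℤ × ℕ × ℕ} (hc : c ∈ D.commTerms r s) (v : Fin D.rank → Fˣ) :
    chi D c.1 v = chi D r v ^ c.2.2.1 * chi D s v ^ c.2.2.2 := by
  show ∏ k : Fin D.rank, v k ^ D.cartan k c.1 =
    (∏ k : Fin D.rank, v k ^ D.cartan k r) ^ c.2.2.1 * (∏ k : Fin D.rank, v k ^ D.cartan k s) ^ c.2.2.2
  rw [← Finset.prod_pow, ← Finset.prod_pow, ← Finset.prod_mul_distrib]
  refine Finset.prod_congr rfl fun k _ => ?_
  have h1 := cartan_eq_sum h k ⟨c.1, commTerms_lt h hr hs hc⟩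
  have h2 := cartan_eq_sum h k ⟨r, hr⟩
  have h3 := cartan_eq_sum h k ⟨s, hs⟩
  simp only at h1 h2 h3
  have h4 : D.cartan k c.1 = D.cartan k r * (c.2.2.1 : ℤ) + D.cartan k s * (c.2.2.2 : ℤ) := by
    rw [h1, h2, h3, Finset.sum_mul, Finset.sum_mul, ← Finset.sum_add_distrib]
    refine Finset.sum_congr rfl fun j _ => ?_
    rw [commTerms_exp h hr hs hc j j.isLt]
    ring
  rw [h4, _root_.zpow_add, _root_.zpow_mul, _root_.zpow_mul, zpow_natCast, zpow_natCast]

variable {Γ : Type u} [Group Γ]

/-- the Weyl element of lifts -/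
def nW (D : ChevalleyDatum) (X : ℕ → F → Γ) (r : ℕ) (v : F) : Γ := RankOne.w (X r) (X (D.neg r)) v

/-- the torus element of lifts -/
def hW (D : ChevalleyDatum) (X : ℕ → F → Γ) (r : ℕ) (v : F) : Γ := RankOne.H (X r) (X (D.neg r)) v

theorem hWord_prod (X : ℕ → F → Γ) (r : ℕ) (v : F) :
    ((D.hWord r v).map fun p => X p.1 p.2).prod = hW D X r v := by
  simp [hW, RankOne.H, RankOne.w, ChevalleyDatum.hWord, ChevalleyDatum.nWord, mul_assoc]

variable {h : Full D A} {π : Γ →* ↥(D.group F)}

theorem Lifts.unique (E : CExt h.toStd π) (hperf : commutator (D.SteinbergCover F) = ⊤)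
    {X X' : ℕ → F → Γ} (hX : Lifts h.toStd π X) (hX' : Lifts h.toStd π X') {r : ℕ} (hr : r < D.nroots)
    (t : F) : X r t = X' r t := by
  obtain ⟨φ, hφ⟩ := hX.exists_hom fun r hr s hs c hc => commTerms_lt h hr hs hc
  obtain ⟨ψ, hψ⟩ := hX'.exists_hom fun r hr s hs c hc => commTerms_lt h hr hs hc
  have hπ : π.comp φ = π.comp ψ := by
    apply PresentedGroup.ext
    rintro ⟨⟨s, hs⟩, v⟩
    have e : (PresentedGroup.of (⟨s, hs⟩, v) : D.SteinbergCover F) = D.scGen F s v := by
      simp [ChevalleyDatum.scGen, ChevalleyDatum.stX, hs, PresentedGroup.of]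
    rw [e, MonoidHom.comp_apply, MonoidHom.comp_apply, (hφ s hs v).2, (hψ s hs v).2]
  have hle : commutator (D.SteinbergCover F) ≤ φ.eqLocus ψ := by
    rw [commutator_def, Subgroup.commutator_le]
    intro a _ b _
    show φ ⁅a, b⁆ = ψ ⁅a, b⁆
    rw [map_commutatorElement, map_commutatorElement]
    exact E.comm_congr (DFunLike.congr_fun hπ a) (DFunLike.congr_fun hπ b)
  have := hle (show D.scGen F r t ∈ commutator (D.SteinbergCover F) by rw [hperf]; exact Subgroup.mem_top _)
  rw [← (hφ r hr t).1, ← (hψ r hr t).1]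
  exact this

/-- An element acting on the root elements of the group through a symmetry of the commutator formula acts the
same way on the lifts. -/
theorem Lifts.conj (E : CExt h.toStd π) (hperf : commutator (D.SteinbergCover F) = ⊤)
    {X : ℕ → F → Γ} (hX : Lifts h.toStd π X) {g : Γ} {σ : ℕ → ℕ} {e : ℕ → F}
    (hσ : ∀ r < D.nroots, σ r < D.nroots)
    (hg : ∀ r < D.nroots, ∀ t, π g * xg h.cert r t * (π g)⁻¹ = xg h.cert (σ r) (e r * t))
    (hw : ∀ r < D.nroots, ∀ s < D.nroots, s ≠ r → s ≠ D.neg r → σ s ≠ σ r ∧ σ s ≠ D.neg (σ r) ∧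
      ∀ t u : F, D.commWord F (σ r) (σ s) (e r * t) (e s * u) =
        (D.commWord F r s t u).map fun p => (σ p.1, e p.1 * p.2))
    {r : ℕ} (hr : r < D.nroots) (t : F) : g * X r t * g⁻¹ = X (σ r) (e r * t) := by
  have hX' : Lifts h.toStd π fun r t => g⁻¹ * X (σ r) (e r * t) * g := by
    refine ⟨fun r hr t => ?_, fun r hr t u => ?_, fun r hr s hs h1 h2 t u => ?_⟩
    · rw [map_mul, map_mul, map_inv, hX.map _ (hσ r hr), ← hg r hr]
      group
    · show g⁻¹ * X (σ r) (e r * t) * g * (g⁻¹ * X (σ r) (e r * u) * g) = g⁻¹ * X (σ r) (e r * (t + u)) * g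
      rw [mul_add, ← hX.add _ (hσ r hr)]
      group
    · obtain ⟨n1, n2, hmap⟩ := hw r hr s hs h1 h2
      have hconj : ((D.commWord F r s t u).map fun p => g⁻¹ * X (σ p.1) (e p.1 * p.2) * g).prod =
          g⁻¹ * ((D.commWord F (σ r) (σ s) (e r * t) (e s * u)).map fun p => X p.1 p.2).prod * g := by
        have e1 : ∀ x, MulAut.conj g⁻¹ x = g⁻¹ * x * g := fun x => by simp [MulAut.conj_apply]
        rw [← e1, map_list_prod, hmap, List.map_map, List.map_map]
        simp [Function.comp_def, e1]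
      rw [hconj, ← hX.comm _ (hσ r hr) _ (hσ s hs) n1 n2]
      group
  have := Lifts.unique (h := h) E hperf hX hX' hr t
  rw [this]
  group

theorem Lifts.conj_torus (E : CExt h.toStd π) (hperf : commutator (D.SteinbergCover F) = ⊤)
    {X : ℕ → F → Γ} (hX : Lifts h.toStd π X) {g : Γ} {c : Fin D.rank → Fˣ} (hg : π g = tg h.cert c)
    {r : ℕ} (hr : r < D.nroots) (t : F) : g * X r t * g⁻¹ = X r (((chi D r c : Fˣ) : F) * t) := by
  refine hX.conj (h := h) E hperf (σ := id) (e := fun s => ((chi D s c : Fˣ) : F)) (fun r hr => hr)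
    (fun r hr t => by rw [hg]; exact tg_conj h.cert c hr t) (fun r hr s hs h1 h2 => ⟨h1, h2, fun t u => ?_⟩) hr t
  simp only [id_eq, ChevalleyDatum.commWord, List.map_map]
  refine List.map_congr_left fun d hd => ?_
  simp only [Function.comp_apply, Prod.mk.injEq, true_and]
  rw [chi_term h hr hs hd c, Units.val_mul, Units.val_pow_eq_pow_val, Units.val_pow_eq_pow_val,
    show -(((chi D r c : Fˣ) : F) * t) = ((chi D r c : Fˣ) : F) * -t by ring, mul_pow, mul_pow]
  ring

/-- (R3) for lifts, and the homomorphism from Steinberg's group. -/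
theorem Lifts.exists_stHom [Finite F] (E : CExt h.toStd π) (hperf : commutator (D.SteinbergCover F) = ⊤)
    {X : ℕ → F → Γ} (hX : Lifts h.toStd π X) :
    ∃ ψ : D.SteinbergGroup F →* Γ, π.comp ψ = thetaGroup h := by
  classical
  obtain ⟨σ, η, cart, coro, par, dep, w0, C, hE, hmap⟩ := hasAct_of_mem (F := F) h.mem
  have hneg := fun r (hr : r < D.nroots) => h.cert.wf.neg_lt r hr
  -- values in the group
  have hθgen : ∀ r < D.nroots, ∀ t : F, thetaGroup h (D.stGen F r t) = xg h.cert r t := fun r hr t =>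
    Subtype.ext (by rw [coe_thetaGroup, theta_gen h hr]; rfl)
  have hπn : ∀ i < D.rank, ∀ v : F, π (nW D X (D.simple i) v) = thetaGroup h (nSt D F i v) := by
    intro i hi v
    have hp := h.cert.wf.simple_lt i hi
    simp only [nW, RankOne.w, nSt, map_mul, hX.map _ hp, hX.map _ (hneg _ hp), hθgen _ hp, hθgen _ (hneg _ hp)]
  have hπh : ∀ (i : Fin D.rank) (v : Fˣ),
      π (hW D X (D.simple i) (v : F)) = tg h.cert (Pi.mulSingle i v) := by
    intro i v
    have e : π (hW D X (D.simple i) (v : F)) = thetaGroup h (hSt D F i (v : F)) := by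
      rw [hW, RankOne.H, hSt, map_mul, map_mul]
      exact congrArg₂ (· * ·) (hπn i i.isLt _) (hπn i i.isLt _)
    rw [e]
    exact Subtype.ext (theta_hSt h i.isLt v)
  -- the Weyl elements
  have hn : ∀ i < D.rank, ∀ v : F, v ≠ 0 → ∀ s < D.nroots, ∀ t : F,
      nW D X (D.simple i) v * X s t * (nW D X (D.simple i) v)⁻¹ =
        X (σ i s) (v ^ D.cartan i (σ i s) * ((η i s : F) * t)) := by
    intro i hi v hv s hs t
    have hA := C.isAut hi
    have h1 : ∀ s < D.nroots, ∀ t : F, nW D X (D.simple i) 1 * X s t * (nW D X (D.simple i) 1)⁻¹ =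
        X (σ i s) ((η i s : F) * t) := by
      intro s hs t
      refine hX.conj (h := h) E hperf (σ := σ i) (e := fun r => (η i r : F)) hA.lt (fun r hr t => ?_)
        (fun r hr s hs h1 h2 => ⟨fun e => h1 (hA.inj hs hr e), fun e => h2 (hA.inj hs (hA.neg_lt r hr)
          (e.trans (hA.map_neg r hr).symm)), fun t u => ?_⟩) hs t
      · rw [hπn i hi, ← hθgen _ hr, ← map_inv, ← map_mul, ← map_mul, hE i hi r hr, hθgen _ (hA.lt r hr)]
      · exact hmap i hi r hr s hs h1 h2 t u
    have hg : π (hW D X (D.simple i) v) = tg h.cert (Pi.mulSingle ⟨i, hi⟩ (Units.mk0 v hv)) :=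
      hπh ⟨i, hi⟩ (Units.mk0 v hv)
    have e : π (nW D X (D.simple i) v) = π (hW D X (D.simple i) v * nW D X (D.simple i) 1) := by
      rw [map_mul, hπn i hi, hπn i hi, nSt_eq_hSt_mul h hi, map_mul]
      refine congrArg₂ (· * ·) ?_ rfl
      rw [hSt, map_mul, hW, RankOne.H, map_mul]
      exact congrArg₂ (· * ·) (hπn i hi _).symm (hπn i hi _).symm
    rw [E.conj_congr e, show hW D X (D.simple i) v * nW D X (D.simple i) 1 * X s t *
      (hW D X (D.simple i) v * nW D X (D.simple i) 1)⁻¹ = hW D X (D.simple i) v *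
        (nW D X (D.simple i) 1 * X s t * (nW D X (D.simple i) 1)⁻¹) * (hW D X (D.simple i) v)⁻¹ by group,
      h1 s hs t, hX.conj_torus (h := h) E hperf hg (hA.lt s hs), chi_mulSingle]
    simp [Units.val_zpow_eq_zpow_val]
  -- (R3) for the fundamental roots
  have hsimple : ∀ i < D.rank, ∀ a b : F, a ≠ 0 → b ≠ 0 →
      hW D X (D.simple i) a * hW D X (D.simple i) b = hW D X (D.simple i) (a * b) := by
    intro i hi a b ha hb
    have hp := h.cert.wf.simple_lt i hi
    obtain ⟨e1, e2⟩ := C.σ_simple hi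
    have c1 : D.cartan i (D.simple i) = 2 := cartan_simple_self h.cert ⟨i, hi⟩
    have c2 : D.cartan i (D.neg (D.simple i)) = -2 := by
      rw [(neg_facts h.cert hi hp).2.1, c1]
    have η1 : η i (D.simple i) = -1 := C.eta_simple hi
    have η2 : η i (D.neg (D.simple i)) = -1 := by rw [(C.isAut hi).sign_neg _ hp, η1]
    refine RankOne.H_mul (P := X (D.simple i)) (Q := X (D.neg (D.simple i)))
      ⟨hX.add _ hp, hX.add _ (hneg _ hp), fun v hv t => ?_, fun v hv t => ?_⟩ (fun x y hx hy => ?_) ha hb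
    · refine (hn i hi v hv _ hp t).trans ?_
      rw [e1, c2, η1]
      congr 1
      simp [zpow_neg, zpow_ofNat]
      field_simp
    · refine (hn i hi v hv _ (hneg _ hp) t).trans ?_
      rw [e2, c1, η2]
      congr 1
      simp [zpow_ofNat]
    · obtain ⟨ζ, hζ⟩ := IsCyclic.exists_generator (α := Fˣ)
      have key : ∀ z : Fˣ, ∃ (k : ℤ) (w : Γ), π w = 1 ∧
          hW D X (D.simple i) (z : F) = hW D X (D.simple i) (ζ : F) ^ k * w := by
        intro z
        obtain ⟨k, hk⟩ := Subgroup.mem_zpowers_iff.1 (hζ z)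
        refine ⟨k, (hW D X (D.simple i) (ζ : F) ^ k)⁻¹ * hW D X (D.simple i) (z : F), ?_, by group⟩
        rw [map_mul, map_inv, map_zpow, hπh ⟨i, hi⟩ ζ, hπh ⟨i, hi⟩ z, ← hk, inv_mul_eq_one]
        refine Subtype.ext ?_
        rw [SubgroupClass.coe_zpow]
        show torusHom D F _ ^ k = torusHom D F _
        rw [← map_zpow, ← Pi.mulSingle_zpow]
      obtain ⟨k, w, hw, ek⟩ := key (Units.mk0 x hx)
      obtain ⟨l, w', hw', el⟩ := key (Units.mk0 y hy)
      show Commute (hW D X (D.simple i) x) (hW D X (D.simple i) y)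
      rw [show hW D X (D.simple i) x = _ from ek, show hW D X (D.simple i) y = _ from el]
      have cw : ∀ g, Commute g w := fun g => E.mul_comm_ker hw g
      have cw' : ∀ g, Commute g w' := fun g => E.mul_comm_ker hw' g
      exact ((Commute.zpow_zpow (Commute.refl _) k l).mul_right (cw' _)).mul_left (cw _).symm
  -- all roots
  have hall : ∀ r < D.nroots, ∀ a b : F, a ≠ 0 → b ≠ 0 → hW D X r a * hW D X r b = hW D X r (a * b) := by
    intro r hr
    refine C.root.root_induction (P := fun r => ∀ a b : F, a ≠ 0 → b ≠ 0 →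
      hW D X r a * hW D X r b = hW D X r (a * b)) hsimple (fun i hi s hs ih => ?_) hr
    have hA := C.isAut hi
    set g := nW D X (D.simple i) 1 with hgdef
    have hgX : ∀ k < D.nroots, ∀ t : F, g * X k t * g⁻¹ = X (σ i k) ((η i k : F) * t) := fun k hk t => by
      have := hn i hi 1 one_ne_zero k hk t
      rwa [one_zpow, one_mul] at this
    have hgw : ∀ v : F, g * nW D X s v * g⁻¹ = nW D X (σ i s) ((η i s : F) * v) := by
      intro v
      have e1 := hgX s hs v
      have e2 := hgX _ (hneg s hs) (-v⁻¹)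
      rw [hA.map_neg s hs, hA.sign_neg s hs] at e2
      have e3 : (η i s : F) * -v⁻¹ = -((η i s : F) * v)⁻¹ := by
        rcases hA.sign s hs with e | e <;> simp [e]
      rw [e3] at e2
      simp only [nW, RankOne.w]
      rw [← e1, ← e2]
      group
    have hwneg : ∀ v : F, nW D X (σ i s) (-v) = (nW D X (σ i s) v)⁻¹ := by
      intro v
      have hz : ∀ k < D.nroots, ∀ t : F, X k (-t) = (X k t)⁻¹ := fun k hk t => by
        have h0 : X k 0 = 1 := by
          have := hX.add k hk 0 0
          rw [add_zero] at this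
          exact mul_eq_left.1 this
        exact eq_inv_of_mul_eq_one_left (by rw [hX.add k hk, neg_add_cancel, h0])
      simp only [nW, RankOne.w, inv_neg, neg_neg, hz _ (hA.lt s hs), hz _ (hneg _ (hA.lt s hs))]
      group
    intro a b ha hb
    rcases hA.sign s hs with e | e
    · have hH : ∀ v : F, g * hW D X s v * g⁻¹ = hW D X (σ i s) v := fun v => by
        have e1 := hgw v
        have e2 := hgw (-1)
        rw [e, Int.cast_one, one_mul] at e1 e2
        simp only [hW, RankOne.H]
        simp only [nW] at e1 e2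
        rw [← e1, ← e2]
        group
      rw [← hH, ← hH, ← hH, ← ih a b ha hb]
      group
    · set G : F → Γ := fun v => hW D X (σ i s) (-v) * (hW D X (σ i s) (-1))⁻¹
      have hG : ∀ v, g * hW D X s v * g⁻¹ = G v := fun v => by
        have e1 := hgw v
        have e2 := hgw (-1)
        rw [e, Int.cast_neg, Int.cast_one, neg_one_mul] at e1 e2
        simp only [G, hW, RankOne.H]
        simp only [nW] at e1 e2 hwneg
        calc _ = g * RankOne.w (X s) (X (D.neg s)) v * g⁻¹ * (g * RankOne.w (X s) (X (D.neg s)) (-1) * g⁻¹) := by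
              group
          _ = _ := by
            rw [e1, e2, hwneg 1, neg_neg]
            group
      have hGm : ∀ x y : F, x ≠ 0 → y ≠ 0 → G x * G y = G (x * y) := fun x y hx hy => by
        rw [← hG, ← hG, ← hG, ← ih x y hx hy]
        group
      have h1 : hW D X (σ i s) 1 = 1 := by
        simp only [hW, RankOne.H]
        simp only [nW] at hwneg
        rw [hwneg 1, mul_inv_cancel]
      have hGv : ∀ v : F, v ≠ 0 → hW D X (σ i s) v = G v := fun v hv => by
        have e1 : G v = G (-v) * (G (-1))⁻¹ := by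
          have e2 : G (-1) * G (-1) = 1 := by
            rw [hGm _ _ (neg_ne_zero.2 one_ne_zero) (neg_ne_zero.2 one_ne_zero), neg_mul_neg, mul_one]
            simp only [G]
            rw [mul_inv_cancel]
          rw [inv_eq_of_mul_eq_one_left e2, hGm _ _ (neg_ne_zero.2 hv) (neg_ne_zero.2 one_ne_zero),
            neg_mul_neg, mul_one]
        rw [e1]
        simp only [G, neg_neg, h1]
        group
      rw [hGv a ha, hGv b hb, hGv _ (mul_ne_zero ha hb), hGm a b ha hb]
  -- the homomorphism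
  let f : Fin D.nroots × F → Γ := fun p => X p.1 p.2
  have hx : ∀ r < D.nroots, ∀ t : F, FreeGroup.lift f (D.stX r t) = X r t := fun r hr t => by
    simp [ChevalleyDatum.stX, hr, f]
  have hword : ∀ l : List (ℕ × F), (∀ p ∈ l, p.1 < D.nroots) →
      FreeGroup.lift f (D.stWord l) = (l.map fun p => X p.1 p.2).prod := fun l hl => by
    rw [map_stWord]
    exact congrArg List.prod (List.map_congr_left fun p hp => hx _ (hl p hp) _)
  have hrel : ∀ x ∈ D.steinbergRels F, FreeGroup.lift f x = 1 := by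
    rintro x ((⟨r, t, u, hr, rfl⟩ | ⟨r, s, t, u, hr, hs, h1, h2, rfl⟩) | ⟨r, t, u, hr, ht, hu, rfl⟩)
    · simp only [map_mul, map_inv, hx r hr, mul_inv_eq_one]
      exact hX.add r hr t u
    · simp only [map_mul, map_inv, hx r hr, hx s hs, mul_inv_eq_one]
      rw [hword _ fun p hp => by
        obtain ⟨c, hc, rfl⟩ := List.mem_map.1 hp
        exact commTerms_lt h hr hs hc]
      exact hX.comm r hr s hs h1 h2 t u
    · have hH : ∀ v : F, FreeGroup.lift f (D.stH r v) = hW D X r v := fun v => by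
        rw [ChevalleyDatum.stH, hword _ fun p hp => by
          simp [ChevalleyDatum.hWord, ChevalleyDatum.nWord] at hp
          rcases hp with rfl | rfl | rfl | rfl | rfl | rfl <;> first | exact hr | exact hneg r hr,
          hWord_prod]
      simp only [map_mul, map_inv, hH, mul_inv_eq_one]
      exact hall r hr t u ht hu
  refine ⟨PresentedGroup.toGroup hrel, eq_thetaGroup h _ fun r t hr => ?_⟩
  rw [MonoidHom.comp_apply, show PresentedGroup.toGroup hrel (D.stGen F r t) = X r t from hx r hr t,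
    hX.map r hr, coe_xg, coe_xG]

theorem st_perfect (h : Full D A) (hperf : commutator (D.SteinbergCover F) = ⊤) :
    commutator (D.SteinbergGroup F) = ⊤ := by
  let f : D.SteinbergCover F →* D.SteinbergGroup F :=
    PresentedGroup.toGroup (rels := D.steinbergRelsAB F) (f := fun p => D.stGen F p.1 p.2) (by
      have hid : FreeGroup.lift (fun p : Fin D.nroots × F => D.stGen F p.1 p.2) =
          PresentedGroup.mk (D.steinbergRels F) := by
        refine FreeGroup.ext_hom _ _ fun p => ?_
        rw [FreeGroup.lift_apply_of]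
        simp [ChevalleyDatum.stGen, ChevalleyDatum.stX]
      intro x hx
      rw [hid]
      exact PresentedGroup.one_of_mem (Or.inl hx))
  have hf : Function.Surjective f := by
    rw [← MonoidHom.range_eq_top, eq_top_iff]
    intro x _
    refine PresentedGroup.generated_by _ _ ?_ x
    intro p
    refine ⟨PresentedGroup.of p, ?_⟩
    show f (PresentedGroup.of p) = PresentedGroup.of p
    simp only [f, PresentedGroup.toGroup.of]
    simp [ChevalleyDatum.stGen, ChevalleyDatum.stX, PresentedGroup.of]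
  rw [commutator_def, ← Subgroup.map_top_of_surjective f hf, ← Subgroup.map_commutator,
    ← commutator_def, hperf]

/-- If all central extensions of the group have lifts, Steinberg's group has no proper stem extension. -/
theorem ker_eq_bot_of_lifts [Finite F] (h : Full D A) (hperf : commutator (D.SteinbergCover F) = ⊤)
    {Γ : Type u} [Group Γ] {ρ : Γ →* D.SteinbergGroup F} (hρ : Cfsg.IsStemExtension ρ)
    (hlifts : CExt h.toStd ((thetaGroup h).comp ρ) → ∃ X, Lifts h.toStd ((thetaGroup h).comp ρ) X) :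
    ρ.ker = ⊥ := by
  have hΔ := st_perfect h hperf
  have hk : ∀ z, ρ z = 1 → ∀ g, g * z = z * g := fun z hz =>
    Subgroup.mem_center_iff.1 (hρ.2.1 (MonoidHom.mem_ker.2 hz))
  have hcom : ∀ H : Subgroup Γ, (∀ g, ∃ x ∈ H, ρ x = ρ g) → commutator Γ ≤ H := by
    intro H hH
    rw [commutator_def, Subgroup.commutator_le]
    intro x _ y _
    obtain ⟨a, ha, ea⟩ := hH x
    obtain ⟨b, hb, eb⟩ := hH y
    rw [SchurMult.comm_eq_of_map_eq hρ.2.1 ea.symm eb.symm]
    exact mul_mem (mul_mem (mul_mem ha hb) (inv_mem ha)) (inv_mem hb)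
  have hperfΓ : commutator Γ = ⊤ := by
    refine eq_top_iff.2 fun g _ => ?_
    have : ρ g ∈ (commutator Γ).map ρ := by
      rw [commutator_def, Subgroup.map_commutator, Subgroup.map_top_of_surjective ρ hρ.1, ← commutator_def, hΔ]
      exact Subgroup.mem_top _
    obtain ⟨x, hx, e⟩ := this
    have := mul_mem hx (hρ.2.2 (show x⁻¹ * g ∈ ρ.ker by rw [MonoidHom.mem_ker, map_mul, map_inv, e]; group))
    rwa [mul_inv_cancel_left] at this
  have hcent : ((thetaGroup h).comp ρ).ker ≤ Subgroup.center Γ := by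
    intro z hz
    have hzc : ρ z ∈ Subgroup.center (D.SteinbergGroup F) := by
      rw [← ker_thetaGroup h]; exact hz
    rw [Subgroup.mem_center_iff]
    have hc1 : ∀ g, ρ ⁅z, g⁆ = 1 := fun g => by
      rw [map_commutatorElement, commutatorElement_eq_one_iff_mul_comm]
      exact (Subgroup.mem_center_iff.1 hzc _).symm
    let H : Subgroup Γ :=
      { carrier := {g | ⁅z, g⁆ = 1}
        one_mem' := by simp
        mul_mem' := fun {a b} ha hb => by
          simp only [Set.mem_ofPred_eq, commutatorElement_eq_one_iff_mul_comm] at ha hb ⊢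
          rw [← mul_assoc, ha, mul_assoc, hb, mul_assoc]
        inv_mem' := fun {a} ha => by
          simp only [Set.mem_ofPred_eq, commutatorElement_eq_one_iff_commute] at ha ⊢
          exact ha.inv_right }
    have hH : commutator Γ ≤ H := by
      rw [commutator_def, Subgroup.commutator_le]
      intro a _ b _
      show ⁅z, ⁅a, b⁆⁆ = 1
      rw [commutatorElement_eq_one_iff_mul_comm]
      have e : z * ⁅a, b⁆ * z⁻¹ = ⁅a, b⁆ := by
        rw [conjugate_commutatorElement]
        refine SchurMult.comm_eq_of_map_eq hρ.2.1 ?_ ?_ <;>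
          · rw [map_mul, map_mul, map_inv, ← Subgroup.mem_center_iff.1 hzc, mul_inv_cancel_right]
      exact mul_inv_eq_iff_eq_mul.1 e
    intro g
    have hg : ⁅z, g⁆ = 1 := hH (by rw [hperfΓ]; exact Subgroup.mem_top g)
    exact (commutatorElement_eq_one_iff_mul_comm.1 hg).symm
  have E : CExt h.toStd ((thetaGroup h).comp ρ) := ⟨(thetaGroup_surjective h).comp hρ.1, hcent⟩
  obtain ⟨X, hX⟩ := hlifts E
  obtain ⟨ψ, hψ⟩ := hX.exists_stHom (h := h) E hperf
  have hid : ρ.comp ψ = MonoidHom.id _ := by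
    have hle : commutator (D.SteinbergGroup F) ≤ (ρ.comp ψ).eqLocus (MonoidHom.id _) := by
      rw [commutator_def, Subgroup.commutator_le]
      intro a _ b _
      show ρ.comp ψ ⁅a, b⁆ = ⁅a, b⁆
      rw [map_commutatorElement]
      exact SchurMult.comm_eq_of_map_eq (le_of_eq (ker_thetaGroup h)) (DFunLike.congr_fun hψ a)
        (DFunLike.congr_fun hψ b)
    exact MonoidHom.ext fun x => hle (by rw [hΔ]; exact Subgroup.mem_top x)
  have hψs : ∀ g, g ∈ ψ.range := fun g => by
    refine (hcom ψ.range fun g => ⟨ψ (ρ g), ⟨ρ g, rfl⟩, DFunLike.congr_fun hid (ρ g)⟩) ?_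
    rw [hperfΓ]
    exact Subgroup.mem_top g
  rw [eq_bot_iff]
  intro z hz
  obtain ⟨a, rfl⟩ := hψs z
  have : ρ.comp ψ a = a := DFunLike.congr_fun hid a
  rw [MonoidHom.comp_apply, MonoidHom.mem_ker.1 hz] at this
  rw [Subgroup.mem_bot, ← this, map_one]

end CfsgLib.ChevMult
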