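import Cfsg.Agent.Lib.ChevMult.SLTabE8

/-! The pair tests of type E8, roots 0 to 59. -/

set_option autoImplicit false
set_option Elab.async false

namespace CfsgLib.ChevMult

theorem slPairsE8_0 : ∀ r < 2, ∀ s < 240, slPairT tabE8 (0 + r) s = true := by
  decide +kernel

theorem slPairsE8_2 : ∀ r < 2, ∀ s < 240, slPairT tabE8 (2 + r) s = true := by
  decide +kernel

theorem slPairsE8_4 : ∀ r < 2, ∀ s < 240, slPairT tabE8 (4 + r) s = true := by
  decide +kernel

theorem slPairsE8_6 : ∀ r < 2, ∀ s < 240, slPairT tabE8 (6 + r) s = true := by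
  decide +kernel

theorem slPairsE8_8 : ∀ r < 2, ∀ s < 240, slPairT tabE8 (8 + r) s = true := by
  decide +kernel

theorem slPairsE8_10 : ∀ r < 2, ∀ s < 240, slPairT tabE8 (10 + r) s = true := by
  decide +kernel

theorem slPairsE8_12 : ∀ r < 2, ∀ s < 240, slPairT tabE8 (12 + r) s = true := by
  decide +kernel

theorem slPairsE8_14 : ∀ r < 2, ∀ s < 240, slPairT tabE8 (14 + r) s = true := by
  decide +kernel

theorem slPairsE8_16 : ∀ r < 2, ∀ s < 240, slPairT tabE8 (16 + r) s = true := by
  decide +kernel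

theorem slPairsE8_18 : ∀ r < 2, ∀ s < 240, slPairT tabE8 (18 + r) s = true := by
  decide +kernel

theorem slPairsE8_20 : ∀ r < 2, ∀ s < 240, slPairT tabE8 (20 + r) s = true := by
  decide +kernel

theorem slPairsE8_22 : ∀ r < 2, ∀ s < 240, slPairT tabE8 (22 + r) s = true := by
  decide +kernel

theorem slPairsE8_24 : ∀ r < 2, ∀ s < 240, slPairT tabE8 (24 + r) s = true := by
  decide +kernel

theorem slPairsE8_26 : ∀ r < 2, ∀ s < 240, slPairT tabE8 (26 + r) s = true := by
  decide +kernel

theorem slPairsE8_28 : ∀ r < 2, ∀ s < 240, slPairT tabE8 (28 + r) s = true := by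
  decide +kernel

theorem slPairsE8_30 : ∀ r < 2, ∀ s < 240, slPairT tabE8 (30 + r) s = true := by
  decide +kernel

theorem slPairsE8_32 : ∀ r < 2, ∀ s < 240, slPairT tabE8 (32 + r) s = true := by
  decide +kernel

theorem slPairsE8_34 : ∀ r < 2, ∀ s < 240, slPairT tabE8 (34 + r) s = true := by
  decide +kernel

theorem slPairsE8_36 : ∀ r < 2, ∀ s < 240, slPairT tabE8 (36 + r) s = true := by
  decide +kernel

theorem slPairsE8_38 : ∀ r < 2, ∀ s < 240, slPairT tabE8 (38 + r) s = true := by
  decide +kernel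

theorem slPairsE8_40 : ∀ r < 2, ∀ s < 240, slPairT tabE8 (40 + r) s = true := by
  decide +kernel

theorem slPairsE8_42 : ∀ r < 2, ∀ s < 240, slPairT tabE8 (42 + r) s = true := by
  decide +kernel

theorem slPairsE8_44 : ∀ r < 2, ∀ s < 240, slPairT tabE8 (44 + r) s = true := by
  decide +kernel

theorem slPairsE8_46 : ∀ r < 2, ∀ s < 240, slPairT tabE8 (46 + r) s = true := by
  decide +kernel

theorem slPairsE8_48 : ∀ r < 2, ∀ s < 240, slPairT tabE8 (48 + r) s = true := by
  decide +kernel

theorem slPairsE8_50 : ∀ r < 2, ∀ s < 240, slPairT tabE8 (50 + r) s = true := by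
  decide +kernel

theorem slPairsE8_52 : ∀ r < 2, ∀ s < 240, slPairT tabE8 (52 + r) s = true := by
  decide +kernel

theorem slPairsE8_54 : ∀ r < 2, ∀ s < 240, slPairT tabE8 (54 + r) s = true := by
  decide +kernel

theorem slPairsE8_56 : ∀ r < 2, ∀ s < 240, slPairT tabE8 (56 + r) s = true := by
  decide +kernel

theorem slPairsE8_58 : ∀ r < 2, ∀ s < 240, slPairT tabE8 (58 + r) s = true := by
  decide +kernel

end CfsgLib.ChevMult
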