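import Cfsg.Agent.Lib.ChevMult.SimplyLaced
import Cfsg.Agent.Lib.Chevalley.CommE7

/-! Quick tables for type E7. -/

set_option autoImplicit false
set_option maxRecDepth 100000

namespace CfsgLib.ChevMult

open Cfsg.Lie

/-- the chain lists of E7 -/
def blocksE7 : List (List (Array (ℕ × Array (ℕ × ℤ)))) :=
  [ [chevE7Chain0, chevE7Chain1, chevE7Chain2, chevE7Chain3, chevE7Chain4, chevE7Chain5, chevE7Chain6, chevE7Chain7, chevE7Chain8, chevE7Chain9, chevE7Chain10, chevE7Chain11, chevE7Chain12, chevE7Chain13, chevE7Chain14, chevE7Chain15],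
    [chevE7Chain16, chevE7Chain17, chevE7Chain18, chevE7Chain19, chevE7Chain20, chevE7Chain21, chevE7Chain22, chevE7Chain23, chevE7Chain24, chevE7Chain25, chevE7Chain26, chevE7Chain27, chevE7Chain28, chevE7Chain29, chevE7Chain30, chevE7Chain31],
    [chevE7Chain32, chevE7Chain33, chevE7Chain34, chevE7Chain35, chevE7Chain36, chevE7Chain37, chevE7Chain38, chevE7Chain39, chevE7Chain40, chevE7Chain41, chevE7Chain42, chevE7Chain43, chevE7Chain44, chevE7Chain45, chevE7Chain46, chevE7Chain47],
    [chevE7Chain48, chevE7Chain49, chevE7Chain50, chevE7Chain51, chevE7Chain52, chevE7Chain53, chevE7Chain54, chevE7Chain55, chevE7Chain56, chevE7Chain57, chevE7Chain58, chevE7Chain59, chevE7Chain60, chevE7Chain61, chevE7Chain62, chevE7Chain63],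
    [chevE7Chain64, chevE7Chain65, chevE7Chain66, chevE7Chain67, chevE7Chain68, chevE7Chain69, chevE7Chain70, chevE7Chain71, chevE7Chain72, chevE7Chain73, chevE7Chain74, chevE7Chain75, chevE7Chain76, chevE7Chain77, chevE7Chain78, chevE7Chain79],
    [chevE7Chain80, chevE7Chain81, chevE7Chain82, chevE7Chain83, chevE7Chain84, chevE7Chain85, chevE7Chain86, chevE7Chain87, chevE7Chain88, chevE7Chain89, chevE7Chain90, chevE7Chain91, chevE7Chain92, chevE7Chain93, chevE7Chain94, chevE7Chain95],
    [chevE7Chain96, chevE7Chain97, chevE7Chain98, chevE7Chain99, chevE7Chain100, chevE7Chain101, chevE7Chain102, chevE7Chain103, chevE7Chain104, chevE7Chain105, chevE7Chain106, chevE7Chain107, chevE7Chain108, chevE7Chain109, chevE7Chain110, chevE7Chain111],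
    [chevE7Chain112, chevE7Chain113, chevE7Chain114, chevE7Chain115, chevE7Chain116, chevE7Chain117, chevE7Chain118, chevE7Chain119, chevE7Chain120, chevE7Chain121, chevE7Chain122, chevE7Chain123, chevE7Chain124, chevE7Chain125]]

/-- quick tables of E7 -/
def tabE7 : Tab where
  n := 126
  ch r := if Nat.blt r 126 then ((blocksE7.getD (r / 16) []).getD (r % 16) #[]).toList
    else (tabOf chevE7).ch r
  ng r := if Nat.blt r 126 then 125 - r else (tabOf chevE7).ng r

theorem tabOf_E7 : tabOf chevE7 = tabE7 := by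
  have hc : ∀ r < 126, (tabOf chevE7).ch r = tabE7.ch r := by decide +kernel
  have hg : ∀ r < 126, (tabOf chevE7).ng r = tabE7.ng r := by decide +kernel
  have hch : (tabOf chevE7).ch = tabE7.ch := funext fun r => by
    by_cases h : r < 126
    · exact hc r h
    · exact (if_neg (fun e => h (Nat.le_of_ble_eq_true e))).symm
  have hng : (tabOf chevE7).ng = tabE7.ng := funext fun r => by
    by_cases h : r < 126
    · exact hg r h
    · exact (if_neg (fun e => h (Nat.le_of_ble_eq_true e))).symm
  calc tabOf chevE7 = ⟨126, (tabOf chevE7).ch, (tabOf chevE7).ng⟩ := rfl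
    _ = _ := by rw [hch, hng]; rfl

end CfsgLib.ChevMult
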