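import Cfsg.Agent.Lib.ChevMult.SimplyLaced
import Cfsg.Agent.Lib.Chevalley.CommE8

/-! Quick tables for type E8. -/

set_option autoImplicit false
set_option maxRecDepth 100000

namespace CfsgLib.ChevMult

open Cfsg.Lie

/-- the chain lists of E8 -/
def blocksE8 : List (List (Array (ℕ × Array (ℕ × ℤ)))) :=
  [ [chevE8Chain0, chevE8Chain1, chevE8Chain2, chevE8Chain3, chevE8Chain4, chevE8Chain5, chevE8Chain6, chevE8Chain7, chevE8Chain8, chevE8Chain9, chevE8Chain10, chevE8Chain11, chevE8Chain12, chevE8Chain13, chevE8Chain14, chevE8Chain15],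
    [chevE8Chain16, chevE8Chain17, chevE8Chain18, chevE8Chain19, chevE8Chain20, chevE8Chain21, chevE8Chain22, chevE8Chain23, chevE8Chain24, chevE8Chain25, chevE8Chain26, chevE8Chain27, chevE8Chain28, chevE8Chain29, chevE8Chain30, chevE8Chain31],
    [chevE8Chain32, chevE8Chain33, chevE8Chain34, chevE8Chain35, chevE8Chain36, chevE8Chain37, chevE8Chain38, chevE8Chain39, chevE8Chain40, chevE8Chain41, chevE8Chain42, chevE8Chain43, chevE8Chain44, chevE8Chain45, chevE8Chain46, chevE8Chain47],
    [chevE8Chain48, chevE8Chain49, chevE8Chain50, chevE8Chain51, chevE8Chain52, chevE8Chain53, chevE8Chain54, chevE8Chain55, chevE8Chain56, chevE8Chain57, chevE8Chain58, chevE8Chain59, chevE8Chain60, chevE8Chain61, chevE8Chain62, chevE8Chain63],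
    [chevE8Chain64, chevE8Chain65, chevE8Chain66, chevE8Chain67, chevE8Chain68, chevE8Chain69, chevE8Chain70, chevE8Chain71, chevE8Chain72, chevE8Chain73, chevE8Chain74, chevE8Chain75, chevE8Chain76, chevE8Chain77, chevE8Chain78, chevE8Chain79],
    [chevE8Chain80, chevE8Chain81, chevE8Chain82, chevE8Chain83, chevE8Chain84, chevE8Chain85, chevE8Chain86, chevE8Chain87, chevE8Chain88, chevE8Chain89, chevE8Chain90, chevE8Chain91, chevE8Chain92, chevE8Chain93, chevE8Chain94, chevE8Chain95],
    [chevE8Chain96, chevE8Chain97, chevE8Chain98, chevE8Chain99, chevE8Chain100, chevE8Chain101, chevE8Chain102, chevE8Chain103, chevE8Chain104, chevE8Chain105, chevE8Chain106, chevE8Chain107, chevE8Chain108, chevE8Chain109, chevE8Chain110, chevE8Chain111],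
    [chevE8Chain112, chevE8Chain113, chevE8Chain114, chevE8Chain115, chevE8Chain116, chevE8Chain117, chevE8Chain118, chevE8Chain119, chevE8Chain120, chevE8Chain121, chevE8Chain122, chevE8Chain123, chevE8Chain124, chevE8Chain125, chevE8Chain126, chevE8Chain127],
    [chevE8Chain128, chevE8Chain129, chevE8Chain130, chevE8Chain131, chevE8Chain132, chevE8Chain133, chevE8Chain134, chevE8Chain135, chevE8Chain136, chevE8Chain137, chevE8Chain138, chevE8Chain139, chevE8Chain140, chevE8Chain141, chevE8Chain142, chevE8Chain143],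
    [chevE8Chain144, chevE8Chain145, chevE8Chain146, chevE8Chain147, chevE8Chain148, chevE8Chain149, chevE8Chain150, chevE8Chain151, chevE8Chain152, chevE8Chain153, chevE8Chain154, chevE8Chain155, chevE8Chain156, chevE8Chain157, chevE8Chain158, chevE8Chain159],
    [chevE8Chain160, chevE8Chain161, chevE8Chain162, chevE8Chain163, chevE8Chain164, chevE8Chain165, chevE8Chain166, chevE8Chain167, chevE8Chain168, chevE8Chain169, chevE8Chain170, chevE8Chain171, chevE8Chain172, chevE8Chain173, chevE8Chain174, chevE8Chain175],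
    [chevE8Chain176, chevE8Chain177, chevE8Chain178, chevE8Chain179, chevE8Chain180, chevE8Chain181, chevE8Chain182, chevE8Chain183, chevE8Chain184, chevE8Chain185, chevE8Chain186, chevE8Chain187, chevE8Chain188, chevE8Chain189, chevE8Chain190, chevE8Chain191],
    [chevE8Chain192, chevE8Chain193, chevE8Chain194, chevE8Chain195, chevE8Chain196, chevE8Chain197, chevE8Chain198, chevE8Chain199, chevE8Chain200, chevE8Chain201, chevE8Chain202, chevE8Chain203, chevE8Chain204, chevE8Chain205, chevE8Chain206, chevE8Chain207],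
    [chevE8Chain208, chevE8Chain209, chevE8Chain210, chevE8Chain211, chevE8Chain212, chevE8Chain213, chevE8Chain214, chevE8Chain215, chevE8Chain216, chevE8Chain217, chevE8Chain218, chevE8Chain219, chevE8Chain220, chevE8Chain221, chevE8Chain222, chevE8Chain223],
    [chevE8Chain224, chevE8Chain225, chevE8Chain226, chevE8Chain227, chevE8Chain228, chevE8Chain229, chevE8Chain230, chevE8Chain231, chevE8Chain232, chevE8Chain233, chevE8Chain234, chevE8Chain235, chevE8Chain236, chevE8Chain237, chevE8Chain238, chevE8Chain239]]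

/-- quick tables of E8 -/
def tabE8 : Tab where
  n := 240
  ch r := if Nat.blt r 240 then ((blocksE8.getD (r / 16) []).getD (r % 16) #[]).toList
    else (tabOf chevE8).ch r
  ng r := if Nat.blt r 240 then 239 - r else (tabOf chevE8).ng r

theorem tabOf_E8 : tabOf chevE8 = tabE8 := by
  have hc : ∀ r < 240, (tabOf chevE8).ch r = tabE8.ch r := by decide +kernel
  have hg : ∀ r < 240, (tabOf chevE8).ng r = tabE8.ng r := by decide +kernel
  have hch : (tabOf chevE8).ch = tabE8.ch := funext fun r => by
    by_cases h : r < 240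
    · exact hc r h
    · exact (if_neg (fun e => h (Nat.le_of_ble_eq_true e))).symm
  have hng : (tabOf chevE8).ng = tabE8.ng := funext fun r => by
    by_cases h : r < 240
    · exact hg r h
    · exact (if_neg (fun e => h (Nat.le_of_ble_eq_true e))).symm
  calc tabOf chevE8 = ⟨240, (tabOf chevE8).ch, (tabOf chevE8).ng⟩ := rfl
    _ = _ := by rw [hch, hng]; rfl

end CfsgLib.ChevMult
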