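import Cfsg.Agent.Lib.ChevMult.TorusLifts

/-!
The lifting theorem through the torus, with the tests on a datum that imply its hypotheses.
-/

set_option autoImplicit false
set_option linter.unusedSectionVars false

namespace CfsgLib.ChevMult

open Cfsg.Lie CfsgLib.Chevalley CfsgLib.SteinbergPres
open scoped commutatorElement

universe u

variable {D : ChevalleyDatum} {A : Aux} {F : Type*} [Field F] {Γ : Type u} [Group Γ]
variable {h : Full D A} {π : Γ →* ↥(D.group F)}

theorem exists_lifts_of_canon {σ : ℕ → ℕ → ℕ} {η : ℕ → ℕ → ℤ} {cart coro : ℕ → ℕ → ℤ} {par : ℕ → ℕ × ℕ}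
    {dep : ℕ → ℕ} {w0 : List ℕ} (C : StCert D σ η cart coro par dep w0) (hE : StEdge D σ η F)
    (hmap : ∀ i < D.rank, ∀ r < D.nroots, ∀ s < D.nroots, s ≠ r → s ≠ D.neg r → ∀ t u : F,
      D.commWord F (σ i r) (σ i s) ((η i r : F) * t) ((η i s : F) * u) =
        (D.commWord F r s t u).map fun p => (σ i p.1, (η i p.1 : F) * p.2))
    (E : CExt h.toStd π) {X : ℕ → F → Γ} (K : Canon E X)
    (hweyl : ∀ i < D.rank, ∀ g : Γ, π g = thetaGroup h (nSt D F i 1) → ∀ k < D.nroots, ∀ t : F,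
      g * X k t * g⁻¹ = X (σ i k) ((η i k : F) * t))
    (hkill : ∀ r s, D.IsPosRoot r → D.IsPosRoot s → r < s → Kill h.toStd π r s ∨ Rel D X r s)
    (hmove : ∀ r < D.nroots, ∀ s < D.nroots, s ≠ r → s ≠ D.neg r → ∃ w : List ℕ, (∀ k ∈ w, k < D.rank) ∧
      D.IsPosRoot (w.foldl (fun r k => σ k r) r) ∧ D.IsPosRoot (w.foldl (fun r k => σ k r) s)) :
    Lifts h.toStd π X := by
  refine ⟨K.map, K.add, fun r hr s hs h1 h2 => ?_⟩
  obtain ⟨w, hw, hwr, hws⟩ := hmove r hr s hs h1 h2
  show Rel D X r s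
  induction w generalizing r s with
  | nil => exact rel_pos (h := h) K hkill r s hwr hws h1
  | cons k w ih =>
    have hk : k < D.rank := hw k (by simp)
    have hA := C.isAut hk
    have hσ : ∀ x < D.nroots, σ k (σ k x) = x := fun x hx => hA.left_inv x hx
    have hrel : Rel D X (σ k r) (σ k s) :=
      ih (σ k r) (hA.lt r hr) (σ k s) (hA.lt s hs) (fun e => h1 (hA.inj hs hr e))
        (fun e => h2 (hA.inj hs (hA.neg_lt r hr) (e.trans (hA.map_neg r hr).symm)))
        (fun x hx => hw x (by simp [hx])) hwr hws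
    obtain ⟨g, hg⟩ := E.surj (thetaGroup h (nSt D F k 1))
    have hgX : ∀ x < D.nroots, ∀ v : F, g * X x v * g⁻¹ = X (σ k x) ((η k x : F) * v) :=
      fun x hx v => hweyl k hk g hg x hx v
    intro t u
    have er : X r t = g * X (σ k r) ((η k (σ k r) : F) * t) * g⁻¹ := by
      rw [hgX _ (hA.lt r hr), hσ r hr, ← mul_assoc, hA.sq_sign F (hA.lt r hr), one_mul]
    have es : X s u = g * X (σ k s) ((η k (σ k s) : F) * u) * g⁻¹ := by
      rw [hgX _ (hA.lt s hs), hσ s hs, ← mul_assoc, hA.sq_sign F (hA.lt s hs), one_mul]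
    have hne : σ k s ≠ σ k r := fun e => h1 (hA.inj hs hr e)
    have hnn : σ k s ≠ D.neg (σ k r) :=
      fun e => h2 (hA.inj hs (hA.neg_lt r hr) (e.trans (hA.map_neg r hr).symm))
    have hw2 := hmap k hk (σ k r) (hA.lt r hr) (σ k s) (hA.lt s hs) hne hnn
      ((η k (σ k r) : F) * t) ((η k (σ k s) : F) * u)
    rw [hσ r hr, hσ s hs, ← mul_assoc, hA.sq_sign F (hA.lt r hr), one_mul, ← mul_assoc,
      hA.sq_sign F (hA.lt s hs), one_mul] at hw2
    rw [hw2, List.map_map, er, es]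
    have hconj : ((D.commWord F (σ k r) (σ k s) ((η k (σ k r) : F) * t) ((η k (σ k s) : F) * u)).map
        ((fun p => X p.1 p.2) ∘ fun p => (σ k p.1, (η k p.1 : F) * p.2))).prod =
        g * ((D.commWord F (σ k r) (σ k s) ((η k (σ k r) : F) * t) ((η k (σ k s) : F) * u)).map
          fun p => X p.1 p.2).prod * g⁻¹ := by
      rw [← MulAut.conj_apply, map_list_prod, List.map_map]
      refine congrArg List.prod (List.map_congr_left fun p hp => ?_)
      obtain ⟨c, hc, rfl⟩ := List.mem_map.1 hp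
      simp only [Function.comp_apply, MulAut.conj_apply]
      exact (hgX _ (commTerms_lt h (hA.lt r hr) (hA.lt s hs) hc) _).symm
    rw [hconj, ← hrel]
    group

theorem exists_lifts_of_kills {σ : ℕ → ℕ → ℕ} {η : ℕ → ℕ → ℤ} {cart coro : ℕ → ℕ → ℤ} {par : ℕ → ℕ × ℕ}
    {dep : ℕ → ℕ} {w0 : List ℕ} (C : StCert D σ η cart coro par dep w0) (hE : StEdge D σ η F)
    (hmap : ∀ i < D.rank, ∀ r < D.nroots, ∀ s < D.nroots, s ≠ r → s ≠ D.neg r → ∀ t u : F,
      D.commWord F (σ i r) (σ i s) ((η i r : F) * t) ((η i s : F) * u) =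
        (D.commWord F r s t u).map fun p => (σ i p.1, (η i p.1 : F) * p.2))
    (E : CExt h.toStd π) (hself : ∀ k < D.nroots, Comm h.toStd π k k)
    (hchi : ∀ k < D.nroots, ∃ c : Fin D.rank → Fˣ, ((chi D k c : Fˣ) : F) ≠ 1)
    (hkill : ∀ r s, D.IsPosRoot r → D.IsPosRoot s → r < s → Kill h.toStd π r s)
    (hmove : ∀ r < D.nroots, ∀ s < D.nroots, s ≠ r → s ≠ D.neg r → ∃ w : List ℕ, (∀ k ∈ w, k < D.rank) ∧
      D.IsPosRoot (w.foldl (fun r k => σ k r) r) ∧ D.IsPosRoot (w.foldl (fun r k => σ k r) s)) :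
    ∃ X : ℕ → F → Γ, Lifts h.toStd π X := by
  obtain ⟨X, K⟩ := exists_canon E hself hchi
  exact ⟨X, exists_lifts_of_canon (h := h) C hE hmap E K
    (fun i hi g hg k hk t => K.weyl C hE hi hg hk (hchi k hk) t)
    (fun r s hr hs hrs => Or.inl (hkill r s hr hs hrs)) hmove⟩

/-- the value `⟨k, a^∨⟩` -/
def pairD (D : ChevalleyDatum) (k a : ℕ) : ℤ :=
  (List.ofFn fun i : Fin D.rank => (D.coroot.getD a #[]).getD i 0 * D.cartan i k).sum

/-- the torus element `a^∨(c)` -/
def coTorus (D : ChevalleyDatum) (a : ℕ) (c : Fˣ) : Fin D.rank → Fˣ :=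
  fun i => c ^ (D.coroot.getD a #[]).getD i 0

theorem chi_coTorus (k a : ℕ) (c : Fˣ) : chi D k (coTorus D a c) = c ^ pairD D k a := by
  rw [pairD, List.sum_ofFn]
  show ∏ i : Fin D.rank, (c ^ (D.coroot.getD a #[]).getD i 0) ^ D.cartan i k = _
  generalize (Finset.univ : Finset (Fin D.rank)) = S
  classical
  induction S using Finset.induction_on with
  | empty => simp
  | insert i S hi ih => rw [Finset.prod_insert hi, Finset.sum_insert hi, ih, _root_.zpow_add, _root_.zpow_mul]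

/-- the coroot of `a` fixes `r` and moves `s` by an exponent at most `m` -/
def sepB (D : ChevalleyDatum) (m r s : ℕ) : Bool :=
  (List.range D.nroots).any fun a =>
    decide (pairD D r a = 0) && decide (pairD D s a ≠ 0) && Nat.ble (pairD D s a).natAbs m

/-- some coroot moves `k` by an exponent at most `m` -/
def chiB (D : ChevalleyDatum) (m k : ℕ) : Bool :=
  (List.range D.nroots).any fun a => decide (pairD D k a ≠ 0) && Nat.ble (pairD D k a).natAbs m

/-- small exponents are not trivial on the field -/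
def PowOk (F : Type*) [Field F] (m : ℕ) : Prop := ∀ d : ℕ, 0 < d → d ≤ m → ∃ c : Fˣ, c ^ d ≠ 1

theorem zpow_ne_one_of_powOk {m : ℕ} (hp : PowOk F m) {z : ℤ} (hz : z ≠ 0) (hm : z.natAbs ≤ m) :
    ∃ c : Fˣ, c ^ z ≠ 1 := by
  obtain ⟨c, hc⟩ := hp z.natAbs (Int.natAbs_pos.2 hz) hm
  refine ⟨c, fun e => hc ?_⟩
  rcases Int.natAbs_eq z with h | h <;> rw [h] at e
  · simpa using e
  · simpa using e

theorem exists_chi_of_chiB {m k : ℕ} (hp : PowOk F m) (hB : chiB D m k = true) :
    ∃ c : Fin D.rank → Fˣ, ((chi D k c : Fˣ) : F) ≠ 1 := by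
  simp only [chiB, List.any_eq_true, Bool.and_eq_true, decide_eq_true_eq] at hB
  obtain ⟨a, -, h1, h2⟩ := hB
  obtain ⟨c, hc⟩ := zpow_ne_one_of_powOk hp h1 (Nat.le_of_ble_eq_true h2)
  refine ⟨coTorus D a c, fun e => hc ?_⟩
  rw [← chi_coTorus]
  exact Units.ext (by simpa using e)

theorem kill_of_sepB {hS : Std D A} {m r s : ℕ} (hp : PowOk F m)
    (hB : (sepB D m r s || sepB D m s r) = true) : Kill hS π r s := by
  simp only [sepB, Bool.or_eq_true, List.any_eq_true, Bool.and_eq_true, decide_eq_true_eq] at hB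
  have key : ∀ r s a, pairD D r a = 0 → pairD D s a ≠ 0 → Nat.ble (pairD D s a).natAbs m = true →
      ∃ c : Fin D.rank → Fˣ, chi D r c = 1 ∧ chi D s c ≠ 1 := fun r s a h0 h1 h2 => by
    obtain ⟨c, hc⟩ := zpow_ne_one_of_powOk hp h1 (Nat.le_of_ble_eq_true h2)
    exact ⟨coTorus D a c, by rw [chi_coTorus, h0, zpow_zero], by rwa [chi_coTorus]⟩
  rcases hB with ⟨a, -, ⟨h0, h1⟩, h2⟩ | ⟨a, -, ⟨h0, h1⟩, h2⟩
  · obtain ⟨c, hc⟩ := key r s a h0 h1 h2
    exact Or.inl ⟨c, Or.inl hc⟩
  · obtain ⟨c, hc⟩ := key s r a h0 h1 h2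
    exact Or.inl ⟨c, Or.inr hc⟩

/-- Root elements of one root commute when the torus acts on them by every unit and the field has more than
four elements. -/
theorem comm_self_of_unit {hS : Std D A} (E : CExt hS π) {k : ℕ} (hk : k < D.nroots)
    (hsurj : ∀ c : Fˣ, ∃ v : Fin D.rank → Fˣ, chi D k v = c)
    (hfield : ∃ c d : F, c ≠ 0 ∧ c ≠ -1 ∧ d ≠ 0 ∧ d ≠ -1 ∧ c + d ≠ 0 ∧ c + d ≠ -1) :
    Comm hS π k k := by
  let z : F → F → Γ := fun t u => ⁅E.lift k t, E.lift k u⁆
  have hz : ∀ t u, π (z t u) = 1 := fun t u => by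
    simp only [z]
    rw [map_commutatorElement, E.map_lift, E.map_lift, commutatorElement_eq_one_iff_mul_comm, xg_mul, xg_mul,
      add_comm]
  have zc : ∀ t u g, g * z t u = z t u * g := fun t u g => E.mul_comm_ker (hz t u) g
  have hl : ∀ t t' u, z (t + t') u = z t' u * z t u := by
    intro t t' u
    show E.cl k k (t + t') u = _
    rw [← E.cl_eq (a := E.lift k t * E.lift k t') (b := E.lift k u)
      (by rw [map_mul, E.map_lift, E.map_lift, xg_mul]) (E.map_lift _ _)]
    have e1 : ⁅E.lift k t * E.lift k t', E.lift k u⁆ = E.lift k t * z t' u * (E.lift k t)⁻¹ * z t u := by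
      simp only [z, commutatorElement_def]; group
    rw [e1, E.conj_ker (hz t' u)]
  have hr : ∀ t u u', z t (u + u') = z t u * z t u' := by
    intro t u u'
    show E.cl k k t (u + u') = _
    rw [← E.cl_eq (a := E.lift k t) (b := E.lift k u * E.lift k u') (E.map_lift _ _)
      (by rw [map_mul, E.map_lift, E.map_lift, xg_mul])]
    have e1 : ⁅E.lift k t, E.lift k u * E.lift k u'⁆ = z t u * (E.lift k u * z t u' * (E.lift k u)⁻¹) := by
      simp only [z, commutatorElement_def]; group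
    rw [e1, E.conj_ker (hz t u')]
  have hinv : ∀ c : F, c ≠ 0 → ∀ t u, z (c * t) (c * u) = z t u := by
    intro c hc t u
    obtain ⟨v, hv⟩ := hsurj (Units.mk0 c hc)
    rw [← E.conj_ker (hz t u) (E.tl v)]
    simp only [z]
    rw [conjugate_commutatorElement]
    refine E.comm_congr ?_ ?_ <;>
      rw [map_mul, map_mul, map_inv, E.map_tl, E.map_lift, E.map_lift, tg_conj hS.cert v hk, hv, Units.val_mk0]
  have hM : ∀ c : F, c ≠ 0 → c ≠ -1 → ∀ t u, z (c * t) u * z t (c * u) * z t u = 1 := by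
    intro c h0 h1 t u
    have h2 : (1 + c) ≠ 0 := fun e => h1 (by linear_combination e)
    have e := hinv (1 + c) h2 t u
    rw [add_mul, add_mul, one_mul, one_mul, hl, hr, hr, hinv c h0 t u] at e
    rw [show z (c * t) u * z t u * (z t u * z t (c * u)) = z t u * (z (c * t) u * z t (c * u) * z t u) by
      rw [zc t u (z (c * t) u), ← zc t u (z t (c * u))]
      group] at e
    exact mul_eq_left.1 e
  obtain ⟨c, d, c0, c1, d0, d1, e0, e1⟩ := hfield
  have hfin : ∀ t u, z t u = 1 := by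
    intro t u
    have a := hM c c0 c1 t u
    have b := hM d d0 d1 t u
    have ab := hM (c + d) e0 e1 t u
    rw [add_mul, add_mul, hl, hr] at ab
    have : z (d * t) u * z (c * t) u * (z t (c * u) * z t (d * u)) * z t u =
        (z (c * t) u * z t (c * u) * z t u) * (z (d * t) u * z t (d * u) * z t u) * (z t u)⁻¹ := by
      have C1 : ∀ g, g * z (d * t) u = z (d * t) u * g := zc _ _
      have C3 : ∀ g, g * z t u = z t u * g := zc _ _
      calc z (d * t) u * z (c * t) u * (z t (c * u) * z t (d * u)) * z t u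
          = z (d * t) u * (z (c * t) u * z t (c * u)) * z t (d * u) * z t u := by group
        _ = (z (c * t) u * z t (c * u)) * z (d * t) u * z t (d * u) * z t u := by rw [C1]
        _ = (z (c * t) u * z t (c * u)) * (z t u * (z (d * t) u * z t (d * u) * z t u)) * (z t u)⁻¹ := by
            rw [← C3 (z (d * t) u * z t (d * u) * z t u)]; group
        _ = _ := by group
    rw [this, a, b, one_mul, one_mul] at ab
    exact inv_eq_one.1 ab
  intro a b t u ha hb
  rw [← commutatorElement_eq_one_iff_commute, E.cl_eq ha hb]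
  exact hfin t u

theorem comm_self_of_chiB {hS : Std D A} (E : CExt hS π) {k : ℕ} (hk : k < D.nroots) (hB : chiB D 1 k = true)
    (hfield : ∃ c d : F, c ≠ 0 ∧ c ≠ -1 ∧ d ≠ 0 ∧ d ≠ -1 ∧ c + d ≠ 0 ∧ c + d ≠ -1) :
    Comm hS π k k := by
  simp only [chiB, List.any_eq_true, Bool.and_eq_true, decide_eq_true_eq] at hB
  obtain ⟨a, -, h1, h2⟩ := hB
  have h2 := Nat.le_of_ble_eq_true h2
  refine comm_self_of_unit E hk (fun c => ⟨coTorus D a (c ^ pairD D k a), ?_⟩) hfield
  rw [chi_coTorus, ← _root_.zpow_mul]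
  have : pairD D k a * pairD D k a = 1 := by
    rcases Int.natAbs_eq (pairD D k a) with e | e <;> rw [e] <;>
      rw [show (pairD D k a).natAbs = 1 by have := Int.natAbs_pos.2 h1; omega] <;> norm_num
  rw [this, zpow_one]

theorem exists_field_pair [DecidableEq F] {S : Finset F} (hS : 4 < S.card) :
    ∃ c d : F, c ≠ 0 ∧ c ≠ -1 ∧ d ≠ 0 ∧ d ≠ -1 ∧ c + d ≠ 0 ∧ c + d ≠ -1 := by
  have h2 : ({0, -1} : Finset F).card ≤ 2 := Finset.card_le_two
  obtain ⟨c, -, hc⟩ := Finset.exists_mem_notMem_of_card_lt_card (t := S) (s := {0, -1}) (by omega)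
  simp only [Finset.mem_insert, Finset.mem_singleton, not_or] at hc
  have h4 : ({0, -1, -c, -1 - c} : Finset F).card ≤ 4 := Finset.card_le_four
  obtain ⟨d, -, hd⟩ := Finset.exists_mem_notMem_of_card_lt_card (t := S) (s := {0, -1, -c, -1 - c}) (by omega)
  simp only [Finset.mem_insert, Finset.mem_singleton, not_or] at hd
  obtain ⟨hd0, hd1, hd2, hd3⟩ := hd
  exact ⟨c, d, hc.1, hc.2, hd0, hd1, fun e => hd2 (by linear_combination e),
    fun e => hd3 (by linear_combination e)⟩

theorem powOk_of_card [DecidableEq F] {S : Finset F} {m : ℕ} (hS : m + 1 < S.card) : PowOk F m := by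
  intro d hd hdm
  by_contra hcon
  simp only [not_exists, not_not] at hcon
  have hsub : S.erase 0 ⊆ (Polynomial.nthRoots d (1 : F)).toFinset := by
    intro x hx
    obtain ⟨hx0, -⟩ := Finset.mem_erase.1 hx
    rw [Multiset.mem_toFinset, Polynomial.mem_nthRoots hd]
    simpa using congrArg Units.val (hcon (Units.mk0 x hx0))
  have h1 := Finset.card_le_card hsub
  have h2 := (Multiset.toFinset_card_le _).trans (Polynomial.card_nthRoots d (1 : F))
  have h3 := Finset.pred_card_le_card_erase (a := (0 : F)) (s := S)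
  omega

/-- both roots become positive under the word -/
def moveB (D : ChevalleyDatum) (σ : ℕ → ℕ → ℕ) (w : List ℕ) (r s : ℕ) : Bool :=
  (w.all fun k => Nat.blt k D.rank) &&
    (Nat.ble (D.nroots / 2) (w.foldl (fun r k => σ k r) r) && Nat.blt (w.foldl (fun r k => σ k r) r) D.nroots) &&
    (Nat.ble (D.nroots / 2) (w.foldl (fun r k => σ k r) s) && Nat.blt (w.foldl (fun r k => σ k r) s) D.nroots)

theorem moveB_spec (h : Full D A) {σ : ℕ → ℕ → ℕ} {w : List ℕ} {r s : ℕ} (hB : moveB D σ w r s = true) :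
    (∀ k ∈ w, k < D.rank) ∧ D.IsPosRoot (w.foldl (fun r k => σ k r) r) ∧
      D.IsPosRoot (w.foldl (fun r k => σ k r) s) := by
  simp only [moveB, Bool.and_eq_true, List.all_eq_true] at hB
  exact ⟨fun k hk => Nat.le_of_ble_eq_true (hB.1.1 k hk),
    h.pos.isPos_iff.2 ⟨Nat.le_of_ble_eq_true hB.1.2.1, Nat.le_of_ble_eq_true hB.1.2.2⟩,
    h.pos.isPos_iff.2 ⟨Nat.le_of_ble_eq_true hB.2.1, Nat.le_of_ble_eq_true hB.2.2⟩⟩

end CfsgLib.ChevMult
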