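import Cfsg.Agent.Lib.ChevMult.Rel3
import Cfsg.Agent.Lib.ChevMult.Commute

/-!
Lifts of root elements normalised by the torus: in a central extension of a Chevalley group they are unique,
follow the Weyl elements, and satisfy the commutator formula as soon as the torus separates every pair of
positive roots (or the lifts of the pair commute).
-/

set_option autoImplicit false
set_option linter.unusedSectionVars false

namespace CfsgLib.ChevMult

open Cfsg.Lie CfsgLib.Chevalley CfsgLib.SteinbergPres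
open scoped commutatorElement

universe u

variable {D : ChevalleyDatum} {A : Aux} {F : Type*} [Field F] {Γ : Type u} [Group Γ]
variable {hS : Std D A} {π : Γ →* ↥(D.group F)}

/-- a lift of a torus element -/
noncomputable def CExt.tl (E : CExt hS π) (c : Fin D.rank → Fˣ) : Γ := (E.surj (tg hS.cert c)).choose

theorem CExt.map_tl (E : CExt hS π) (c : Fin D.rank → Fˣ) : π (E.tl c) = tg hS.cert c :=
  (E.surj (tg hS.cert c)).choose_spec

theorem CExt.conj_ker (E : CExt hS π) {z : Γ} (hz : π z = 1) (g : Γ) : g * z * g⁻¹ = z := by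
  rw [E.mul_comm_ker hz g, mul_inv_cancel_right]

theorem xg_inj (hC : Cert D A) {r : ℕ} (hr : r < D.nroots) {t u : F} (e : xg hC r t = xg hC r u) : t = u :=
  sub_eq_zero.1 (xg_eq_one hC hr (by rw [sub_eq_add_neg, ← xg_mul, e, xg_mul, add_neg_cancel, xg_zero]))

/-- The normalised lifts. -/
structure Canon (E : CExt hS π) (X : ℕ → F → Γ) : Prop where
  /-- they are lifts -/
  map : ∀ k < D.nroots, ∀ t, π (X k t) = xg hS.cert k t
  /-- additive -/
  add : ∀ k < D.nroots, ∀ t u, X k t * X k u = X k (t + u)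
  /-- the torus acts by the characters -/
  tor : ∀ k < D.nroots, ∀ (g : Γ) (c : Fin D.rank → Fˣ), π g = tg hS.cert c → ∀ t,
    g * X k t * g⁻¹ = X k (((chi D k c : Fˣ) : F) * t)
  /-- they are determined by this -/
  uniq : ∀ k < D.nroots, ∀ Y : F → Γ, (∀ t, π (Y t) = xg hS.cert k t) → (∀ t u, Y t * Y u = Y (t + u)) →
    (∃ (g : Γ) (χ : F), χ ≠ 1 ∧ (∃ c, π g = tg hS.cert c) ∧ ∀ t, g * Y t * g⁻¹ = Y (χ * t)) →
    ∀ t, Y t = X k t

theorem exists_canon (E : CExt hS π) (hself : ∀ k < D.nroots, Comm hS π k k)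
    (hchi : ∀ k < D.nroots, ∃ c : Fin D.rank → Fˣ, ((chi D k c : Fˣ) : F) ≠ 1) :
    ∃ X : ℕ → F → Γ, Canon E X := by
  classical
  choose c hc using hchi
  let X : ℕ → F → Γ := fun k t =>
    if hk : k < D.nroots then ⁅E.tl (c k hk), E.lift k (t / (((chi D k (c k hk) : Fˣ) : F) - 1))⁆ else 1
  have hmap : ∀ k < D.nroots, ∀ t, π (X k t) = xg hS.cert k t := by
    intro k hk t
    have h1 : ((chi D k (c k hk) : Fˣ) : F) - 1 ≠ 0 := sub_ne_zero.2 (hc k hk)
    simp only [X, dif_pos hk]
    rw [map_commutatorElement, E.map_tl, E.map_lift, commutatorElement_def, tg_conj hS.cert _ hk, xg_inv,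
      xg_mul]
    congr 1
    field_simp
    ring
  have hadd : ∀ k < D.nroots, ∀ t u, X k t * X k u = X k (t + u) := by
    intro k hk t u
    have hu := hmap k hk u
    simp only [X, dif_pos hk] at hu ⊢
    set d := ((chi D k (c k hk) : Fˣ) : F) - 1
    set g := E.tl (c k hk)
    have hco : Commute (E.lift k (t / d)) ⁅g, E.lift k (u / d)⁆ :=
      hself k hk _ _ _ u (E.map_lift _ _) hu
    calc ⁅g, E.lift k (t / d)⁆ * ⁅g, E.lift k (u / d)⁆
        = ⁅g, E.lift k (t / d)⁆ * (E.lift k (t / d) * ⁅g, E.lift k (u / d)⁆ * (E.lift k (t / d))⁻¹) := by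
          rw [hco.eq, mul_inv_cancel_right]
      _ = ⁅g, E.lift k (t / d) * E.lift k (u / d)⁆ := by simp only [commutatorElement_def]; group
      _ = _ := E.comm_congr rfl (by rw [map_mul, E.map_lift, E.map_lift, E.map_lift, xg_mul, add_div])
  have htor : ∀ k < D.nroots, ∀ (g : Γ) (v : Fin D.rank → Fˣ), π g = tg hS.cert v → ∀ t,
      g * X k t * g⁻¹ = X k (((chi D k v : Fˣ) : F) * t) := by
    intro k hk g v hg t
    simp only [X, dif_pos hk]
    rw [conjugate_commutatorElement]
    refine E.comm_congr ?_ ?_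
    · rw [map_mul, map_mul, map_inv, hg, E.map_tl, tg_comm, mul_inv_cancel_right]
    · rw [map_mul, map_mul, map_inv, hg, E.map_lift, E.map_lift, tg_conj hS.cert v hk, mul_div_assoc]
  refine ⟨X, hmap, hadd, htor, ?_⟩
  intro k hk Y hYm hYa ⟨g, χ, hχ, ⟨v, hgv⟩, hY⟩
  have hχ' : χ = ((chi D k v : Fˣ) : F) := by
    have := congrArg π (hY 1)
    rw [map_mul, map_mul, map_inv, hYm, hgv, tg_conj hS.cert v hk, hYm, mul_one, mul_one] at this
    exact (xg_inj hS.cert hk this).symm
  let f : F → Γ := fun t => Y t * (X k t)⁻¹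
  have hfk : ∀ t, π (f t) = 1 := fun t => by
    simp only [f]; rw [map_mul, map_inv, hYm, hmap k hk, mul_inv_cancel]
  have hfa : ∀ t u, f (t + u) = f t * f u := by
    intro t u
    simp only [f]
    rw [← hYa, ← hadd k hk, mul_inv_rev]
    calc Y t * Y u * ((X k u)⁻¹ * (X k t)⁻¹) = Y t * f u * (X k t)⁻¹ := by simp only [f]; group
      _ = Y t * (X k t)⁻¹ * f u := by
        rw [mul_assoc, ← E.mul_comm_ker (hfk u) (X k t)⁻¹, ← mul_assoc]
  have hfg : ∀ t, f (χ * t) = f t := by
    intro t
    rw [← E.conj_ker (hfk t) g]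
    simp only [f]
    rw [← hY, hχ', ← htor k hk g v hgv t]
    group
  intro t
  have h1 : f t = 1 := by
    have h2 : f (χ * (t / (χ - 1))) = f (t / (χ - 1)) * f t := by
      rw [← hfa]
      congr 1
      have : χ - 1 ≠ 0 := sub_ne_zero.2 hχ
      field_simp
      ring
    rw [hfg] at h2
    exact left_eq_mul.1 h2
  exact mul_inv_eq_one.1 h1

theorem Canon.zero {E : CExt hS π} {X : ℕ → F → Γ} (K : Canon E X) {k : ℕ} (hk : k < D.nroots) :
    X k 0 = 1 := by
  have := K.add k hk 0 0
  rw [add_zero] at this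
  exact mul_eq_left.1 this

theorem Canon.neg {E : CExt hS π} {X : ℕ → F → Γ} (K : Canon E X) {k : ℕ} (hk : k < D.nroots) (t : F) :
    X k (-t) = (X k t)⁻¹ :=
  eq_inv_of_mul_eq_one_left (by rw [K.add k hk, neg_add_cancel, K.zero hk])

variable {h : Full D A}

/-- the commutator formula for one pair of lifts -/
def Rel (D : ChevalleyDatum) (X : ℕ → F → Γ) (r s : ℕ) : Prop :=
  ∀ t u, (X s u)⁻¹ * (X r t)⁻¹ * X s u * X r t = ((D.commWord F r s t u).map fun p => X p.1 p.2).prod

/-- the positive roots from `m` on -/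
def above (D : ChevalleyDatum) (X : ℕ → F → Γ) (m : ℕ) : Subgroup Γ :=
  Subgroup.closure {g | ∃ k, D.IsPosRoot k ∧ m ≤ k ∧ ∃ t, g = X k t}

section above

variable {E : CExt h.toStd π} {X : ℕ → F → Γ}

theorem gen_mem_above {m k : ℕ} (hk : D.IsPosRoot k) (hm : m ≤ k) (t : F) : X k t ∈ above D X m :=
  Subgroup.subset_closure ⟨k, hk, hm, t, rfl⟩

theorem above_mono {m m' : ℕ} (hmm : m ≤ m') : above D X m' ≤ above D X m := by
  refine Subgroup.closure_mono ?_
  rintro g ⟨k, hk, hm, t, rfl⟩
  exact ⟨k, hk, hmm.trans hm, t, rfl⟩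

theorem word_mem_above (h : Full D A) {r s m : ℕ} (hr : D.IsPosRoot r) (hs : D.IsPosRoot s) (hm : m ≤ s + 1)
    (t u : F) : ((D.commWord F r s t u).map fun p => X p.1 p.2).prod ∈ above D X m := by
  refine Subgroup.list_prod_mem _ fun g hg => ?_
  obtain ⟨p, hp, rfl⟩ := List.mem_map.1 hg
  obtain ⟨c, hc, rfl⟩ := List.mem_map.1 hp
  obtain ⟨hcp, -, hlt⟩ := h.toStd.lt_commTerms hr hs hc
  exact gen_mem_above hcp (by omega) _

theorem above_conj (K : Canon E X) {p m : ℕ} (hp : D.IsPosRoot p) (hpm : p < m)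
    (hR : ∀ l, D.IsPosRoot l → m ≤ l → Rel D X p l) (b : F) {g : Γ} (hg : g ∈ above D X m) :
    X p b * g * (X p b)⁻¹ ∈ above D X m := by
  have key : above D X m ≤ (above D X m).comap (MulAut.conj (X p b)).toMonoidHom := by
    rw [above, Subgroup.closure_le]
    rintro g ⟨l, hl, hml, t, rfl⟩
    show X p b * X l t * (X p b)⁻¹ ∈ above D X m
    have e := hR l hl hml (-b) t
    rw [K.neg hp.1, inv_inv] at e
    rw [show X p b * X l t * (X p b)⁻¹ = X l t * ((X l t)⁻¹ * X p b * X l t * (X p b)⁻¹) by group, e]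
    exact Subgroup.mul_mem _ (gen_mem_above hl hml t) (word_mem_above h hp hl (by omega) _ _)
  exact key hg

theorem above_ker (K : Canon E X) : ∀ (n m : ℕ), D.nroots ≤ m + n →
    (∀ k l, D.IsPosRoot k → D.IsPosRoot l → m ≤ k → k < l → Rel D X k l) →
    ∀ g ∈ above D X m, π g = 1 → g = 1 := by
  intro n
  induction n with
  | zero =>
    intro m hm _ g hg _
    have : above D X m = ⊥ := by
      rw [above, Subgroup.closure_eq_bot_iff]
      rintro x ⟨k, hk, hmk, -⟩
      exact absurd hk.1 (by omega)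
    rwa [this, Subgroup.mem_bot] at hg
  | succ n ih =>
    intro m hm hR g hg hπ
    have hih := ih (m + 1) (by omega) fun k l hk hl hmk hkl => hR k l hk hl (by omega) hkl
    by_cases hp : D.IsPosRoot m
    · have hsplit : ∃ a, ∃ v ∈ above D X (m + 1), g = X m a * v := by
        have hn : ∀ (b : F), ∀ v ∈ above D X (m + 1), X m b * v * (X m b)⁻¹ ∈ above D X (m + 1) :=
          fun b v hv => above_conj (h := h) K hp (by omega) (fun l hl hml => hR m l hp hl le_rfl (by omega)) b hv
        clear hπ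
        induction hg using Subgroup.closure_induction with
        | one => exact ⟨0, 1, Subgroup.one_mem _, by rw [K.zero hp.1, mul_one]⟩
        | mem x hx =>
          obtain ⟨k, hk, hmk, t, rfl⟩ := hx
          rcases hmk.lt_or_eq with hlt | rfl
          · exact ⟨0, _, gen_mem_above hk hlt t, by rw [K.zero hp.1, one_mul]⟩
          · exact ⟨t, 1, Subgroup.one_mem _, by rw [mul_one]⟩
        | mul x y _ _ hx hy =>
          obtain ⟨a, v, hv, rfl⟩ := hx
          obtain ⟨b, w, hw, rfl⟩ := hy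
          refine ⟨a + b, X m (-b) * v * (X m (-b))⁻¹ * w, Subgroup.mul_mem _ (hn _ v hv) hw, ?_⟩
          rw [K.neg hp.1, ← K.add m hp.1]
          group
        | inv x _ hx =>
          obtain ⟨a, v, hv, rfl⟩ := hx
          refine ⟨-a, X m a * v⁻¹ * (X m a)⁻¹, hn _ _ (Subgroup.inv_mem _ hv), ?_⟩
          rw [K.neg hp.1]
          group
      obtain ⟨a, v, hv, rfl⟩ := hsplit
      have hmem : (π v : GL D.Idx F) ∈ rootsU D F {k | D.IsPosRoot k ∧ m < k} := by
        have key : above D X (m + 1) ≤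
            ((rootsU D F {k | D.IsPosRoot k ∧ m < k}).comap (D.group F).subtype).comap π := by
          rw [above, Subgroup.closure_le]
          rintro x ⟨k, hk, hmk, t, rfl⟩
          show (π (X k t) : GL D.Idx F) ∈ rootsU D F _
          rw [K.map k hk.1, coe_xg]
          exact xG_mem_rootsU h.cert (S := {k | D.IsPosRoot k ∧ m < k}) (show D.IsPosRoot k ∧ m < k from ⟨hk, hmk⟩) t
        exact key hv
      have ha : a = 0 := by
        refine eq_zero_of_xG_mem h.toStd (S := {k | D.IsPosRoot k ∧ m < k}) hp (fun k hk => hk) ?_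
        have e : (π (X m a) : GL D.Idx F) = (π v : GL D.Idx F)⁻¹ := by
          rw [← mul_eq_one_iff_eq_inv, ← Subgroup.coe_mul, ← map_mul, hπ, Subgroup.coe_one]
        rw [K.map m hp.1, coe_xg] at e
        rw [e]
        exact Subgroup.inv_mem _ hmem
      subst ha
      rw [K.zero hp.1, one_mul] at hπ ⊢
      exact hih v hv hπ
    · refine hih g ?_ hπ
      have : above D X m ≤ above D X (m + 1) := by
        refine Subgroup.closure_mono ?_
        rintro x ⟨k, hk, hmk, hx⟩
        exact ⟨k, hk, hmk.lt_of_ne (fun e => hp (e ▸ hk)), hx⟩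
      exact this hg

theorem above_inj (K : Canon E X) {m : ℕ}
    (hR : ∀ k l, D.IsPosRoot k → D.IsPosRoot l → m ≤ k → k < l → Rel D X k l)
    {g g' : Γ} (hg : g ∈ above D X m) (hg' : g' ∈ above D X m) (e : π g = π g') : g = g' :=
  mul_inv_eq_one.1 (above_ker (h := h) K D.nroots m (by omega) hR _
    (Subgroup.mul_mem _ hg (Subgroup.inv_mem _ hg')) (by rw [map_mul, map_inv, e, mul_inv_cancel]))

theorem map_word (K : Canon E X) {r s : ℕ} (hr : r < D.nroots) (hs : s < D.nroots) (t u : F) :
    π ((D.commWord F r s t u).map fun p => X p.1 p.2).prod =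
      ((D.commWord F r s t u).map fun p => xg h.cert p.1 p.2).prod := by
  rw [map_list_prod, List.map_map]
  refine congrArg List.prod (List.map_congr_left fun p hp => ?_)
  obtain ⟨c, hc, rfl⟩ := List.mem_map.1 hp
  exact K.map _ (commTerms_lt h hr hs hc) _

theorem map_lhs (K : Canon E X) {r s : ℕ} (hr : r < D.nroots) (hs : s < D.nroots) (h1 : s ≠ r)
    (h2 : s ≠ D.neg r) (t u : F) :
    π ((X s u)⁻¹ * (X r t)⁻¹ * X s u * X r t) = π ((D.commWord F r s t u).map fun p => X p.1 p.2).prod := by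
  rw [map_word (h := h) K hr hs, map_mul, map_mul, map_mul, map_inv, map_inv, K.map r hr, K.map s hs]
  exact xg_comm h.toStd hr hs h1 h2 t u

end above

/-- the torus separates the pair, or the lifts commute -/
def Kill (hS : Std D A) (π : Γ →* ↥(D.group F)) (r s : ℕ) : Prop :=
  (∃ c : Fin D.rank → Fˣ, (chi D r c = 1 ∧ chi D s c ≠ 1) ∨ (chi D s c = 1 ∧ chi D r c ≠ 1)) ∨ Comm hS π r s ∨
    ∃ p : ℕ, (p : F) = 0 ∧ ∀ z : Γ, π z = 1 → z ^ p = 1 → z = 1

theorem rel_pos_step {E : CExt h.toStd π} {X : ℕ → F → Γ} (K : Canon E X) {r s : ℕ} (hr : D.IsPosRoot r)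
    (hs : D.IsPosRoot s) (hrs : r < s) (hkill : Kill h.toStd π r s)
    (hA : ∀ k l, D.IsPosRoot k → D.IsPosRoot l → r < k → k < l → Rel D X k l)
    (hB : ∀ l, D.IsPosRoot l → s < l → Rel D X r l) : Rel D X r s := by
  have h1 : s ≠ r := by omega
  have h2 : s ≠ D.neg r := h.toStd.ne_neg hr hs
  let L : F → F → Γ := fun t u => (X s u)⁻¹ * (X r t)⁻¹ * X s u * X r t
  let R : F → F → Γ := fun t u => ((D.commWord F r s t u).map fun p => X p.1 p.2).prod
  have hRm : ∀ t u, R t u ∈ above D X (s + 1) := fun t u => word_mem_above h hr hs le_rfl t u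
  have hRm' : ∀ t u, R t u ∈ above D X (r + 1) := fun t u => above_mono (by omega) (hRm t u)
  have inj : ∀ {g g'}, g ∈ above D X (r + 1) → g' ∈ above D X (r + 1) → π g = π g' → g = g' :=
    fun hg hg' e => above_inj (h := h) K (fun k l hk hl hmk hkl => hA k l hk hl hmk hkl) hg hg' e
  have hπ : ∀ t u, π (L t u) = π (R t u) := fun t u => map_lhs (h := h) K hr.1 hs.1 h1 h2 t u
  let z : F → F → Γ := fun t u => L t u * (R t u)⁻¹
  have hz : ∀ t u, π (z t u) = 1 := fun t u => by
    simp only [z]; rw [map_mul, map_inv, hπ, mul_inv_cancel]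
  have hLz : ∀ t u, L t u = z t u * R t u := fun t u => by simp [z]
  have zc : ∀ t u g, g * z t u = z t u * g := fun t u g => E.mul_comm_ker (hz t u) g
  have hzadd : ∀ t u u', z t (u + u') = z t u * z t u' := by
    intro t u u'
    have e1 : L t (u + u') = (X s u')⁻¹ * L t u * X s u' * L t u' := by
      simp only [L]; rw [← K.add s hs.1]; group
    have e2 : L t (u + u') = z t u * z t u' * ((X s u')⁻¹ * R t u * X s u' * R t u') := by
      rw [e1, hLz t u, hLz t u']
      calc (X s u')⁻¹ * (z t u * R t u) * X s u' * (z t u' * R t u')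
          = ((X s u')⁻¹ * z t u) * (R t u * X s u' * z t u') * R t u' := by group
        _ = (z t u * (X s u')⁻¹) * (z t u' * (R t u * X s u')) * R t u' := by rw [zc, zc t u']
        _ = z t u * ((X s u')⁻¹ * z t u') * R t u * X s u' * R t u' := by group
        _ = z t u * (z t u' * (X s u')⁻¹) * R t u * X s u' * R t u' := by rw [zc t u']
        _ = _ := by group
    have e3 : (X s u')⁻¹ * R t u * X s u' * R t u' = R t (u + u') := by
      refine inj ?_ (hRm' _ _) ?_
      · exact mul_mem (mul_mem (mul_mem (inv_mem (gen_mem_above hs (by omega) _)) (hRm' _ _))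
          (gen_mem_above hs (by omega) _)) (hRm' _ _)
      · rw [← hπ, e2, map_mul π (z t u * z t u'), map_mul π (z t u), hz, hz, one_mul, one_mul]
    show L t (u + u') * (R t (u + u'))⁻¹ = _
    rw [e2, e3, mul_inv_cancel_right]
  have hzadd' : ∀ t t' u, z (t + t') u = z t' u * z t u := by
    intro t t' u
    have e1 : L (t + t') u = L t' u * ((X r t')⁻¹ * L t u * X r t') := by
      simp only [L]; rw [← K.add r hr.1]; group
    have e2 : L (t + t') u = z t' u * z t u * (R t' u * ((X r t')⁻¹ * R t u * X r t')) := by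
      rw [e1, hLz t u, hLz t' u]
      calc z t' u * R t' u * ((X r t')⁻¹ * (z t u * R t u) * X r t')
          = z t' u * ((R t' u * (X r t')⁻¹) * z t u) * R t u * X r t' := by group
        _ = z t' u * (z t u * (R t' u * (X r t')⁻¹)) * R t u * X r t' := by rw [zc t u]
        _ = _ := by group
    have e3 : R t' u * ((X r t')⁻¹ * R t u * X r t') = R (t + t') u := by
      refine inj (mul_mem (hRm' _ _) (above_mono (by omega : r + 1 ≤ s + 1) ?_)) (hRm' _ _) ?_
      · have := above_conj (h := h) K hr (by omega) (fun l hl hml => hB l hl (by omega)) (-t') (hRm t u)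
        rwa [K.neg hr.1, inv_inv] at this
      · rw [← hπ, e2, map_mul π (z t' u * z t u), map_mul π (z t' u), hz, hz, one_mul, one_mul]
    show L (t + t') u * (R (t + t') u)⁻¹ = _
    rw [e2, e3, mul_inv_cancel_right]
  have hinv : ∀ (c : Fin D.rank → Fˣ) t u,
      z (((chi D r c : Fˣ) : F) * t) (((chi D s c : Fˣ) : F) * u) = z t u := by
    intro c t u
    rw [← E.conj_ker (hz t u) (E.tl c)]
    simp only [z, L, R]
    have e1 := K.tor r hr.1 (E.tl c) c (E.map_tl c) t
    have e2 := K.tor s hs.1 (E.tl c) c (E.map_tl c) u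
    have e3 : ((D.commWord F r s (((chi D r c : Fˣ) : F) * t) (((chi D s c : Fˣ) : F) * u)).map
        fun p => X p.1 p.2).prod =
        E.tl c * ((D.commWord F r s t u).map fun p => X p.1 p.2).prod * (E.tl c)⁻¹ := by
      rw [← MulAut.conj_apply, map_list_prod]
      simp only [ChevalleyDatum.commWord, List.map_map]
      refine congrArg List.prod (List.map_congr_left fun d hd => ?_)
      simp only [Function.comp_apply, MulAut.conj_apply]
      rw [K.tor _ (commTerms_lt h hr.1 hs.1 hd) (E.tl c) c (E.map_tl c), chi_term h hr.1 hs.1 hd c]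
      congr 1
      rw [Units.val_mul, Units.val_pow_eq_pow_val, Units.val_pow_eq_pow_val,
        show -(((chi D r c : Fˣ) : F) * t) = ((chi D r c : Fˣ) : F) * -t by ring, mul_pow, mul_pow]
      ring
    rw [e3, ← e1, ← e2]
    group
  intro t u
  have hfin : z t u = 1 := by
    rcases hkill with ⟨c, ⟨hc1, hc2⟩ | ⟨hc1, hc2⟩⟩ | hcomm | ⟨p, hp, hker⟩
    · have hd : ((chi D s c : Fˣ) : F) - 1 ≠ 0 := sub_ne_zero.2 fun e => hc2 (Units.ext (by simpa using e))
      have h3 := hinv c t (u / (((chi D s c : Fˣ) : F) - 1))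
      rw [hc1, Units.val_one, one_mul] at h3
      have h4 : z t (((chi D s c : Fˣ) : F) * (u / (((chi D s c : Fˣ) : F) - 1))) =
          z t (u / (((chi D s c : Fˣ) : F) - 1)) * z t u := by
        rw [← hzadd]
        congr 1
        field_simp
        ring
      rw [h3] at h4
      exact left_eq_mul.1 h4
    · have hd : ((chi D r c : Fˣ) : F) - 1 ≠ 0 := sub_ne_zero.2 fun e => hc2 (Units.ext (by simpa using e))
      have h3 := hinv c (t / (((chi D r c : Fˣ) : F) - 1)) u
      rw [hc1, Units.val_one, one_mul] at h3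
      have h4 : z (((chi D r c : Fˣ) : F) * (t / (((chi D r c : Fˣ) : F) - 1))) u =
          z t u * z (t / (((chi D r c : Fˣ) : F) - 1)) u := by
        rw [← hzadd']
        congr 1
        field_simp
        ring
      rw [h3] at h4
      exact right_eq_mul.1 h4
    · have hL1 : L t u = 1 := by
        have hcm := hcomm (X r t) (X s u) t u (K.map r hr.1 t) (K.map s hs.1 u)
        simp only [L]
        rw [show (X s u)⁻¹ * (X r t)⁻¹ * X s u * X r t = (X s u)⁻¹ * (X r t)⁻¹ * (X s u * X r t) by group,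
          hcm.symm.eq]
        group
      have hR1 : R t u = 1 :=
        inj (hRm' t u) (Subgroup.one_mem _) (by rw [← hπ, hL1, map_one])
      simp only [z]
      rw [hL1, hR1, inv_one, one_mul]
    · refine hker _ (hz t u) ?_
      have hn : ∀ n : ℕ, z ((n : F) * t) u = z t u ^ n := by
        intro n
        induction n with
        | zero =>
          rw [Nat.cast_zero, zero_mul, pow_zero]
          have := hzadd' 0 0 u
          rw [add_zero] at this
          exact left_eq_mul.1 this
        | succ n ih => rw [Nat.cast_succ, add_mul, one_mul, hzadd', ih, pow_succ']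
      rw [← hn, hp, ← Nat.cast_zero, hn, pow_zero]
  exact mul_inv_eq_one.1 hfin

theorem rel_pos {E : CExt h.toStd π} {X : ℕ → F → Γ} (K : Canon E X)
    (hkill : ∀ r s, D.IsPosRoot r → D.IsPosRoot s → r < s → Kill h.toStd π r s ∨ Rel D X r s) :
    ∀ r s, D.IsPosRoot r → D.IsPosRoot s → s ≠ r → Rel D X r s := by
  have main : ∀ n r, D.nroots ≤ r + n → ∀ s, D.IsPosRoot r → D.IsPosRoot s → r < s → Rel D X r s := by
    intro n
    induction n with
    | zero => intro r hn s hr; exact absurd hr.1 (by omega)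
    | succ n ih =>
      intro r hn
      have hA : ∀ k l, D.IsPosRoot k → D.IsPosRoot l → r < k → k < l → Rel D X k l :=
        fun k l hk hl hrk hkl => ih k (by omega) l hk hl hkl
      have inner : ∀ m s, D.nroots ≤ s + m → D.IsPosRoot r → D.IsPosRoot s → r < s → Rel D X r s := by
        intro m
        induction m with
        | zero => intro s hm _ hs; exact absurd hs.1 (by omega)
        | succ m ihm =>
          intro s hm hr hs hrs
          rcases hkill r s hr hs hrs with hk | hk
          · exact rel_pos_step (h := h) K hr hs hrs hk hA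
              fun l hl hsl => ihm l (by omega) hr hl (by omega)
          · exact hk
      exact fun s => inner D.nroots s (by omega)
  intro r s hr hs hne t u
  rcases lt_or_gt_of_ne hne with hlt | hlt
  · have hR : ∀ k l, D.IsPosRoot k → D.IsPosRoot l → 0 ≤ k → k < l → Rel D X k l :=
      fun k l hk hl _ hkl => main D.nroots k (by omega) l hk hl hkl
    refine above_inj (h := h) K hR ?_ (word_mem_above h hr hs (Nat.zero_le _) t u)
      (map_lhs (h := h) K hr.1 hs.1 hne (h.toStd.ne_neg hr hs) t u)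
    exact mul_mem (mul_mem (mul_mem (inv_mem (gen_mem_above hs (Nat.zero_le _) _))
      (inv_mem (gen_mem_above hr (Nat.zero_le _) _))) (gen_mem_above hs (Nat.zero_le _) _))
      (gen_mem_above hr (Nat.zero_le _) _)
  · exact main D.nroots r (by omega) s hr hs hlt t u

/-- The Weyl elements permute the normalised lifts. -/
theorem Canon.weyl {E : CExt h.toStd π} {X : ℕ → F → Γ} (K : Canon E X)
    {σ : ℕ → ℕ → ℕ} {η : ℕ → ℕ → ℤ} {cart coro : ℕ → ℕ → ℤ} {par : ℕ → ℕ × ℕ} {dep : ℕ → ℕ} {w0 : List ℕ}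
    (C : StCert D σ η cart coro par dep w0) (hE : StEdge D σ η F) {i : ℕ} (hi : i < D.rank) {g : Γ}
    (hg : π g = thetaGroup h (nSt D F i 1)) {k : ℕ} (hk : k < D.nroots)
    (hchi : ∃ c : Fin D.rank → Fˣ, ((chi D k c : Fˣ) : F) ≠ 1) (t : F) :
    g * X k t * g⁻¹ = X (σ i k) ((η i k : F) * t) := by
  have hA := C.isAut hi
  have he : (η i k : F) * (η i k : F) = 1 := hA.sq_sign F hk
  have hθgen : ∀ r < D.nroots, ∀ t : F, thetaGroup h (D.stGen F r t) = xg h.cert r t := fun r hr t =>
    Subtype.ext (by rw [coe_thetaGroup, theta_gen h hr]; rfl)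
  obtain ⟨c, hc⟩ := hchi
  let Y : F → Γ := fun v => g * X k ((η i k : F) * v) * g⁻¹
  have hn : π g * tg h.cert c * (π g)⁻¹ = tg h.cert (reflTorus D ⟨i, hi⟩ c) := by
    refine Subtype.ext ?_
    have e : ((π g : ↥(D.group F)) : GL D.Idx F) = nG h.cert (D.simple i) 1 := by
      rw [hg, coe_thetaGroup]
      have hp := h.cert.wf.simple_lt i hi
      refine Units.ext ?_
      simp only [nSt, map_mul, theta_gen h hp, theta_gen h (h.cert.wf.neg_lt _ hp), Units.val_mul, coe_xG,
        coe_nG]
      simp [ChevalleyDatum.nMat, ChevalleyDatum.nWord, ChevalleyDatum.wordMat, mul_assoc]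
    simp only [Subgroup.coe_mul, Subgroup.coe_inv, e]
    exact nG_simple_mul_torus h ⟨i, hi⟩ 1 one_ne_zero c
  have key := K.uniq (σ i k) (hA.lt k hk) Y (fun v => ?_) (fun v w => ?_) ?_ ((η i k : F) * t)
  · simp only [Y] at key
    rwa [← mul_assoc, he, one_mul] at key
  · simp only [Y]
    rw [map_mul, map_mul, map_inv, hg, K.map k hk, ← hθgen k hk, ← map_inv, ← map_mul, ← map_mul,
      hE i hi k hk, hθgen _ (hA.lt k hk), ← mul_assoc, he, one_mul]
  · simp only [Y]
    rw [mul_add, ← K.add k hk]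
    group
  · refine ⟨g * E.tl c * g⁻¹, ((chi D k c : Fˣ) : F), hc, ⟨reflTorus D ⟨i, hi⟩ c, ?_⟩, fun v => ?_⟩
    · rw [map_mul, map_mul, map_inv, E.map_tl, hn]
    · simp only [Y]
      calc g * E.tl c * g⁻¹ * (g * X k ((η i k : F) * v) * g⁻¹) * (g * E.tl c * g⁻¹)⁻¹
          = g * (E.tl c * X k ((η i k : F) * v) * (E.tl c)⁻¹) * g⁻¹ := by group
        _ = _ := by rw [K.tor k hk _ c (E.map_tl c)]; congr 3; ring

end CfsgLib.ChevMult
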