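import Cfsg.Agent.Lib.ChevMult.Universal
import Cfsg.Agent.Lib.SteinbergPres.CoverAll

/-!
The group of the relators (R1), (R2) lifts uniquely into every central extension, provided the central extensions
of the Chevalley group have lifts satisfying these relators.
-/

set_option autoImplicit false
set_option linter.unusedSectionVars false

namespace CfsgLib.ChevMult

open Cfsg.Lie CfsgLib.Chevalley CfsgLib.SteinbergPres
open scoped commutatorElement

universe v v' w

variable {D : ChevalleyDatum} {A : Aux} {F : Type w} [Field F]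

/-- two homomorphisms from a perfect group agreeing modulo a central kernel are equal -/
theorem eq_of_comp_eq {Δ : Type*} {Γ : Type*} {G : Type*} [Group Δ] [Group Γ] [Group G]
    (hperf : commutator Δ = ⊤) {π : Γ →* G} (hc : π.ker ≤ Subgroup.center Γ) {φ ψ : Δ →* Γ}
    (e : π.comp φ = π.comp ψ) : φ = ψ := by
  have hle : commutator Δ ≤ φ.eqLocus ψ := by
    rw [commutator_def, Subgroup.commutator_le]
    intro a _ b _
    show φ ⁅a, b⁆ = ψ ⁅a, b⁆
    rw [map_commutatorElement, map_commutatorElement]
    exact SchurMult.comm_eq_of_map_eq hc (DFunLike.congr_fun e a) (DFunLike.congr_fun e b)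
  exact MonoidHom.ext fun x => hle (by rw [hperf]; exact Subgroup.mem_top x)

/-- the derived group of a central extension of a perfect group is perfect and still maps onto it -/
theorem perfect_commutator {P : Type*} {Δ : Type*} [Group P] [Group Δ] (ρ : P →* Δ)
    (hs : Function.Surjective ρ) (hc : ρ.ker ≤ Subgroup.center P) (hperf : commutator Δ = ⊤) :
    Function.Surjective (ρ.comp (commutator P).subtype) ∧ commutator ↥(commutator P) = ⊤ := by
  have hsurj : Function.Surjective (ρ.comp (commutator P).subtype) := by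
    rw [← MonoidHom.range_eq_top, MonoidHom.range_comp, Subgroup.range_subtype, commutator_def,
      Subgroup.map_commutator, ← MonoidHom.range_eq_map, MonoidHom.range_eq_top.2 hs, ← commutator_def, hperf]
  refine ⟨hsurj, ?_⟩
  rw [eq_top_iff]
  refine (Subgroup.map_le_map_iff_of_injective (f := (commutator P).subtype)
    (Subgroup.subtype_injective _)).1 ?_
  rw [← MonoidHom.range_eq_map, Subgroup.range_subtype, commutator_def (commutator P : Subgroup P),
    Subgroup.map_commutator, ← MonoidHom.range_eq_map, Subgroup.range_subtype]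
  conv_lhs => rw [commutator_def]
  rw [Subgroup.commutator_le]
  intro x _ y _
  obtain ⟨a, ha⟩ := hsurj (ρ x)
  obtain ⟨b, hb⟩ := hsurj (ρ y)
  rw [SchurMult.comm_eq_of_map_eq hc (show ρ x = ρ (a : P) from ha.symm) (show ρ y = ρ (b : P) from hb.symm)]
  exact Subgroup.commutator_mem_commutator a.2 b.2

theorem existsUnique_lift (h : Full D A) (hperf : commutator (D.SteinbergCover F) = ⊤)
    (θ : D.SteinbergCover F →* ↥(D.group F)) (hθs : Function.Surjective θ)
    (hθc : θ.ker ≤ Subgroup.center (D.SteinbergCover F))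
    (hθg : ∀ (r : ℕ) (t : F), r < D.nroots →
      ((θ (D.scGen F r t) : GL D.Idx F) : Matrix D.Idx D.Idx F) = D.x F r t)
    {G₁ : Type v'} {E : Type v} [Group G₁] [Group E] (π₁ : E →* G₁) (hπ : Function.Surjective π₁)
    (hc : π₁.ker ≤ Subgroup.center E) (σ : D.SteinbergCover F →* G₁)
    (hlifts : ∀ (Γ : Type (max v w)) [Group Γ] (ρ : Γ →* D.SteinbergCover F) (ι : Γ →* E),
      Function.Surjective ρ → ρ.ker ≤ Subgroup.center Γ → commutator Γ = ⊤ → π₁.comp ι = σ.comp ρ →
      (∀ g, ρ g = 1 → ι g = 1 → g = 1) → CExt h.toStd (θ.comp ρ) → ∃ X, Lifts h.toStd (θ.comp ρ) X) :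
    ∃! τ : D.SteinbergCover F →* E, π₁.comp τ = σ := by
  let P : Subgroup (E × D.SteinbergCover F) :=
    (π₁.comp (MonoidHom.fst E (D.SteinbergCover F))).eqLocus (σ.comp (MonoidHom.snd E (D.SteinbergCover F)))
  let ρ : P →* D.SteinbergCover F := (MonoidHom.snd E (D.SteinbergCover F)).comp P.subtype
  have hρs : Function.Surjective ρ := fun d => by
    obtain ⟨e, he⟩ := hπ (σ d)
    exact ⟨⟨(e, d), he⟩, rfl⟩
  have hρc : ρ.ker ≤ Subgroup.center P := by
    intro x hx
    have h1 : ((x : E × D.SteinbergCover F)).2 = 1 := hx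
    have h2 : (x : E × D.SteinbergCover F).1 ∈ π₁.ker := by
      have h3 : π₁ (x : E × D.SteinbergCover F).1 = σ (x : E × D.SteinbergCover F).2 := x.2
      rw [MonoidHom.mem_ker, h3, h1, map_one]
    rw [Subgroup.mem_center_iff]
    intro y
    refine Subtype.ext (Prod.ext ?_ ?_)
    · exact Subgroup.mem_center_iff.1 (hc h2) (y : E × D.SteinbergCover F).1
    · show (y : E × D.SteinbergCover F).2 * (x : E × D.SteinbergCover F).2 =
        (x : E × D.SteinbergCover F).2 * (y : E × D.SteinbergCover F).2
      rw [h1, mul_one, one_mul]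
  obtain ⟨hs', hperf'⟩ := perfect_commutator ρ hρs hρc hperf
  let ρ' : ↥(commutator P) →* D.SteinbergCover F := ρ.comp (commutator P).subtype
  have hρ'c : ρ'.ker ≤ Subgroup.center ↥(commutator P) := fun x hx => by
    rw [Subgroup.mem_center_iff]
    intro y
    exact Subtype.ext (Subgroup.mem_center_iff.1 (hρc (show (x : P) ∈ ρ.ker from hx)) (y : P))
  have E' : CExt h.toStd (θ.comp ρ') := ⟨hθs.comp hs', fun x hx =>
    preimage_center_le ρ' hρ'c hperf' (hθc hx)⟩
  obtain ⟨X, hX⟩ := hlifts _ ρ' ((MonoidHom.fst E (D.SteinbergCover F)).comp (P.subtype.comp (commutator P).subtype))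
    hs' hρ'c hperf' (MonoidHom.ext fun g => ((g : P).2 :)) (fun g h1 h2 => Subtype.ext (Subtype.ext (Prod.ext h2 h1))) E'
  obtain ⟨φ, hφ⟩ := hX.exists_hom fun r hr s hs c hcm => commTerms_lt h hr hs hcm
  have hid : θ.comp (ρ'.comp φ) = θ.comp (MonoidHom.id _) := by
    apply PresentedGroup.ext
    rintro ⟨⟨r, hr⟩, t⟩
    have e : (PresentedGroup.of (⟨r, hr⟩, t) : D.SteinbergCover F) = D.scGen F r t := by
      simp [ChevalleyDatum.scGen, ChevalleyDatum.stX, hr, PresentedGroup.of]
    rw [e]
    refine ((hφ r hr t).2).trans ?_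
    refine Subtype.ext (Units.ext ?_)
    rw [MonoidHom.comp_apply, MonoidHom.id_apply, hθg r t hr, coe_xg, coe_xG]
  have hid' := eq_of_comp_eq hperf hθc hid
  refine ⟨(MonoidHom.fst E (D.SteinbergCover F)).comp (P.subtype.comp ((commutator P).subtype.comp φ)), ?_, ?_⟩
  · refine MonoidHom.ext fun d => ?_
    exact (((φ d : ↥(commutator P)) : P).2).trans (congrArg σ (DFunLike.congr_fun hid' d))
  · intro τ hτ
    refine eq_of_comp_eq hperf hc ?_
    rw [hτ]
    refine MonoidHom.ext fun d => ?_
    exact ((((φ d : ↥(commutator P)) : P).2).trans (congrArg σ (DFunLike.congr_fun hid' d))).symm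

end CfsgLib.ChevMult
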